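import Mathlib
import Cfsg.Prelude.Def_GeometricClasses
import Cfsg.Agent.Lib.Helper71.Asch0
import Cfsg.Agent.Lib.Helper1.SPGXTDefs

/-!
# Project SPG (helper71, S5662), sub-project XT (helper1), piece XT-D1 (helper61)

Normalising a Frobenius intertwiner `B` of an absolutely irreducible group to twisted norm one:
`N = B σ(B) ⋯ σ^(e-1)(B)` commutes with the group, so `N = c • 1` with `σ c = c`; every such `c`
is a twisted norm `μ^(1 + p + ⋯ + p^(e-1))`, and `μ • B` has twisted norm `1` for a suitable `μ`.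
-/

set_option autoImplicit false

namespace Cfsg.Agent.Lib.Helper61.SPGXTD1

open Matrix Cfsg.Geo Cfsg.Agent.Lib.Helper71.Asch Cfsg.Agent.Lib.Helper1.SPGXT

variable {n : ℕ} {F : Type*} [Field F] [Fintype F]

/-- `s p j = 1 + p + ⋯ + p^(j-1)` -/
def geo (p : ℕ) : ℕ → ℕ
  | 0 => 0
  | (j + 1) => 1 + p * geo p j

theorem geo_mul (q : ℕ) (j : ℕ) : geo (q + 1) j * q + 1 = (q + 1) ^ j := by
  induction j with
  | zero => simp [geo]
  | succ j ih =>
    have h1 : geo (q + 1) (j + 1) * q + 1 = (q + 1) * (geo (q + 1) j * q + 1) := by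
      show (1 + (q + 1) * geo (q + 1) j) * q + 1 = (q + 1) * (geo (q + 1) j * q + 1)
      ring
    rw [h1, ih, pow_succ]
    ring

omit [Fintype F] in
theorem map_smul_ring (σ : F →+* F) (c : F) (M : Matrix (Fin n) (Fin n) F) :
    (c • M).map σ = σ c • M.map σ := by
  ext i j
  simp

omit [Fintype F] in
theorem ne_zero_of_isUnit (hn : 1 ≤ n) (M : Matrix (Fin n) (Fin n) F) (hM : IsUnit M) :
    M ≠ 0 := by
  have hne : Nonempty (Fin n) := ⟨⟨0, hn⟩⟩
  rintro rfl
  rw [Matrix.isUnit_iff_isUnit_det, Matrix.det_zero] at hM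
  exact not_isUnit_zero hM

omit [Fintype F] in
theorem tw_comm (p : ℕ) [Fact p.Prime] [CharP F p] (B x : Matrix (Fin n) (Fin n) F)
    (hx : x * B = B * x.map (frobenius F p)) (j : ℕ) :
    x * tw (frobenius F p) B j = tw (frobenius F p) B j * x.map (fun y => y ^ p ^ j) := by
  induction j with
  | zero =>
    rw [tw_zero, mul_one, one_mul]
    ext a b
    simp
  | succ j ih =>
    rw [tw_succ, ← mul_assoc, hx, mul_assoc, ← Matrix.map_mul, ih, Matrix.map_mul, ← mul_assoc]
    congr 1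
    ext a b
    simp [frobenius_def, ← pow_mul, pow_succ]

omit [Fintype F] in
theorem tw_succ_right (p : ℕ) [Fact p.Prime] [CharP F p] (B : Matrix (Fin n) (Fin n) F)
    (j : ℕ) :
    tw (frobenius F p) B (j + 1) = tw (frobenius F p) B j * B.map (fun y => y ^ p ^ j) := by
  induction j with
  | zero =>
    rw [tw_succ, tw_zero, Matrix.map_one _ (map_zero _) (map_one _), mul_one, one_mul]
    ext a b
    simp
  | succ j ih =>
    have h1 : tw (frobenius F p) B (j + 1 + 1) =
        B * (tw (frobenius F p) B (j + 1)).map (frobenius F p) := tw_succ _ _ _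
    rw [h1]
    conv_lhs => rw [ih]
    rw [Matrix.map_mul, ← mul_assoc, ← tw_succ]
    congr 1
    ext a b
    simp [frobenius_def, ← pow_mul, pow_succ]

omit [Fintype F] in
theorem tw_isUnit (σ : F →+* F) (B : Matrix (Fin n) (Fin n) F) (hB : IsUnit B) (j : ℕ) :
    IsUnit (tw σ B j) := by
  induction j with
  | zero =>
    rw [tw_zero]
    exact isUnit_one
  | succ j ih =>
    rw [tw_succ]
    refine hB.mul ?_
    rw [Matrix.isUnit_iff_isUnit_det] at ih ⊢
    have h1 : ((tw σ B j).map σ).det = σ (tw σ B j).det := by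
      rw [RingHom.map_det]
      rfl
    rw [h1]
    exact ih.map σ

omit [Fintype F] in
theorem tw_smul (p : ℕ) [Fact p.Prime] [CharP F p] (μ : F) (B : Matrix (Fin n) (Fin n) F)
    (j : ℕ) :
    tw (frobenius F p) (μ • B) j = μ ^ geo p j • tw (frobenius F p) B j := by
  induction j with
  | zero =>
    rw [tw_zero, tw_zero]
    show (1 : Matrix (Fin n) (Fin n) F) = μ ^ 0 • 1
    rw [pow_zero, one_smul]
  | succ j ih =>
    rw [tw_succ, tw_succ, ih, map_smul_ring, Matrix.smul_mul, Matrix.mul_smul, smul_smul,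
      frobenius_def]
    congr 1
    show μ * (μ ^ geo p j) ^ p = μ ^ (1 + p * geo p j)
    rw [pow_add, pow_one, ← pow_mul, mul_comm (geo p j) p]

/-- every element of the prime field is a twisted norm -/
theorem exists_norm (p e : ℕ) [Fact p.Prime] (hq : Fintype.card F = p ^ e) (c : F)
    (hc : c ≠ 0) (hcp : c ^ p = c) : ∃ μ : F, μ ≠ 0 ∧ μ ^ geo p e = c := by
  classical
  have hp : p.Prime := Fact.out
  obtain ⟨q, hpq⟩ : ∃ q, p = q + 1 := ⟨p - 1, by have := hp.pos; omega⟩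
  have hq0 : 0 < q := by have := hp.two_le; omega
  have hgeo : geo p e * q + 1 = p ^ e := by rw [hpq]; exact geo_mul q e
  have hcq : c ^ q = 1 := by
    apply mul_right_cancel₀ hc
    rw [← pow_succ, ← hpq, hcp, one_mul]
  obtain ⟨g, hg⟩ := IsCyclic.exists_generator (α := Fˣ)
  have hord : orderOf g = geo p e * q := by
    rw [orderOf_eq_card_of_forall_mem_zpowers hg, Nat.card_eq_fintype_card, Fintype.card_units,
      hq, ← hgeo]
    rfl
  obtain ⟨k, hk⟩ : ∃ k : ℕ, g ^ k = Units.mk0 c hc :=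
    (Submonoid.mem_powers_iff _ _).mp ((mem_powers_iff_mem_zpowers).mpr (hg _))
  have h1 : g ^ (k * q) = 1 := by
    rw [pow_mul, hk]
    apply Units.ext
    rw [Units.val_pow_eq_pow_val, Units.val_mk0, hcq, Units.val_one]
  have h2 : geo p e * q ∣ k * q := by
    rw [← hord]
    exact orderOf_dvd_of_pow_eq_one h1
  obtain ⟨m, hm⟩ := Nat.dvd_of_mul_dvd_mul_right hq0 h2
  refine ⟨((g ^ m : Fˣ) : F), Units.ne_zero _, ?_⟩
  rw [← Units.val_pow_eq_pow_val, ← pow_mul, mul_comm, ← hm, hk, Units.val_mk0]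

/-- PIECE XT-D1 -/
theorem XTD1 (hn : 1 ≤ n) (L : Subgroup (GL (Fin n) F))
    (hLa : ActsAbsolutelyIrreducibly (matrixSet L)) (p e : ℕ) [Fact p.Prime] [CharP F p]
    (hq : Fintype.card F = p ^ e) (B : Matrix (Fin n) (Fin n) F) (hB : IsUnit B)
    (hint : ∀ x ∈ L, x.1 * B = B * x.1.map (frobenius F p)) :
    ∃ B₂ : Matrix (Fin n) (Fin n) F, IsUnit B₂ ∧
      (∀ x ∈ L, x.1 * B₂ = B₂ * x.1.map (frobenius F p)) ∧ tw (frobenius F p) B₂ e = 1 := by
  classical
  have hpe : ∀ y : F, y ^ p ^ e = y := fun y => by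
    rw [← hq]
    exact FiniteField.pow_card y
  have hmapid : ∀ M : Matrix (Fin n) (Fin n) F, M.map (fun y => y ^ p ^ e) = M := by
    intro M
    ext a b
    simp [hpe]
  -- `N` commutes with `L`
  obtain ⟨N, hN⟩ : ∃ N, N = tw (frobenius F p) B e := ⟨_, rfl⟩
  have hNcomm : ∀ s ∈ matrixSet L, N * s = s * N := by
    rintro _ ⟨x, hx, rfl⟩
    have h1 := tw_comm p B x.1 (hint x hx) e
    rw [hmapid] at h1
    rw [hN]
    exact h1.symm
  obtain ⟨c, hc⟩ := hLa.2 N hNcomm
  have hNu : IsUnit N := by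
    rw [hN]
    exact tw_isUnit _ B hB e
  have hc0 : c ≠ 0 := by
    rintro rfl
    rw [zero_smul] at hc
    exact ne_zero_of_isUnit hn N hNu hc
  -- `σ c = c`
  have hcp : c ^ p = c := by
    have h1 := tw_succ_right p B e
    rw [hmapid, tw_succ, ← hN, hc, map_smul_ring, Matrix.map_one _ (map_zero _) (map_one _),
      Matrix.mul_smul, mul_one, Matrix.smul_mul, one_mul, frobenius_def] at h1
    have h2 : (c ^ p - c) • B = 0 := by rw [sub_smul, h1, sub_self]
    rcases smul_eq_zero.mp h2 with h3 | h3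
    · exact sub_eq_zero.mp h3
    · exact absurd h3 (ne_zero_of_isUnit hn B hB)
  have hcinv : (c⁻¹) ^ p = c⁻¹ := by rw [inv_pow, hcp]
  obtain ⟨μ, hμ0, hμ⟩ := exists_norm p e hq c⁻¹ (inv_ne_zero hc0) hcinv
  refine ⟨μ • B, ?_, ?_, ?_⟩
  · rw [Matrix.isUnit_iff_isUnit_det, Matrix.det_smul]
    exact ((isUnit_iff_ne_zero.mpr hμ0).pow _).mul ((Matrix.isUnit_iff_isUnit_det _).mp hB)
  · intro x hx
    rw [Matrix.mul_smul, hint x hx, Matrix.smul_mul]
  · rw [tw_smul p μ B e, hμ, ← hN, hc, smul_smul, inv_mul_cancel₀ hc0, one_smul]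

end Cfsg.Agent.Lib.Helper61.SPGXTD1
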