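import Mathlib
import Cfsg.Prelude.Def_GeometricClasses
import Cfsg.Agent.Lib.Helper71.Asch0

/-! S5630 piece B6 (helper61 for helper71): structure of a perfect minimal non-scalar
normal subgroup. -/

set_option autoImplicit false
set_option linter.unusedSectionVars false

namespace Cfsg.Agent.Lib.Helper61.ASB6

open Matrix Cfsg.Geo Cfsg.Agent.Lib.Helper71.Asch
open scoped Kronecker

section Abstract

variable {G : Type*} [Group G]

/-- The conjugate subgroup `h N h⁻¹`. -/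
def cj (h : G) (N : Subgroup G) : Subgroup G := N.map (MulAut.conj h).toMonoidHom

theorem mem_cj {h : G} {N : Subgroup G} {x : G} : x ∈ cj h N ↔ h⁻¹ * x * h ∈ N := by
  unfold cj
  constructor
  · rintro ⟨y, hy, rfl⟩
    have : h⁻¹ * (MulAut.conj h).toMonoidHom y * h = y := by
      simp [MulAut.conj_apply, mul_assoc]
    rw [this]; exact hy
  · intro hx
    refine ⟨h⁻¹ * x * h, hx, ?_⟩
    simp [MulAut.conj_apply, mul_assoc]

theorem cj_one (N : Subgroup G) : cj 1 N = N := by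
  ext x; simp [mem_cj]

theorem cj_mul (g h : G) (N : Subgroup G) : cj (g * h) N = cj g (cj h N) := by
  ext x; simp [mem_cj, mul_assoc]

theorem cj_mono (h : G) {N N' : Subgroup G} (hN : N ≤ N') : cj h N ≤ cj h N' :=
  Subgroup.map_mono hN

theorem cj_inv_cj (h : G) (N : Subgroup G) : cj h⁻¹ (cj h N) = N := by
  rw [← cj_mul, inv_mul_cancel, cj_one]

theorem cj_cj_inv (h : G) (N : Subgroup G) : cj h (cj h⁻¹ N) = N := by
  rw [← cj_mul, mul_inv_cancel, cj_one]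

theorem cj_commutator (h : G) (N N' : Subgroup G) : cj h ⁅N, N'⁆ = ⁅cj h N, cj h N'⁆ :=
  Subgroup.map_commutator _ _ _

theorem cj_le_central {Z : Subgroup G} (hZ : Z ≤ Subgroup.center G) (h : G) (N : Subgroup G) :
    cj h N ≤ Z ↔ N ≤ Z := by
  constructor
  · intro hN y hy
    have h1 : h * y * h⁻¹ ∈ Z := hN (mem_cj.2 (by simpa [mul_assoc] using hy))
    have h2 := Subgroup.mem_center_iff.1 (hZ h1) h
    have h3 : h * (h * y * h⁻¹) = h * y := by rw [h2]; group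
    have h4 : h * y * h⁻¹ = y := mul_left_cancel h3
    rw [← h4]; exact h1
  · intro hN x hx
    have h1 : h⁻¹ * x * h ∈ Z := hN (mem_cj.1 hx)
    have h2 := Subgroup.mem_center_iff.1 (hZ h1) h
    have h3 : h * (h⁻¹ * x * h) = x * h := by group
    have h4 : h⁻¹ * x * h = x := by
      have : h⁻¹ * x * h * h = x * h := by rw [← h2, h3]
      exact mul_right_cancel this
    rw [← h4]; exact h1

theorem comm_le_self (N : Subgroup G) : ⁅N, N⁆ ≤ N := by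
  rw [Subgroup.commutator_le]
  intro a ha b hb
  rw [commutatorElement_def]
  exact N.mul_mem (N.mul_mem (N.mul_mem ha hb) (N.inv_mem ha)) (N.inv_mem hb)

/-- `N` is a non-central (w.r.t. `Z`) subgroup of `L` normalised by `L`. -/
def NL (Z L N : Subgroup G) : Prop :=
  N ≤ L ∧ (∀ x ∈ L, ∀ y ∈ N, x * y * x⁻¹ ∈ N) ∧ ¬ N ≤ Z

/-- `N` is minimal with `NL`. -/
def MinN (Z L N : Subgroup G) : Prop :=
  NL Z L N ∧ ∀ N' : Subgroup G, NL Z L N' → N' ≤ N → N' = N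

theorem exists_minN [Finite G] (Z L : Subgroup G) (hns : ¬ L ≤ Z) : ∃ N, MinN Z L N := by
  have h0 : NL Z L L := ⟨le_rfl, fun x hx y hy => L.mul_mem (L.mul_mem hx hy) (L.inv_mem hx), hns⟩
  obtain ⟨N, hN, hmin⟩ :=
    (wellFounded_lt : WellFounded ((· < ·) : Subgroup G → Subgroup G → Prop)).has_min
      {N : Subgroup G | NL Z L N} ⟨L, h0⟩
  refine ⟨N, hN, fun N' hN' hle => ?_⟩
  by_contra hne
  exact hmin N' hN' (lt_of_le_of_ne hle hne)

theorem cj_L {H L : Subgroup G} (hnrm : ∀ h ∈ H, ∀ x ∈ L, h * x * h⁻¹ ∈ L) {h : G} (hh : h ∈ H) :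
    cj h L = L := by
  ext x
  rw [mem_cj]
  constructor
  · intro hx
    have := hnrm h hh _ hx
    have e : h * (h⁻¹ * x * h) * h⁻¹ = x := by group
    rwa [e] at this
  · intro hx
    have := hnrm h⁻¹ (H.inv_mem hh) x hx
    simpa using this

theorem NL_cj {Z H L : Subgroup G} (hZ : Z ≤ Subgroup.center G)
    (hnrm : ∀ h ∈ H, ∀ x ∈ L, h * x * h⁻¹ ∈ L) {h : G} (hh : h ∈ H) {N : Subgroup G}
    (hN : NL Z L N) : NL Z L (cj h N) := by
  refine ⟨?_, ?_, ?_⟩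
  · have := cj_mono h hN.1
    rwa [cj_L hnrm hh] at this
  · intro x hx y hy
    rw [mem_cj] at hy ⊢
    have hx' : h⁻¹ * x * h ∈ L := by
      have : x ∈ cj h L := by rw [cj_L hnrm hh]; exact hx
      exact mem_cj.1 this
    have := hN.2.1 _ hx' _ hy
    have e : h⁻¹ * x * h * (h⁻¹ * y * h) * (h⁻¹ * x * h)⁻¹ = h⁻¹ * (x * y * x⁻¹) * h := by group
    rwa [e] at this
  · rw [cj_le_central hZ]; exact hN.2.2

theorem MinN_cj {Z H L : Subgroup G} (hZ : Z ≤ Subgroup.center G)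
    (hnrm : ∀ h ∈ H, ∀ x ∈ L, h * x * h⁻¹ ∈ L) {h : G} (hh : h ∈ H) {N : Subgroup G}
    (hN : MinN Z L N) : MinN Z L (cj h N) := by
  refine ⟨NL_cj hZ hnrm hh hN.1, fun N' hN' hle => ?_⟩
  have h1 : NL Z L (cj h⁻¹ N') := NL_cj hZ hnrm (H.inv_mem hh) hN'
  have h2 : cj h⁻¹ N' ≤ N := by
    have := cj_mono h⁻¹ hle
    rwa [cj_inv_cj] at this
  have h3 := hN.2 _ h1 h2
  rw [← h3, cj_cj_inv]

theorem inf_le_Z {Z L N N' : Subgroup G} (hN : MinN Z L N) (hN' : MinN Z L N') (hne : N ≠ N') :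
    N ⊓ N' ≤ Z := by
  by_contra hnot
  have h0 : NL Z L (N ⊓ N') :=
    ⟨inf_le_left.trans hN.1.1,
      fun x hx y hy => ⟨hN.1.2.1 x hx y hy.1, hN'.1.2.1 x hx y hy.2⟩, hnot⟩
  have h1 := hN.2 _ h0 inf_le_left
  have h2 := hN'.2 _ h0 inf_le_right
  exact hne (h1.symm.trans h2)

theorem comm_le_Z {Z L N N' : Subgroup G} (hN : MinN Z L N) (hN' : MinN Z L N') (hne : N ≠ N') :
    ⁅N, N'⁆ ≤ Z := by
  rw [Subgroup.commutator_le]
  intro a ha b hb
  apply inf_le_Z hN hN' hne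
  rw [commutatorElement_def]
  constructor
  · have h1 : b * a⁻¹ * b⁻¹ ∈ N := hN.1.2.1 b (hN'.1.1 hb) _ (N.inv_mem ha)
    have e : a * b * a⁻¹ * b⁻¹ = a * (b * a⁻¹ * b⁻¹) := by group
    rw [e]; exact N.mul_mem ha h1
  · have h1 : a * b * a⁻¹ ∈ N' := hN'.1.2.1 a (hN.1.1 ha) _ hb
    exact N'.mul_mem h1 (N'.inv_mem hb)

theorem comm_central_bot {Z : Subgroup G} (hZ : Z ≤ Subgroup.center G) {K : Subgroup G}
    (hK : K ≤ Z) (M : Subgroup G) : ⁅K, M⁆ = ⊥ := by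
  rw [Subgroup.commutator_eq_bot_iff_le_centralizer]
  exact hK.trans (hZ.trans (Subgroup.center_le_centralizer _))

theorem comm_comm_bot {Z L N N' : Subgroup G} (hZ : Z ≤ Subgroup.center G)
    (hN : MinN Z L N) (hN' : MinN Z L N') (hne : N ≠ N') : ⁅⁅N, N⁆, N'⁆ = ⊥ := by
  apply Subgroup.commutator_commutator_eq_bot_of_rotate
  · exact comm_central_bot hZ (comm_le_Z hN hN' hne) N
  · exact comm_central_bot hZ (comm_le_Z hN' hN (Ne.symm hne)) N

theorem comm_le_iff (Z : Subgroup G) [Z.Normal] (A B : Subgroup G) :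
    ⁅A, B⁆ ≤ Z ↔ ⁅A.map (QuotientGroup.mk' Z), B.map (QuotientGroup.mk' Z)⁆ = ⊥ := by
  rw [← Subgroup.map_commutator, Subgroup.map_eq_bot_iff, QuotientGroup.ker_mk']

theorem iSup_comm_le (Z : Subgroup G) [Z.Normal] {ι : Sort*} (A : ι → Subgroup G)
    (h : ∀ i j, ⁅A i, A j⁆ ≤ Z) : ⁅⨆ i, A i, ⨆ i, A i⁆ ≤ Z := by
  rw [comm_le_iff, Subgroup.commutator_eq_bot_iff_le_centralizer, Subgroup.map_iSup]
  refine iSup_le fun i => ?_
  rw [Subgroup.le_centralizer_iff]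
  refine iSup_le fun j => ?_
  rw [← Subgroup.commutator_eq_bot_iff_le_centralizer, ← comm_le_iff]
  exact h j i

theorem iSup_cj_eq {Z H L : Subgroup G}
    (hnrm : ∀ h ∈ H, ∀ x ∈ L, h * x * h⁻¹ ∈ L)
    (hmin : ∀ L' : Subgroup G, L' ≤ L → (∀ h ∈ H, ∀ x ∈ L', h * x * h⁻¹ ∈ L') → L' ≤ Z ∨ L' = L)
    {M : Subgroup G} (hM : M ≤ L) (hMZ : ¬ M ≤ Z) : ⨆ h : H, cj (h : G) M = L := by
  have h1 : ⨆ h : H, cj (h : G) M ≤ L := by
    refine iSup_le fun h => ?_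
    have := cj_mono (h : G) hM
    rwa [cj_L hnrm h.2] at this
  have h2 : ∀ g ∈ H, ∀ x ∈ ⨆ h : H, cj (h : G) M, g * x * g⁻¹ ∈ ⨆ h : H, cj (h : G) M := by
    intro g hg x hx
    have h3 : g * x * g⁻¹ ∈ cj g (⨆ h : H, cj (h : G) M) := by
      rw [mem_cj]
      have e : g⁻¹ * (g * x * g⁻¹) * g = x := by group
      rw [e]; exact hx
    have h4 : cj g (⨆ h : H, cj (h : G) M) ≤ ⨆ h : H, cj (h : G) M := by
      unfold cj
      rw [Subgroup.map_iSup]
      refine iSup_le fun h => ?_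
      have : cj g (cj (h : G) M) ≤ ⨆ h : H, cj (h : G) M := by
        rw [← cj_mul]
        exact le_iSup (fun h : H => cj (h : G) M) ⟨g * h, H.mul_mem hg h.2⟩
      exact this
    exact h4 h3
  have h5 : ¬ (⨆ h : H, cj (h : G) M) ≤ Z := by
    intro hle
    apply hMZ
    have : cj ((1 : H) : G) M ≤ ⨆ h : H, cj (h : G) M := le_iSup (fun h : H => cj (h : G) M) 1
    rw [Subgroup.coe_one, cj_one] at this
    exact this.trans hle
  rcases hmin _ h1 h2 with h | h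
  · exact absurd h h5
  · exact h

theorem not_comm_le {Z H L : Subgroup G} [Z.Normal] (hZ : Z ≤ Subgroup.center G)
    (hnrm : ∀ h ∈ H, ∀ x ∈ L, h * x * h⁻¹ ∈ L) (hns : ¬ L ≤ Z)
    (hmin : ∀ L' : Subgroup G, L' ≤ L → (∀ h ∈ H, ∀ x ∈ L', h * x * h⁻¹ ∈ L') → L' ≤ Z ∨ L' = L)
    (hc : ⁅L, L⁆ = L) {N₁ : Subgroup G} (hN₁ : MinN Z L N₁) : ¬ ⁅N₁, N₁⁆ ≤ Z := by
  intro hle
  have h1 : ∀ g h : H, ⁅cj (g : G) N₁, cj (h : G) N₁⁆ ≤ Z := by
    intro g h
    by_cases heq : cj (g : G) N₁ = cj (h : G) N₁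
    · rw [← heq, ← cj_commutator, cj_le_central hZ]; exact hle
    · exact comm_le_Z (MinN_cj hZ hnrm g.2 hN₁) (MinN_cj hZ hnrm h.2 hN₁) heq
  have h2 := iSup_comm_le Z (fun h : H => cj (h : G) N₁) h1
  rw [iSup_cj_eq hnrm hmin hN₁.1.1 hN₁.1.2.2, hc] at h2
  exact hns h2

theorem simple_quot {Z L : Subgroup G} [Z.Normal] (hL : MinN Z L L) :
    IsSimpleGroup (L ⧸ Z.subgroupOf L) := by
  have hnt : Nontrivial (L ⧸ Z.subgroupOf L) := by
    by_contra hcon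
    rw [not_nontrivial_iff_subsingleton] at hcon
    have := QuotientGroup.subgroup_eq_top_of_subsingleton (Z.subgroupOf L) hcon
    rw [Subgroup.subgroupOf_eq_top] at this
    exact hL.1.2.2 this
  refine { exists_pair_ne := hnt.exists_pair_ne, eq_bot_or_eq_top_of_normal := ?_ }
  intro K hK
  have hK'n : (K.comap (QuotientGroup.mk' (Z.subgroupOf L))).Normal := inferInstance
  by_cases hNZ : (K.comap (QuotientGroup.mk' (Z.subgroupOf L))).map L.subtype ≤ Z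
  · left
    have h1 : K.comap (QuotientGroup.mk' (Z.subgroupOf L)) ≤ Z.subgroupOf L := by
      intro y hy
      rw [Subgroup.mem_subgroupOf]
      exact hNZ ⟨y, hy, rfl⟩
    have h2 : K = (K.comap (QuotientGroup.mk' (Z.subgroupOf L))).map
        (QuotientGroup.mk' (Z.subgroupOf L)) :=
      (Subgroup.map_comap_eq_self_of_surjective (QuotientGroup.mk'_surjective _) K).symm
    rw [h2, Subgroup.map_eq_bot_iff, QuotientGroup.ker_mk']
    exact h1
  · right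
    have h0 : NL Z L ((K.comap (QuotientGroup.mk' (Z.subgroupOf L))).map L.subtype) := by
      refine ⟨?_, ?_, hNZ⟩
      · rintro _ ⟨y, -, rfl⟩
        exact y.2
      · rintro x hx _ ⟨y, hy, rfl⟩
        refine ⟨⟨x, hx⟩ * y * ⟨x, hx⟩⁻¹, hK'n.conj_mem y hy ⟨x, hx⟩, ?_⟩
        simp
    have h1 := hL.2 _ h0 h0.1
    rw [eq_top_iff]
    intro q _
    obtain ⟨l, rfl⟩ := QuotientGroup.mk'_surjective (Z.subgroupOf L) q
    have h3 : (l : G) ∈ (K.comap (QuotientGroup.mk' (Z.subgroupOf L))).map L.subtype := by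
      rw [h1]; exact l.2
    obtain ⟨y, hy, hyl⟩ := h3
    have : y = l := Subtype.ext hyl
    rw [← this]
    exact hy

theorem not_comm_quot {Z L : Subgroup G} [Z.Normal] (hns : ¬ L ≤ Z) (hc : ⁅L, L⁆ = L) :
    ¬ IsMulCommutative (L ⧸ Z.subgroupOf L) := by
  intro hcomm
  apply hns
  rw [← hc, Subgroup.commutator_le]
  intro a ha b hb
  have h1 : (QuotientGroup.mk (⟨a, ha⟩ : L) : L ⧸ Z.subgroupOf L) * QuotientGroup.mk (⟨b, hb⟩ : L)
      = QuotientGroup.mk (⟨b, hb⟩ : L) * QuotientGroup.mk (⟨a, ha⟩ : L) :=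
    hcomm.is_comm.comm _ _
  have h2 : (QuotientGroup.mk ((⟨a, ha⟩ : L) * ⟨b, hb⟩ * (⟨a, ha⟩ : L)⁻¹ * (⟨b, hb⟩ : L)⁻¹) :
      L ⧸ Z.subgroupOf L) = 1 := by
    rw [QuotientGroup.mk_mul, QuotientGroup.mk_mul, QuotientGroup.mk_mul, h1,
      QuotientGroup.mk_inv, QuotientGroup.mk_inv]
    group
  rw [QuotientGroup.eq_one_iff, Subgroup.mem_subgroupOf] at h2
  rw [commutatorElement_def]
  simpa using h2

theorem abstract_B6 [Finite G] (Z H L : Subgroup G) [Z.Normal] (hZ : Z ≤ Subgroup.center G)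
    (hnrm : ∀ h ∈ H, ∀ x ∈ L, h * x * h⁻¹ ∈ L) (hns : ¬ L ≤ Z)
    (hmin : ∀ L' : Subgroup G, L' ≤ L → (∀ h ∈ H, ∀ x ∈ L', h * x * h⁻¹ ∈ L') → L' ≤ Z ∨ L' = L)
    (hc : ⁅L, L⁆ = L) :
    (IsSimpleGroup (L ⧸ Z.subgroupOf L) ∧ ¬ IsMulCommutative (L ⧸ Z.subgroupOf L)) ∨
    (∃ (k : ℕ) (Ps : Fin k → Subgroup G), 2 ≤ k ∧
      (∀ i, ¬ Ps i ≤ Z) ∧
      (∀ i j, i ≠ j → ∀ x ∈ Ps i, ∀ y ∈ Ps j, x * y = y * x) ∧
      (L = ⨆ i, Ps i) ∧
      (∀ h ∈ H, ∃ σ : Equiv.Perm (Fin k), ∀ i,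
        (Ps i).map (MulAut.conj h).toMonoidHom = Ps (σ i)) ∧
      (∀ i j, ∃ h ∈ H, (Ps i).map (MulAut.conj h).toMonoidHom = Ps j)) := by
  classical
  obtain ⟨N₁, hN₁⟩ := exists_minN Z L hns
  have hQ : ¬ ⁅N₁, N₁⁆ ≤ Z := not_comm_le hZ hnrm hns hmin hc hN₁
  by_cases hk : 2 ≤ Nat.card {N : Subgroup G // ∃ h ∈ H, N = cj h N₁}
  · right
    obtain ⟨e⟩ : Nonempty ({N : Subgroup G // ∃ h ∈ H, N = cj h N₁} ≃
        Fin (Nat.card {N : Subgroup G // ∃ h ∈ H, N = cj h N₁})) := ⟨Finite.equivFin _⟩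
    have hMin : ∀ a : {N : Subgroup G // ∃ h ∈ H, N = cj h N₁}, MinN Z L a.1 := by
      rintro ⟨N, h, hh, rfl⟩
      exact MinN_cj hZ hnrm hh hN₁
    have hQa : ∀ a : {N : Subgroup G // ∃ h ∈ H, N = cj h N₁}, ¬ ⁅a.1, a.1⁆ ≤ Z := by
      rintro ⟨N, h, hh, rfl⟩
      show ¬ ⁅cj h N₁, cj h N₁⁆ ≤ Z
      rw [← cj_commutator, cj_le_central hZ]
      exact hQ
    refine ⟨_, fun i => ⁅(e.symm i).1, (e.symm i).1⁆, hk, fun i => hQa _, ?_, ?_, ?_, ?_⟩
    · intro i j hij x hx y hy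
      have hne : (e.symm i).1 ≠ (e.symm j).1 := by
        intro h
        exact hij (e.symm.injective (Subtype.ext h))
      have h1 := comm_comm_bot hZ (hMin (e.symm i)) (hMin (e.symm j)) hne
      rw [Subgroup.commutator_eq_bot_iff_le_centralizer] at h1
      have h2 := Subgroup.mem_centralizer_iff.1 (h1 hx) y (comm_le_self _ hy)
      exact h2.symm
    · have h5 : ⨆ h : H, cj (h : G) ⁅N₁, N₁⁆ = L :=
        iSup_cj_eq hnrm hmin ((comm_le_self N₁).trans hN₁.1.1) hQ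
      apply le_antisymm
      · rw [← h5]
        refine iSup_le fun h => ?_
        have h6 : cj (h : G) ⁅N₁, N₁⁆ =
            ⁅(e.symm (e ⟨cj (h : G) N₁, h, h.2, rfl⟩)).1, (e.symm (e ⟨cj (h : G) N₁, h, h.2, rfl⟩)).1⁆ := by
          rw [Equiv.symm_apply_apply, cj_commutator]
        rw [h6]
        exact le_iSup (fun i => ⁅(e.symm i).1, (e.symm i).1⁆) (e ⟨cj (h : G) N₁, h, h.2, rfl⟩)
      · refine iSup_le fun i => ?_
        exact (comm_le_self _).trans (hMin (e.symm i)).1.1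
    · intro h hh
      have hf : ∀ (g : G), g ∈ H → ∀ a : {N : Subgroup G // ∃ h ∈ H, N = cj h N₁},
          ∃ h' ∈ H, cj g a.1 = cj h' N₁ := by
        rintro g hg ⟨N, h', hh', rfl⟩
        exact ⟨g * h', H.mul_mem hg hh', (cj_mul g h' N₁).symm⟩
      let τ : {N : Subgroup G // ∃ h ∈ H, N = cj h N₁} ≃ {N : Subgroup G // ∃ h ∈ H, N = cj h N₁} :=
        { toFun := fun a => ⟨cj h a.1, hf h hh a⟩
          invFun := fun a => ⟨cj h⁻¹ a.1, hf h⁻¹ (H.inv_mem hh) a⟩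
          left_inv := fun a => Subtype.ext (cj_inv_cj h a.1)
          right_inv := fun a => Subtype.ext (cj_cj_inv h a.1) }
      refine ⟨e.symm.trans (τ.trans e), fun i => ?_⟩
      show cj h ⁅(e.symm i).1, (e.symm i).1⁆ = _
      rw [cj_commutator]
      simp only [Equiv.trans_apply, Equiv.symm_apply_apply]
      rfl
    · intro i j
      obtain ⟨g, hg, hgi⟩ := (e.symm i).2
      obtain ⟨g', hg', hgj⟩ := (e.symm j).2
      refine ⟨g' * g⁻¹, H.mul_mem hg' (H.inv_mem hg), ?_⟩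
      show cj (g' * g⁻¹) ⁅(e.symm i).1, (e.symm i).1⁆ = _
      have h1 : cj (g' * g⁻¹) (e.symm i).1 = (e.symm j).1 := by
        rw [hgi, hgj, cj_mul, cj_inv_cj]
      rw [cj_commutator, h1]
  · left
    have hss : Subsingleton {N : Subgroup G // ∃ h ∈ H, N = cj h N₁} := by
      rw [← Finite.card_le_one_iff_subsingleton]
      omega
    have hfix : ∀ h ∈ H, cj h N₁ = N₁ := by
      intro h hh
      have := hss.elim (⟨cj h N₁, h, hh, rfl⟩ : {N : Subgroup G // ∃ h ∈ H, N = cj h N₁})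
        ⟨N₁, 1, H.one_mem, (cj_one N₁).symm⟩
      exact congrArg Subtype.val this
    have hN₁L : N₁ = L := by
      rcases hmin N₁ hN₁.1.1 (fun h hh x hx => by
          have : h * x * h⁻¹ ∈ cj h N₁ := by
            rw [mem_cj]
            have e : h⁻¹ * (h * x * h⁻¹) * h = x := by group
            rw [e]; exact hx
          rwa [hfix h hh] at this) with h | h
      · exact absurd h hN₁.1.2.2
      · exact h
    rw [hN₁L] at hN₁
    exact ⟨simple_quot hN₁, not_comm_quot hns hc⟩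

end Abstract

variable {n : ℕ} {F : Type*} [Field F] [Fintype F]

theorem scalars_le_center : scalars (Fin n) F ≤ Subgroup.center (GL (Fin n) F) := by
  intro g hg
  rw [mem_scalars_iff] at hg
  obtain ⟨c, hc⟩ := hg
  rw [Subgroup.mem_center_iff]
  intro x
  apply Units.ext
  rw [Units.val_mul, Units.val_mul, hc]
  simp

/-- B6: structure of a perfect minimal non-scalar normal subgroup. -/
theorem B6 (H L : Subgroup (GL (Fin n) F)) (hL : IsMinNS H L) (hc : ⁅L, L⁆ = L) :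
    (IsSimpleGroup (L ⧸ (scalars (Fin n) F).subgroupOf L) ∧
      ¬ IsMulCommutative (L ⧸ (scalars (Fin n) F).subgroupOf L)) ∨
    (∃ (k : ℕ) (Ps : Fin k → Subgroup (GL (Fin n) F)), 2 ≤ k ∧
      (∀ i, ¬ Ps i ≤ scalars (Fin n) F) ∧
      (∀ i j, i ≠ j → ∀ x ∈ Ps i, ∀ y ∈ Ps j, x * y = y * x) ∧
      (L = ⨆ i, Ps i) ∧
      (∀ h ∈ H, ∃ σ : Equiv.Perm (Fin k), ∀ i,
        (Ps i).map (MulAut.conj h).toMonoidHom = Ps (σ i)) ∧
      (∀ i j, ∃ h ∈ H, (Ps i).map (MulAut.conj h).toMonoidHom = Ps j)) :=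
  abstract_B6 (scalars (Fin n) F) H L scalars_le_center hL.nrm hL.ns hL.min hc

end Cfsg.Agent.Lib.Helper61.ASB6
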