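import Mathlib

/-!
# S5365 (3-transpositions with `D_d ≅ S₃`): common definitions (helper61)

Interface for the pieces of S5365.  `Nb D d y` says that `y` is a neighbour of `d` in the commuting
graph of `D`; `TS D` collects the local hypotheses in elementwise form.  The cross-piece
dependencies are stated as `Prop`-valued definitions (`NIProp`, `MProp`, `ELProp`, `APProp`,
`CoxProp`) so that the pieces can be proved independently.
-/

set_option autoImplicit false

namespace Cfsg.Agent.Lib.Helper61.TT5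

variable {G : Type*} [Group G]

/-- `y` is a neighbour of `d`: a member of `D` different from `d` and commuting with `d` -/
def Nb (D : Set G) (d y : G) : Prop := y ∈ D ∧ y ≠ d ∧ Commute d y

/-- `x` and `y` have the same neighbours -/
def SameNb (D : Set G) (x y : G) : Prop := ∀ z, Nb D x z ↔ Nb D y z

/-- the local hypotheses of S5365 in elementwise form -/
structure TS (D : Set G) : Prop where
  sq : ∀ d ∈ D, d * d = 1
  ne_one : ∀ d ∈ D, d ≠ 1
  conj : ∀ g : G, ∀ d ∈ D, g * d * g⁻¹ ∈ D
  pair : ∀ d ∈ D, ∀ e ∈ D, d * e = e * d ∨ d * e * d = e * d * e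
  line : ∀ d ∈ D, ∃ a b, Nb D d a ∧ Nb D d b ∧ a * b ≠ b * a ∧
    ∀ y, Nb D d y → y = a ∨ y = b ∨ y = a * b * a
  s3 : ∀ d ∈ D, Nonempty (↥(Subgroup.closure {y : G | Nb D d y}) ≃* Equiv.Perm (Fin 3))

/-- the `O_3(C_G(d))` hypothesis in usable form: a normal 3-subgroup of `G` meets `C_G(d)` inside
`⟨ab⟩` for `a, b` non-commuting neighbours of `d` -/
def H2 (D : Set G) : Prop := ∀ d ∈ D, ∀ a b, Nb D d a → Nb D d b → a * b ≠ b * a →
  ∀ M : Subgroup G, M.Normal → IsPGroup 3 M → ∀ x ∈ M, x * d = d * x →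
    x = 1 ∨ x = a * b ∨ x = b * a

/-- non-injectivity lemma: if `e ∈ D` commutes with none of `d, a, b, aba`, where `a, b` are
non-commuting neighbours of `d`, then `e` and its conjugate by `ab` are different and have the
same neighbours -/
def NIProp (D : Set G) : Prop := ∀ d a b e : G, d ∈ D → Nb D d a → Nb D d b → a * b ≠ b * a →
  e ∈ D → ¬ Commute d e → ¬ Commute a e → ¬ Commute b e → ¬ Commute (a * b * a) e →
    (a * b) * e * (a * b)⁻¹ ≠ e ∧ SameNb D e ((a * b) * e * (a * b)⁻¹)

/-- existence of the abelian normal 3-subgroup containing all products `y * y'` of members of `D`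
with the same neighbours -/
def MProp (D : Set G) : Prop := ∃ M : Subgroup G, M.Normal ∧ IsPGroup 3 M ∧
  (∀ m ∈ M, ∀ m' ∈ M, m * m' = m' * m) ∧ ∀ y ∈ D, ∀ y' ∈ D, SameNb D y y' → y * y' ∈ M

/-- elementary lemma: an involution `h` braided with the involutions `a`, `b` and commuting with
`a * b` forces `a = b` -/
def ELProp (G : Type*) [Group G] : Prop := ∀ h a b : G, h * h = 1 → a * a = 1 → b * b = 1 →
  h * a * h = a * h * a → h * b * h = b * h * b → h * (a * b) = (a * b) * h → a = b

/-- affine plane lemma: for involutions `d, d', g` with `d, d', g, d d' d` pairwise braided, put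
`s = d d'`, `u = g (s g s⁻¹)`, `w = u (d u d)`; then `w` commutes with `g`, and `w = 1` forces
`u = s` -/
def APProp (G : Type*) [Group G] : Prop := ∀ d d' g : G, d * d = 1 → d' * d' = 1 → g * g = 1 →
  d * d' * d = d' * d * d' → d * g * d = g * d * g → d' * g * d' = g * d' * g →
  (d * d' * d) * g * (d * d' * d) = g * (d * d' * d) * g →
    (g * ((d * d') * g * (d * d')⁻¹) * (d * (g * ((d * d') * g * (d * d')⁻¹)) * d)) * g =
        g * (g * ((d * d') * g * (d * d')⁻¹) * (d * (g * ((d * d') * g * (d * d')⁻¹)) * d)) ∧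
      (g * ((d * d') * g * (d * d')⁻¹) * (d * (g * ((d * d') * g * (d * d')⁻¹)) * d) = 1 →
        g * ((d * d') * g * (d * d')⁻¹) = d * d')

/-- Coxeter presentation of `S₅`, in the form needed: four involutions satisfying the braid and
commutation relations of type `A₄`, with `s₁ ≠ s₃`, are the images of the adjacent transpositions
under an injective homomorphism from `Perm (Fin 5)` -/
def CoxProp (G : Type*) [Group G] : Prop := ∀ s1 s2 s3 s4 : G,
  s1 * s1 = 1 → s2 * s2 = 1 → s3 * s3 = 1 → s4 * s4 = 1 →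
  s1 * s2 * s1 = s2 * s1 * s2 → s2 * s3 * s2 = s3 * s2 * s3 → s3 * s4 * s3 = s4 * s3 * s4 →
  s1 * s3 = s3 * s1 → s1 * s4 = s4 * s1 → s2 * s4 = s4 * s2 → s1 ≠ s3 →
    ∃ f : Equiv.Perm (Fin 5) →* G, Function.Injective f ∧
      f (Equiv.swap 0 1) = s1 ∧ f (Equiv.swap 1 2) = s2 ∧ f (Equiv.swap 2 3) = s3 ∧
      f (Equiv.swap 3 4) = s4

end Cfsg.Agent.Lib.Helper61.TT5
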