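import Mathlib
import Cfsg.Prelude.Def_GeometricClasses
import Cfsg.Agent.Lib.Helper97.TransvM

/-!
# S5634, blocks of dimension at least 2 (helper61): definitions and the transvection kit

Model: a block map `β : ι → Fin t` on the coordinates; block `l` is the coordinate subspace
`Bl β l` of the vectors supported on the fibre of `l`.
-/

set_option autoImplicit false

namespace Cfsg.Agent.Lib.Helper61.Blk

open Matrix Cfsg.Agent.Lib.Helper97

variable {ι : Type} [Fintype ι] [DecidableEq ι] {F : Type*} [Field F] {t : ℕ}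

/-- the vector (or row functional) `v` is supported on the fibre of `l` -/
def InB (β : ι → Fin t) (l : Fin t) (v : ι → F) : Prop := ∀ j, β j ≠ l → v j = 0

/-- `v` has a nonzero coordinate in the fibre of `l` -/
def Hit (β : ι → Fin t) (l : Fin t) (v : ι → F) : Prop := ∃ j, β j = l ∧ v j ≠ 0

/-- block `l` as a subspace -/
def Bl (β : ι → Fin t) (l : Fin t) : Submodule F (ι → F) where
  carrier := {v | InB β l v}
  add_mem' := by
    intro a b ha hb j hj
    rw [Pi.add_apply, ha j hj, hb j hj, add_zero]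
  zero_mem' := fun j _ => rfl
  smul_mem' := by
    intro c a ha j hj
    rw [Pi.smul_apply, ha j hj, smul_zero]

omit [Fintype ι] [DecidableEq ι] in
lemma mem_Bl (β : ι → Fin t) (l : Fin t) (v : ι → F) : v ∈ Bl β l ↔ InB β l v := Iff.rfl

/-- the component of `v` in block `l` -/
def res (β : ι → Fin t) (l : Fin t) (v : ι → F) : ι → F := fun j => if β j = l then v j else 0

/-- the pairing of the block-`l` components -/
def bdot (β : ι → Fin t) (l : Fin t) (φ c : ι → F) : F := ∑ j, if β j = l then φ j * c j else 0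

/-- the matrix `A` is block monomial with block permutation `σ` -/
def BMono (β : ι → Fin t) (σ : Equiv.Perm (Fin t)) (A : Matrix ι ι F) : Prop :=
  ∀ i j, A i j ≠ 0 → β i = σ (β j)

/-- every fibre has at least two elements -/
def Fib2 (β : ι → Fin t) : Prop := ∀ l, ∃ j₁ j₂, j₁ ≠ j₂ ∧ β j₁ = l ∧ β j₂ = l

/-- every fibre has at least three elements -/
def Fib3 (β : ι → Fin t) : Prop :=
  ∀ l, ∃ j₁ j₂ j₃, j₁ ≠ j₂ ∧ j₁ ≠ j₃ ∧ j₂ ≠ j₃ ∧ β j₁ = l ∧ β j₂ = l ∧ β j₃ = l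

/-- the model group: the stabiliser in `SL` of the coordinate block decomposition -/
def MB (β : ι → Fin t) (F : Type*) [Field F] : Subgroup (GL ι F) :=
  Cfsg.Geo.decompositionStabilizer (fun l => Bl (F := F) β l) ⊓ Cfsg.Geo.specialLinear ι F

/-- `X` contains all block transvections -/
def BT (β : ι → Fin t) (X : Subgroup (GL ι F)) : Prop :=
  ∀ (l : Fin t) (u ψ : ι → F), InB β l u → InB β l ψ → ψ ⬝ᵥ u = 0 → TM X u ψ

/-- `X` contains, for every block permutation, a block monomial element inducing it -/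
def BPm (β : ι → Fin t) (X : Subgroup (GL ι F)) : Prop :=
  ∀ σ : Equiv.Perm (Fin t), ∃ g ∈ X, BMono β σ (g : Matrix ι ι F) ∧
    BMono β σ⁻¹ ((g⁻¹ : GL ι F) : Matrix ι ι F)

/-- `X` contains the block diagonal matrices of determinant 1 -/
def BDg (β : ι → Fin t) (X : Subgroup (GL ι F)) : Prop :=
  ∀ g : GL ι F, BMono β 1 (g : Matrix ι ι F) → (g : Matrix ι ι F).det = 1 → g ∈ X

/-- `X` contains all transvections with centre in block `j` and functional supported on
block `l` -/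
def U (β : ι → Fin t) (X : Subgroup (GL ι F)) (j l : Fin t) : Prop :=
  ∀ u ψ : ι → F, InB β j u → InB β l ψ → TM X u ψ

omit [Fintype ι] [DecidableEq ι] in
lemma Fib2.other {β : ι → Fin t} (h : Fib2 β) (j : ι) : ∃ j', j' ≠ j ∧ β j' = β j := by
  obtain ⟨j₁, j₂, h12, h1, h2⟩ := h (β j)
  by_cases hj : j₁ = j
  · exact ⟨j₂, fun h' => h12 (hj.trans h'.symm), h2⟩
  · exact ⟨j₁, hj, h1⟩

/-! ### transvection kit (additions to helper97's `TM`) -/

lemma vecMul_tv (u ψ φ : ι → F) : φ ᵥ* tv u ψ = φ + (φ ⬝ᵥ u) • ψ := by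
  rw [tv, Matrix.vecMul_add, Matrix.vecMul_one, Matrix.vecMul_vecMulVec]

omit [Fintype ι] in
lemma tv_zero_left (ψ : ι → F) : tv (0 : ι → F) ψ = 1 := by
  rw [tv, Matrix.zero_vecMulVec, add_zero]

lemma TM_zero_left (X : Subgroup (GL ι F)) (ψ : ι → F) : TM X 0 ψ := by
  refine ⟨by rw [dotProduct_zero], fun g hg => ?_⟩
  have : g = 1 := Units.ext (by rw [hg, tv_zero_left, Units.val_one])
  rw [this]
  exact X.one_mem

lemma TM_zero_right (X : Subgroup (GL ι F)) (u : ι → F) : TM X u 0 := by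
  refine ⟨by rw [zero_dotProduct], fun g hg => ?_⟩
  have : g = 1 := Units.ext (by rw [hg, tv_zero_right, Units.val_one])
  rw [this]
  exact X.one_mem

lemma tv_mul_tv_left (u₁ u₂ ψ : ι → F) (h : ψ ⬝ᵥ u₂ = 0) :
    tv u₁ ψ * tv u₂ ψ = tv (u₁ + u₂) ψ := by
  rw [tv, tv, tv, Matrix.mul_add, Matrix.mul_one, Matrix.add_mul, Matrix.one_mul,
    Matrix.vecMulVec_mul_vecMulVec, h, zero_smul, Matrix.vecMulVec_zero, add_zero,
    Matrix.add_vecMulVec, add_assoc]

lemma TM_add_left {X : Subgroup (GL ι F)} {u₁ u₂ ψ : ι → F} (h₁ : TM X u₁ ψ)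
    (h₂ : TM X u₂ ψ) : TM X (u₁ + u₂) ψ := by
  have h0 : ψ ⬝ᵥ (u₁ + u₂) = 0 := by rw [dotProduct_add, h₁.1, h₂.1, add_zero]
  refine ⟨h0, fun g hg => ?_⟩
  have h3 : g = tvG u₁ ψ h₁.1 * tvG u₂ ψ h₂.1 := by
    apply Units.ext
    rw [hg, Units.val_mul, tvG_val, tvG_val, tv_mul_tv_left _ _ _ h₂.1]
  rw [h3]
  exact X.mul_mem h₁.mem h₂.mem

lemma TM_neg_left {X : Subgroup (GL ι F)} {u ψ : ι → F} (h : TM X u ψ) : TM X (-u) ψ := by
  have h0 : ψ ⬝ᵥ (-u) = 0 := by rw [dotProduct_neg, h.1, neg_zero]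
  refine ⟨h0, fun g hg => ?_⟩
  have h3 : g = (tvG u ψ h.1)⁻¹ := by
    rw [eq_inv_iff_mul_eq_one]
    apply Units.ext
    rw [Units.val_mul, hg, tvG_val, tv_mul_tv_left _ _ _ h.1, neg_add_cancel, Units.val_one,
      tv_zero_left]
  rw [h3]
  exact X.inv_mem h.mem

lemma TM_sub_left {X : Subgroup (GL ι F)} {u₁ u₂ ψ : ι → F} (h₁ : TM X u₁ ψ)
    (h₂ : TM X u₂ ψ) : TM X (u₁ - u₂) ψ := by
  rw [sub_eq_add_neg]
  exact TM_add_left h₁ (TM_neg_left h₂)

lemma TM_sum {X : Subgroup (GL ι F)} {α : Type*} (s : Finset α) {u : ι → F} {f : α → ι → F}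
    (h : ∀ a ∈ s, TM X u (f a)) : TM X u (∑ a ∈ s, f a) := by
  classical
  induction s using Finset.induction_on with
  | empty => rw [Finset.sum_empty]; exact TM_zero_right X u
  | insert a s ha ih =>
    rw [Finset.sum_insert ha]
    exact TM_add (h a (Finset.mem_insert_self a s))
      (ih (fun b hb => h b (Finset.mem_insert_of_mem hb)))

lemma TM_sum_left {X : Subgroup (GL ι F)} {α : Type*} (s : Finset α) {ψ : ι → F}
    {f : α → ι → F} (h : ∀ a ∈ s, TM X (f a) ψ) : TM X (∑ a ∈ s, f a) ψ := by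
  classical
  induction s using Finset.induction_on with
  | empty => rw [Finset.sum_empty]; exact TM_zero_left X ψ
  | insert a s ha ih =>
    rw [Finset.sum_insert ha]
    exact TM_add_left (h a (Finset.mem_insert_self a s))
      (ih (fun b hb => h b (Finset.mem_insert_of_mem hb)))

lemma TM_smul_comm {X : Subgroup (GL ι F)} {u ψ : ι → F} (a : F) :
    TM X (a • u) ψ ↔ TM X u (a • ψ) := by
  have e : tv (a • u) ψ = tv u (a • ψ) := by
    rw [tv, tv, Matrix.smul_vecMulVec, Matrix.vecMulVec_smul]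
  have e0 : ψ ⬝ᵥ (a • u) = (a • ψ) ⬝ᵥ u := by rw [dotProduct_smul, smul_dotProduct]
  constructor
  · rintro ⟨h0, h⟩
    exact ⟨by rw [← e0]; exact h0, fun g hg => h g (by rw [hg, e])⟩
  · rintro ⟨h0, h⟩
    exact ⟨by rw [e0]; exact h0, fun g hg => h g (by rw [hg, e])⟩

/-- Conjugating `τ(c, φ) ∈ X` by the transvection `τ(u, ψ) ∈ X`:
`τ(c + ψ(c) u, φ - φ(u) ψ) ∈ X`. -/
lemma TM_conj_tv {X : Subgroup (GL ι F)} {c φ u ψ : ι → F} (h : TM X c φ) (hb : TM X u ψ) :
    TM X (c + (ψ ⬝ᵥ c) • u) (φ - (φ ⬝ᵥ u) • ψ) := by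
  have hn := TM_neg hb
  have hg : tvG u (-ψ) hn.1 ∈ X := hn.mem
  have hinv : (tvG u (-ψ) hn.1)⁻¹ = tvG u ψ hb.1 := by
    rw [inv_eq_iff_eq_inv, eq_inv_iff_mul_eq_one]
    apply Units.ext
    rw [Units.val_mul, tvG_val, tvG_val, tv_mul_tv_same _ _ _ hn.1, neg_add_cancel,
      Units.val_one, tv_zero_right]
  have h1 := TM_conj h hg
  rw [hinv, tvG_val, tvG_val, tv_mulVec, vecMul_tv, smul_neg, ← sub_eq_add_neg] at h1
  exact h1

end Cfsg.Agent.Lib.Helper61.Blk
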