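import Mathlib
import Cfsg.Agent.Lib.Helper18.CTDefs

/-!
# Project CT (S4699, architect helper18): piece GEN (helper61)
-/

set_option autoImplicit false

namespace Cfsg.Agent.Lib.Helper18.CT

variable {G : Type*} [Group G] {F : Type*} [Field F] {V : Type*} [AddCommGroup V] [Module F V]

-- piece GEN
theorem exists_gen (P : Subgroup G) (hcyc : IsCyclic P) : ∃ x : G, Subgroup.zpowers x = P := by
  obtain ⟨g, hg⟩ := hcyc.exists_generator
  refine ⟨(g : G), le_antisymm ?_ ?_⟩
  · rw [Subgroup.zpowers_le]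
    exact g.2
  · intro y hy
    obtain ⟨k, hk⟩ := Subgroup.mem_zpowers_iff.mp (hg ⟨y, hy⟩)
    rw [Subgroup.mem_zpowers_iff]
    refine ⟨k, ?_⟩
    have h1 := congrArg Subtype.val hk
    rw [Subgroup.coe_zpow] at h1
    exact h1

end Cfsg.Agent.Lib.Helper18.CT
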