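import Cfsg.Agent.Lib.Helper98.T73Defs
import Cfsg.Agent.S0750

/-!
# Project T73 (S5973, helper98), piece COUNTQ (helper61)

If a prime `r` divides the number of totally singular `m`-spaces of a nondegenerate quadratic
space (and there is one), then there is an isometry of order `r`: Witt's lemma (S0750) makes the
isometry group transitive on these spaces; orbit-stabiliser; Cauchy.
-/

set_option autoImplicit false

namespace Cfsg.Agent.Lib.Helper98.T73

open Cfsg.Agent.Lib.Helper47 Module Polynomial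

universe u

variable {F : Type u} [Field F] [Fintype F] {V : Type u} [AddCommGroup V] [Module F V]
  [FiniteDimensional F V] {Q : V → F} {B : V → V → F}

/-- COUNTQ: the quadratic form of Mathlib attached to `IsQuad Q B`. -/
noncomputable def COUNTQ_qf (hQ : IsQuad Q B) : QuadraticForm F V :=
  QuadraticMap.mk Q (fun a x => by rw [hQ.smul, smul_eq_mul]; ring)
    ⟨LinearMap.mk₂ F B hQ.form.add_left hQ.form.smul_left
      (fun x y z => hQ.form.add_right x y z)
      (fun c x y => by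
        have h := hQ.form.smul_right c x y
        simpa using h),
      fun x y => by
        rw [hQ.polar]
        rfl⟩

/-- COUNTQ: the group of isometries of `Q`. -/
def COUNTQ_grp (Q : V → F) : Subgroup (V ≃ₗ[F] V) where
  carrier := {g | ∀ v, Q (g v) = Q v}
  mul_mem' := by
    intro a b ha hb v
    show Q (a (b v)) = Q v
    rw [ha, hb]
  one_mem' := fun v => rfl
  inv_mem' := by
    intro a ha v
    show Q (a.symm v) = Q v
    have h1 := ha (a.symm v)
    rw [LinearEquiv.apply_symm_apply] at h1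
    exact h1.symm

/-- COUNTQ: the action of the isometries on the totally singular subspaces of dimension `m`. -/
@[reducible] noncomputable def COUNTQ_act (Q : V → F) (m : ℕ) :
    MulAction ↥(COUNTQ_grp Q) {W : Submodule F V // finrank F W = m ∧ TS Q W} where
  smul g W := ⟨(W.1).map ((g : V ≃ₗ[F] V) : V →ₗ[F] V), by
    have hg : ∀ v, Q ((g : V ≃ₗ[F] V) v) = Q v := g.2
    refine ⟨?_, ?_⟩
    · rw [LinearEquiv.finrank_map_eq]
      exact W.2.1
    · rintro _ ⟨x, hx, rfl⟩
      show Q ((g : V ≃ₗ[F] V) x) = 0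
      rw [hg x]
      exact W.2.2 x hx⟩
  one_smul W := Subtype.ext (Submodule.map_id _)
  mul_smul g h W := Subtype.ext (Submodule.map_comp _ _ _)

/-- COUNTQ -/
theorem exists_qi_of_dvd_card (hQ : IsQuad Q B) (hnd : Nondeg B) (m : ℕ)
    (hne : ∃ W : Submodule F V, finrank F W = m ∧ TS Q W) (r : ℕ) (hr : r.Prime)
    (hdvd : r ∣ Nat.card {W : Submodule F V // finrank F W = m ∧ TS Q W}) :
    ∃ g : Module.End F V, QI Q g ∧ g ^ r = 1 ∧ g ≠ 1 := by
  classical
  obtain ⟨W₀, hW₀⟩ := hne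
  haveI : Fact r.Prime := ⟨hr⟩
  haveI : Finite V := Module.finite_of_finite F
  haveI : Finite (V ≃ₗ[F] V) :=
    Finite.of_injective (fun g : V ≃ₗ[F] V => (g : V → V)) DFunLike.coe_injective
  -- the quadratic form
  obtain ⟨Q', hQ'⟩ : ∃ Q' : QuadraticForm F V, ∀ v, Q' v = Q v := ⟨COUNTQ_qf hQ, fun v => rfl⟩
  have hpol : ∀ x y : V, QuadraticMap.polarBilin Q' x y = B x y := by
    intro x y
    rw [QuadraticMap.polarBilin_apply_apply, QuadraticMap.polar, hQ', hQ', hQ', hQ.polar]
    ring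
  have hQnd : (QuadraticMap.polarBilin Q').Nondegenerate := by
    constructor
    · intro x hx
      exact hnd x (fun y => by
        rw [← hpol]
        exact hx y)
    · intro y hy
      exact hQ.form.nondeg_right hnd y (fun x => by
        rw [← hpol]
        exact hy x)
  -- Witt
  have hwitt : ∀ W W' : Submodule F V, TS Q W → TS Q W' → finrank F W = finrank F W' →
      ∃ h : V ≃ₗ[F] V, (∀ v, Q (h v) = Q v) ∧ W.map (h : V →ₗ[F] V) = W' := by
    intro W W' hW hW' hfin
    let φ : W ≃ₗ[F] W' := LinearEquiv.ofFinrankEq W W' hfin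
    obtain ⟨g, hg, hgφ⟩ := Cfsg.Agent.S0750.result Q' hQnd W W' φ (fun x => by
      rw [hQ', hQ', hW' _ (φ x).2, hW _ x.2])
    refine ⟨g, fun v => by rw [← hQ', hg, hQ'], ?_⟩
    apply le_antisymm
    · rintro _ ⟨x, hx, rfl⟩
      have h1 := hgφ ⟨x, hx⟩
      show g x ∈ W'
      rw [show g x = (φ ⟨x, hx⟩ : V) from h1]
      exact (φ ⟨x, hx⟩).2
    · intro y hy
      refine ⟨(φ.symm ⟨y, hy⟩ : V), (φ.symm ⟨y, hy⟩).2, ?_⟩
      have h1 := hgφ (φ.symm ⟨y, hy⟩)
      rw [LinearEquiv.apply_symm_apply] at h1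
      exact h1
  have h2 : Nat.card {W : Submodule F V // finrank F W = m ∧ TS Q W} ∣
      Nat.card ↥(COUNTQ_grp Q) := by
    letI := COUNTQ_act Q m
    haveI : MulAction.IsPretransitive ↥(COUNTQ_grp Q)
        {W : Submodule F V // finrank F W = m ∧ TS Q W} :=
      ⟨by
        intro D D'
        obtain ⟨g, hg, hgD⟩ := hwitt D.1 D'.1 D.2.2 D'.2.2 (D.2.1.trans D'.2.1.symm)
        exact ⟨⟨g, hg⟩, Subtype.ext hgD⟩⟩
    rw [← MulAction.index_stabilizer_of_transitive ↥(COUNTQ_grp Q)
      (⟨W₀, hW₀⟩ : {W : Submodule F V // finrank F W = m ∧ TS Q W})]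
    exact Subgroup.index_dvd_card _
  have h3 : r ∣ Nat.card ↥(COUNTQ_grp Q) := dvd_trans hdvd h2
  obtain ⟨g, hg⟩ := exists_prime_orderOf_dvd_card' (G := ↥(COUNTQ_grp Q)) r h3
  have hgr : (g : V ≃ₗ[F] V) ^ r = 1 := by
    have : g ^ r = 1 := by
      rw [← hg]
      exact pow_orderOf_eq_one g
    have h := congrArg (fun x : ↥(COUNTQ_grp Q) => (x : V ≃ₗ[F] V)) this
    simpa using h
  have hpow : ∀ (k : ℕ) (x : V),
      ((((g : V ≃ₗ[F] V) : V →ₗ[F] V) : Module.End F V) ^ k) x = ((g : V ≃ₗ[F] V) ^ k) x := by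
    intro k
    induction k with
    | zero => intro x; rfl
    | succ k ih =>
      intro x
      rw [pow_succ, pow_succ]
      show ((((g : V ≃ₗ[F] V) : V →ₗ[F] V) : Module.End F V) ^ k) ((g : V ≃ₗ[F] V) x) =
        ((g : V ≃ₗ[F] V) ^ k) ((g : V ≃ₗ[F] V) x)
      exact ih _
  have hgQ : ∀ v, Q ((g : V ≃ₗ[F] V) v) = Q v := g.2
  refine ⟨((g : V ≃ₗ[F] V) : V →ₗ[F] V), fun v => hgQ v, ?_, ?_⟩
  · ext x
    rw [hpow, hgr]
    rfl
  · intro h
    have hg1 : g = 1 := by
      apply Subtype.ext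
      ext x
      have := LinearMap.congr_fun h x
      exact this
    rw [hg1, orderOf_one] at hg
    exact hr.one_lt.ne hg

end Cfsg.Agent.Lib.Helper98.T73
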