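import Mathlib
import Cfsg.Agent.Lib.Helper98.O72Defs

/-!
# Project O72 (helper98, S5972), piece COPY: auxiliary part

For a symmetric bilinear form in odd characteristic over a finite field: a nondegenerate `K`
contains the image of any nondegenerate `P` of smaller dimension under a linear map preserving
`v ↦ B v v` and injective on `P` (`copy_map`); with Witt's extension lemma as a hypothesis this
gives a global isometry (`copy_of_witt`).
-/

set_option autoImplicit false
set_option linter.unusedSectionVars false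
set_option linter.unusedVariables false

namespace Cfsg.Agent.Lib.Helper98.O72

open Module Polynomial Cfsg.Agent.Lib.Helper96.Sp

variable {F : Type*} [Field F] [Fintype F] {V : Type*} [AddCommGroup V] [Module F V]
  [FiniteDimensional F V] {B : LinearMap.BilinForm F V}

/-- a nonzero nondegenerate subspace has an anisotropic vector -/
theorem copy_exists_aniso (hS : B.IsSymm) (hchar2 : (2 : F) ≠ 0) {P : Submodule F V}
    (hP : ND B P) (hne : P ≠ ⊥) : ∃ u ∈ P, B u u ≠ 0 := by
  by_contra hcon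
  push Not at hcon
  obtain ⟨x, hx, hx0⟩ := Submodule.exists_mem_ne_zero_of_ne_bot hne
  apply hx0
  apply hP x hx
  intro y hy
  have h1 := hcon (x + y) (P.add_mem hx hy)
  simp only [map_add, LinearMap.add_apply] at h1
  have e1 := hcon x hx
  have e2 := hcon y hy
  have e3 := hS.eq y x
  have h2 : (2 : F) * B x y = 0 := by linear_combination h1 - e1 - e2 - e3
  exact (mul_eq_zero.mp h2).resolve_left hchar2

/-- the line spanned by an anisotropic vector is nondegenerate -/
theorem copy_nd_span {v : V} (hv : B v v ≠ 0) : ND B (F ∙ v) := by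
  intro u hu h
  obtain ⟨c, rfl⟩ := Submodule.mem_span_singleton.mp hu
  have h1 := h v (Submodule.mem_span_singleton_self v)
  rw [map_smul, LinearMap.smul_apply, smul_eq_mul] at h1
  rw [(mul_eq_zero.mp h1).resolve_right hv, zero_smul]

theorem copy_mem_perp (hS : B.IsSymm) (hchar2 : (2 : F) ≠ 0) {v x : V} :
    x ∈ B.orthogonal (F ∙ v) ↔ B x v = 0 := by
  rw [mem_perp_iff' hS hchar2]
  constructor
  · intro h
    exact h v (Submodule.mem_span_singleton_self v)
  · intro h w hw
    obtain ⟨c, rfl⟩ := Submodule.mem_span_singleton.mp hw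
    rw [map_smul, smul_eq_mul, h, mul_zero]

theorem copy_ne_zero {v : V} (hv : B v v ≠ 0) : v ≠ 0 := by
  rintro rfl
  apply hv
  simp

/-- the orthogonal complement of an anisotropic vector inside a nondegenerate subspace -/
theorem copy_perp (hS : B.IsSymm) (hchar2 : (2 : F) ≠ 0) {K : Submodule F V} (hK : ND B K)
    {v : V} (hvK : v ∈ K) (hv : B v v ≠ 0) :
    ND B (K ⊓ B.orthogonal (F ∙ v)) ∧ finrank F ↥(K ⊓ B.orthogonal (F ∙ v)) + 1 = finrank F K := by
  have hle : (F ∙ v) ≤ K := by
    rw [Submodule.span_singleton_le_iff_mem]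
    exact hvK
  obtain ⟨h1, -, h3⟩ := nd_rel hS hchar2 (copy_nd_span hv) hK hle
  refine ⟨h1, ?_⟩
  rw [finrank_span_singleton (copy_ne_zero hv)] at h3
  omega

/-- a nondegenerate subspace of dimension at least two represents every scalar -/
theorem copy_represents (hS : B.IsSymm) (hchar2 : (2 : F) ≠ 0) {K : Submodule F V}
    (hK : ND B K) (h2 : 2 ≤ finrank F K) (a : F) : ∃ v ∈ K, B v v = a := by
  have hK0 : K ≠ ⊥ := by
    rintro rfl
    rw [finrank_bot] at h2
    omega
  obtain ⟨e₁, he₁, ha₁⟩ := copy_exists_aniso hS hchar2 hK hK0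
  obtain ⟨hK₁, hfin⟩ := copy_perp hS hchar2 hK he₁ ha₁
  have hK₁0 : K ⊓ B.orthogonal (F ∙ e₁) ≠ ⊥ := by
    intro h
    rw [h, finrank_bot] at hfin
    omega
  obtain ⟨e₂, he₂, ha₂⟩ := copy_exists_aniso hS hchar2 hK₁ hK₁0
  have h21 : B e₂ e₁ = 0 := (copy_mem_perp hS hchar2).mp he₂.2
  have h12 : B e₁ e₂ = 0 := by rw [hS.eq e₂ e₁] at h21; exact h21
  have hR : Fintype.card F % 2 = 1 := by
    apply FiniteField.odd_card_of_char_ne_two
    intro h
    apply hchar2
    have := CharP.cast_eq_zero F (ringChar F)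
    rw [h] at this
    exact_mod_cast this
  have hf2 : degree (C (B e₁ e₁) * X ^ 2 : F[X]) = 2 := degree_C_mul_X_pow 2 ha₁
  have hg2 : degree (C (B e₂ e₂) * X ^ 2 - C a : F[X]) = 2 := by
    rw [degree_sub_C, degree_C_mul_X_pow 2 ha₂]
    · rfl
    · rw [degree_C_mul_X_pow 2 ha₂]
      norm_num
  obtain ⟨x, y, hxy⟩ := FiniteField.exists_root_sum_quadratic hf2 hg2 hR
  simp only [eval_mul, eval_C, eval_pow, eval_X, eval_sub] at hxy
  refine ⟨x • e₁ + y • e₂, K.add_mem (K.smul_mem _ he₁) (K.smul_mem _ he₂.1), ?_⟩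
  simp only [map_add, map_smul, LinearMap.add_apply, LinearMap.smul_apply, smul_eq_mul, h12, h21]
  linear_combination hxy

/-- the key induction: a quadratic-form preserving linear map, injective on `P`, into `K` -/
theorem copy_map (hS : B.IsSymm) (hchar2 : (2 : F) ≠ 0) (n : ℕ) :
    ∀ (P K : Submodule F V), ND B P → ND B K → finrank F P = n → n < finrank F K →
      ∃ φ : V →ₗ[F] V, (∀ x ∈ P, φ x ∈ K) ∧ (∀ x ∈ P, B (φ x) (φ x) = B x x) ∧
        (∀ x ∈ P, φ x = 0 → x = 0) := by
  induction n with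
  | zero =>
    intro P K hP hK hn hlt
    have hP0 : P = ⊥ := Submodule.finrank_eq_zero.mp hn
    refine ⟨0, ?_, ?_, ?_⟩
    · intro x hx
      rw [LinearMap.zero_apply]
      exact K.zero_mem
    · intro x hx
      rw [hP0, Submodule.mem_bot] at hx
      rw [hx, LinearMap.zero_apply]
    · intro x hx _
      rw [hP0, Submodule.mem_bot] at hx
      exact hx
  | succ n ih =>
    intro P K hP hK hn hlt
    have hP0 : P ≠ ⊥ := by
      rintro rfl
      rw [finrank_bot] at hn
      omega
    obtain ⟨u, hu, ha⟩ := copy_exists_aniso hS hchar2 hP hP0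
    obtain ⟨v, hv, hva⟩ := copy_represents hS hchar2 hK (by omega) (B u u)
    have hv0 : B v v ≠ 0 := by rw [hva]; exact ha
    obtain ⟨hP', hfinP'⟩ := copy_perp hS hchar2 hP hu ha
    obtain ⟨hK', hfinK'⟩ := copy_perp hS hchar2 hK hv hv0
    obtain ⟨φ', hφ'K, hφ'B, hφ'inj⟩ := ih (P ⊓ B.orthogonal (F ∙ u)) (K ⊓ B.orthogonal (F ∙ v))
      hP' hK' (by omega) (by omega)
    -- the coordinate along `u` and the projection to the complement
    obtain ⟨c, hc⟩ : ∃ c : V →ₗ[F] F, ∀ x, c x = (B u u)⁻¹ * B x u :=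
      ⟨(B u u)⁻¹ • B.flip u, fun x => rfl⟩
    have hcu : ∀ x, B x u = B u u * c x := fun x => by
      rw [hc]; field_simp
    have hπP : ∀ x ∈ P, x - c x • u ∈ P ⊓ B.orthogonal (F ∙ u) := by
      intro x hx
      refine ⟨P.sub_mem hx (P.smul_mem _ hu), (copy_mem_perp hS hchar2).mpr ?_⟩
      rw [map_sub, LinearMap.sub_apply, map_smul, LinearMap.smul_apply, smul_eq_mul, hcu x]
      ring
    refine ⟨φ' ∘ₗ (LinearMap.id - c.smulRight u) + c.smulRight v, ?_, ?_, ?_⟩
    · intro x hx
      simp only [LinearMap.add_apply, LinearMap.comp_apply, LinearMap.sub_apply,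
        LinearMap.id_apply, LinearMap.smulRight_apply]
      exact K.add_mem (hφ'K _ (hπP x hx)).1 (K.smul_mem _ hv)
    · intro x hx
      simp only [LinearMap.add_apply, LinearMap.comp_apply, LinearMap.sub_apply,
        LinearMap.id_apply, LinearMap.smulRight_apply]
      have h1 : B (φ' (x - c x • u)) v = 0 :=
        (copy_mem_perp hS hchar2).mp (hφ'K _ (hπP x hx)).2
      have h2 : B v (φ' (x - c x • u)) = 0 := by rw [hS.eq] at h1; exact h1
      have h3 := hφ'B _ (hπP x hx)
      have h4 : B (x - c x • u) (x - c x • u) = B x x - B u u * c x ^ 2 := by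
        simp only [map_sub, map_smul, LinearMap.sub_apply, LinearMap.smul_apply, smul_eq_mul]
        rw [hS.eq u x, hcu x]
        ring
      simp only [map_add, map_smul, LinearMap.add_apply, LinearMap.smul_apply, smul_eq_mul,
        h1, h2, h3, h4, hva]
      ring
    · intro x hx h0
      simp only [LinearMap.add_apply, LinearMap.comp_apply, LinearMap.sub_apply,
        LinearMap.id_apply, LinearMap.smulRight_apply] at h0
      have h1 : B (φ' (x - c x • u)) v = 0 :=
        (copy_mem_perp hS hchar2).mp (hφ'K _ (hπP x hx)).2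
      have h5 : B (φ' (x - c x • u) + c x • v) v = 0 := by
        rw [h0, map_zero, LinearMap.zero_apply]
      rw [map_add, LinearMap.add_apply, h1, zero_add, map_smul, LinearMap.smul_apply,
        smul_eq_mul] at h5
      have hc0 : c x = 0 := (mul_eq_zero.mp h5).resolve_right hv0
      have hxx : x - c x • u = x := by rw [hc0, zero_smul, sub_zero]
      rw [hxx, hc0, zero_smul, add_zero] at h0
      have h6 := hφ'inj _ (hπP x hx)
      rw [hxx] at h6
      exact h6 h0

/-- COPY, with Witt's extension lemma as a hypothesis. -/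
theorem copy_of_witt (hS : B.IsSymm) (hchar2 : (2 : F) ≠ 0)
    (hwitt : ∀ (X Y : Submodule F V) (φ : X ≃ₗ[F] Y),
      (∀ x : X, B (φ x : V) (φ x : V) = B (x : V) (x : V)) →
      ∃ g : V ≃ₗ[F] V, Isom B (g : V →ₗ[F] V) ∧ ∀ x : X, g (x : V) = (φ x : V))
    {P₀ K : Submodule F V} (hP₀ : ND B P₀) (hK : ND B K)
    (hlt : finrank F P₀ < finrank F K) :
    ∃ Q : Submodule F V, Q ≤ K ∧ ND B Q ∧ finrank F Q = finrank F P₀ ∧
      ∃ h : V ≃ₗ[F] V, Isom B (h : V →ₗ[F] V) ∧ P₀.map (h : V →ₗ[F] V) = Q := by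
  obtain ⟨φ, hφK, hφB, hφinj⟩ := copy_map hS hchar2 (finrank F P₀) P₀ K hP₀ hK rfl hlt
  have hinj : Function.Injective (φ.domRestrict P₀) := by
    rw [injective_iff_map_eq_zero]
    intro x hx
    exact Subtype.ext (hφinj x x.2 hx)
  obtain ⟨g, hg, hgx⟩ := hwitt P₀ (LinearMap.range (φ.domRestrict P₀))
    (LinearEquiv.ofInjective (φ.domRestrict P₀) hinj) (fun x => by
      rw [LinearEquiv.ofInjective_apply]
      exact hφB x x.2)
  refine ⟨P₀.map (g : V →ₗ[F] V), ?_, ?_, LinearEquiv.finrank_map_eq g P₀, g, hg, rfl⟩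
  · rintro _ ⟨x, hx, rfl⟩
    have h1 := hgx ⟨x, hx⟩
    rw [LinearEquiv.ofInjective_apply] at h1
    rw [LinearEquiv.coe_coe, h1]
    exact hφK x hx
  · rintro _ ⟨x, hx, rfl⟩ h
    have hx0 : x = 0 := by
      apply hP₀ x hx
      intro y hy
      have h1 := h ((g : V →ₗ[F] V) y) ⟨y, hy, rfl⟩
      rwa [hg] at h1
    rw [hx0, map_zero]

end Cfsg.Agent.Lib.Helper98.O72
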