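import Mathlib
import Cfsg.Agent.Lib.Helper61.TT5Defs

/-!
# S5365: basic lemmas on the local structure `TS D` (helper61)
-/

set_option autoImplicit false

namespace Cfsg.Agent.Lib.Helper61.TT5

variable {G : Type*} [Group G] {D : Set G}

theorem TS.inv_eq (hT : TS D) {d : G} (hd : d ∈ D) : d⁻¹ = d :=
  inv_eq_of_mul_eq_one_left (hT.sq d hd)

theorem TS.mul_cancel (hT : TS D) {d : G} (hd : d ∈ D) (x : G) : d * (d * x) = x := by
  rw [← mul_assoc, hT.sq d hd, one_mul]

theorem Nb.symm {d y : G} (hd : d ∈ D) (h : Nb D d y) : Nb D y d :=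
  ⟨hd, fun e => h.2.1 e.symm, h.2.2.symm⟩

theorem nb_conj (hT : TS D) (g : G) {d y : G} (h : Nb D d y) :
    Nb D (g * d * g⁻¹) (g * y * g⁻¹) := by
  refine ⟨hT.conj g y h.1, fun e => h.2.1 ?_, ?_⟩
  · have h1 : g⁻¹ * (g * y * g⁻¹) * g = g⁻¹ * (g * d * g⁻¹) * g := by rw [e]
    simpa [mul_assoc] using h1
  · have h1 := h.2.2.map (MulAut.conj g)
    simpa [MulAut.conj_apply] using h1

theorem TS.braid_of_not_commute (hT : TS D) {d e : G} (hd : d ∈ D) (he : e ∈ D)
    (h : ¬ Commute d e) : d * e * d = e * d * e :=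
  (hT.pair d hd e he).resolve_left (fun h' => h h')

theorem nb_aba (hT : TS D) {d a b : G} (ha : Nb D d a) (hb : Nb D d b) :
    Nb D d (a * b * a) := by
  refine ⟨?_, ?_, ?_⟩
  · have h := hT.conj a b hb.1
    rwa [hT.inv_eq ha.1] at h
  · intro e
    apply hb.2.1
    have h1 : a * (a * b * a) * a = a * d * a := by rw [e]
    have h2 : a * d * a = d := by
      rw [← ha.2.2.eq, mul_assoc, hT.sq a ha.1, mul_one]
    rw [h2] at h1
    rw [← h1]
    simp [mul_assoc, hT.sq a ha.1, hT.mul_cancel ha.1]
  · exact (ha.2.2.mul_right hb.2.2).mul_right ha.2.2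

/-- the six "third point" identities on a line -/
theorem line_identities {a b : G} (ha : a * a = 1) (hb : b * b = 1) (hbr : a * b * a = b * a * b) :
    a * (a * b * a) * a = b ∧ b * (a * b * a) * b = a ∧ (a * b * a) * a * (a * b * a) = b ∧
      (a * b * a) * b * (a * b * a) = a := by
  have ha' : ∀ x : G, a * (a * x) = x := fun x => by rw [← mul_assoc, ha, one_mul]
  have hb' : ∀ x : G, b * (b * x) = x := fun x => by rw [← mul_assoc, hb, one_mul]
  refine ⟨?_, ?_, ?_, ?_⟩
  · simp [mul_assoc, ha, ha']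
  · rw [hbr]
    simp [mul_assoc, hb, hb']
  · simp only [mul_assoc, ha, ha', mul_one]
    have h1 : a * (b * (a * (b * a))) = a * ((b * a * b) * a) := by simp [mul_assoc]
    rw [h1, ← hbr]
    simp [mul_assoc, ha, ha']
  · have h1 : a * b * a * b * (a * b * a) = a * (b * a * b) * (a * b * a) := by simp [mul_assoc]
    rw [h1, ← hbr]
    simp [mul_assoc, ha, ha', hb, hb']

/-- three pairwise distinct neighbours of `d` are all the neighbours -/
theorem three_nb (hT : TS D) {d p q r : G} (hd : d ∈ D) (hp : Nb D d p) (hq : Nb D d q)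
    (hr : Nb D d r) (hpq : p ≠ q) (hpr : p ≠ r) (hqr : q ≠ r) :
    ∀ y, Nb D d y → y = p ∨ y = q ∨ y = r := by
  obtain ⟨a, b, -, -, -, hall⟩ := hT.line d hd
  intro y hy
  have hy' := hall y hy
  have hp' := hall p hp
  have hq' := hall q hq
  have hr' := hall r hr
  rcases hy' with rfl | rfl | rfl <;> rcases hp' with rfl | rfl | rfl <;>
    rcases hq' with rfl | rfl | rfl <;> rcases hr' with rfl | rfl | rfl <;> simp_all

/-- the neighbours of `d` are `a`, `b`, `a * b * a` for any two non-commuting neighbours -/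
theorem line3 (hT : TS D) {d a b : G} (hd : d ∈ D) (ha : Nb D d a) (hb : Nb D d b)
    (hab : a * b ≠ b * a) : ∀ y, Nb D d y → y = a ∨ y = b ∨ y = a * b * a := by
  have hne : a ≠ b := fun e => hab (by rw [e])
  have hbr : a * b * a = b * a * b := hT.braid_of_not_commute ha.1 hb.1 hab
  have hc := nb_aba hT ha hb
  apply three_nb hT hd ha hb hc hne
  · intro e
    -- a = a b a  ⟹  b = 1
    have h1 : a * a = a * (a * b * a) := by rw [← e]
    rw [hT.sq a ha.1] at h1
    have h2 : a * (a * b * a) = b * a := by simp [mul_assoc, hT.mul_cancel ha.1]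
    rw [h2] at h1
    have h3 : b = a := by
      have h4 : b * a * a = 1 * a := by rw [← h1]
      rw [mul_assoc, hT.sq a ha.1, mul_one, one_mul] at h4
      exact h4
    exact hne h3.symm
  · intro e
    -- b = a b a ⟹ a b = b a
    apply hab
    have h1 : b * a = a * b * a * a := by rw [← e]
    rw [mul_assoc, hT.sq a ha.1, mul_one] at h1
    exact h1.symm

theorem k33 (hT : TS D) {x y a : G} (hx : x ∈ D) (hy : y ∈ D) (hxy : x ≠ y)
    (hN : SameNb D x y) (ha : Nb D x a) :
    ¬ Commute x y ∧ (∀ z, Nb D a z ↔ (z = x ∨ z = y ∨ z = x * y * x)) ∧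
      SameNb D x (x * y * x) := by
  have hnc : ¬ Commute x y := by
    intro h
    have h1 : Nb D x y := ⟨hy, fun e => hxy e.symm, h⟩
    exact ((hN y).mp h1).2.1 rfl
  have hax : Nb D a x := Nb.symm hx ha
  have hay : Nb D a y := Nb.symm hy ((hN a).mp ha)
  have haz : Nb D a (x * y * x) := nb_aba hT hax hay
  refine ⟨hnc, ?_, ?_⟩
  · intro z
    constructor
    · exact line3 hT ha.1 hax hay hnc z
    · rintro (rfl | rfl | rfl)
      · exact hax
      · exact hay
      · exact haz
  · intro z
    have hxi : x⁻¹ = x := hT.inv_eq hx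
    constructor
    · intro hz
      have h1 := nb_conj hT x ((hN z).mp hz)
      rw [hxi] at h1
      have h2 : x * z * x = z := by
        rw [hz.2.2.eq, mul_assoc, hT.sq x hx, mul_one]
      rwa [h2] at h1
    · intro hz
      have h1 := nb_conj hT x hz
      rw [hxi] at h1
      have h2 : x * (x * y * x) * x = y := by
        simp [mul_assoc, hT.sq x hx, hT.mul_cancel hx]
      rw [h2] at h1
      have h3 := nb_conj hT x ((hN _).mpr h1)
      rw [hxi] at h3
      have h4 : x * x * x = x := by rw [hT.sq x hx, one_mul]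
      have h5 : x * (x * z * x) * x = z := by
        simp [mul_assoc, hT.sq x hx, hT.mul_cancel hx]
      rwa [h4, h5] at h3

/-- elementary lemma -/
theorem el : ELProp G := by
  intro h a b hh ha hb h1 h2 hc
  have e2 : (h * a * h) * (h * b * h) = a * b := by
    calc (h * a * h) * (h * b * h) = h * a * (h * h) * b * h := by simp [mul_assoc]
      _ = h * (a * b) * h := by rw [hh]; simp [mul_assoc]
      _ = (a * b) * h * h := by rw [hc]
      _ = a * b := by rw [mul_assoc, hh, mul_one]
  rw [h1, h2] at e2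
  have e3 : a * (h * a * b * h) * b = a * 1 * b := by
    rw [mul_one, ← e2]
    simp [mul_assoc]
  have e4 : h * a * b * h = 1 := mul_left_cancel (mul_right_cancel e3)
  have e5 : a * b = 1 := by
    have e6 : h * (h * a * b * h) * h = h * 1 * h := by rw [e4]
    have e7 : h * (h * a * b * h) * h = a * b := by
      have hh' : ∀ x : G, h * (h * x) = x := fun x => by rw [← mul_assoc, hh, one_mul]
      simp [mul_assoc, hh, hh']
    rw [e7, mul_one, hh] at e6
    exact e6
  calc a = a * (b * b) := by rw [hb, mul_one]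
    _ = (a * b) * b := by rw [mul_assoc]
    _ = b := by rw [e5, one_mul]

end Cfsg.Agent.Lib.Helper61.TT5
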