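import Cfsg.Agent.Lib.Helper98.H74Defs

/-!
# Project H74 (S5974, architect helper98): piece GSTRUCT (helper61)

`g_struct`: the structure of an isometry `g` of odd prime order `r ≠ p` of an even-dimensional
quadratic space: `V = ker (g - 1) ⊥ range (g - 1)`, the range has dimension `i * A` with `A`
valid, is nondegenerate, and the fixed space (if nonzero) has type `ε * sgn i A`.
-/

set_option autoImplicit false

namespace Cfsg.Agent.Lib.Helper98.H74

open Cfsg.Agent.Lib.Helper47 Cfsg.Agent.Lib.Helper98.T73 Module Polynomial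

universe u

variable {F : Type u} [Field F] [Fintype F] {V : Type u} [AddCommGroup V] [Module F V]
  [FiniteDimensional F V] {Q : V → F} {B : V → V → F}

/-- GSTRUCT -/
theorem g_struct (hf : QFacts F) (hQ : IsQuad Q B) (hnd : Nondeg B) (d : ℕ) (hd : 1 ≤ d)
    (hdim : finrank F V = 2 * d) (ε : ℤ) (hε : ε = 1 ∨ ε = -1) (htyp : IsTyp Q (d - 1) ε)
    (p : ℕ) [Fact p.Prime] [CharP F p] (r : ℕ) (hr : r.Prime) (hr2 : r ≠ 2) (hrp : r ≠ p)
    (g : Module.End F V) (hgQ : QI Q g) (hg : g ^ r = 1) (hg1 : g ≠ 1) :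
    ∃ A : ℕ, Valid ε (orderOf ((Fintype.card F : ℕ) : ZMod r)) d A ∧
      finrank F (LinearMap.range (g - 1)) = orderOf ((Fintype.card F : ℕ) : ZMod r) * A ∧
      finrank F (LinearMap.ker (g - 1))
        = 2 * d - orderOf ((Fintype.card F : ℕ) : ZMod r) * A ∧
      Nondeg (resForm B (LinearMap.range (g - 1))) ∧
      (∀ x ∈ LinearMap.ker (g - 1), ∀ y ∈ LinearMap.range (g - 1), B x y = 0) ∧
      ∀ e : ℕ, 2 * d - orderOf ((Fintype.card F : ℕ) : ZMod r) * A = 2 * e + 2 →
        SubTyp Q B (LinearMap.ker (g - 1)) e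
          (ε * sgn (orderOf ((Fintype.card F : ℕ) : ZMod r)) A) := by
  obtain ⟨u, hu, hdual, hu0, hch, hR⟩ := charp hQ hnd p r hr hr2 hrp g hgQ hg hg1
  have hdim' : finrank F V = 2 * (d - 1) + 2 := by omega
  obtain ⟨t1, t2, t3, t4⟩ :=
    typc hf hQ hnd (d - 1) hdim' ε htyp p r hr hr2 hrp g hgQ hg u hu hdual hu0 hch
  have htau := tau_sgn p r hr hr2 hrp u hu
  have hrn : finrank F (LinearMap.range (g - 1)) + finrank F (LinearMap.ker (g - 1)) = 2 * d := by
    rw [← hdim]
    exact LinearMap.finrank_range_add_finrank_ker (g - 1)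
  have hA1 : 1 ≤ Multiset.card u := Multiset.card_pos.mpr hu0
  have hle : orderOf ((Fintype.card F : ℕ) : ZMod r) * Multiset.card u ≤ 2 * d := by omega
  have hC : finrank F (LinearMap.ker (g - 1))
      = 2 * d - orderOf ((Fintype.card F : ℕ) : ZMod r) * Multiset.card u := by omega
  have hgi : ∀ x y, B (g x) (g y) = B x y := hQ.isometry hQ g hgQ
  refine ⟨Multiset.card u, ⟨hA1, hle, ?_, ?_⟩, hR, hC, t2, ?_, ?_⟩
  · intro hio
    have h1 : Even (orderOf ((Fintype.card F : ℕ) : ZMod r) * Multiset.card u) := by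
      have h2 : Even (2 * d) := even_two_mul d
      have h3 : orderOf ((Fintype.card F : ℕ) : ZMod r) * Multiset.card u
          = 2 * d - finrank F (LinearMap.ker (g - 1)) := by omega
      rw [h3]
      exact (Nat.even_sub (by omega)).mpr (iff_of_true h2 t1)
    rcases Nat.even_mul.mp h1 with h | h
    · exact absurd h (Nat.not_even_iff_odd.mpr hio)
    · exact h
  · intro h2d
    have hC0' : finrank F (LinearMap.ker (g - 1)) = 0 := by omega
    rw [← htau]
    exact t4 hC0'
  · intro x hx y hy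
    have hx' : g x = x := by
      have h1 : (g - 1) x = 0 := LinearMap.mem_ker.mp hx
      rw [LinearMap.sub_apply, Module.End.one_apply, sub_eq_zero] at h1
      exact h1
    exact fix_orth_range hQ.form g hgi x hx' y hy
  · intro e he
    rw [← htau]
    exact t3 e (by omega)

end Cfsg.Agent.Lib.Helper98.H74
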