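import Mathlib
import Cfsg.Prelude.Def_GeometricClasses
import Cfsg.Prelude.Def_LieClassical
import Cfsg.Agent.Lib.Helper71.Asch5
import Cfsg.Agent.Lib.Helper44.BADDefs

/-! Project BAD (helper44; sub-project of helper49's SUG = S5663): piece SMUL (helper61).
The set `bS` (the group `3^{1+2}` over the field with 4 elements) is closed under products and
inverses. -/

set_option autoImplicit false

namespace Cfsg.Agent.Lib.Helper44.BAD

open Matrix Cfsg.Geo Cfsg.Agent.Lib.Helper71.Asch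
open scoped Kronecker

variable {n : ℕ} {F : Type*} [Field F] [Fintype F] {q : ℕ}

theorem SMUL_d3 (hF : Fintype.card F = 4) (d : F) (hd : d ≠ 0) : d ^ 3 = 1 := by
  have h := FiniteField.pow_card_sub_one_eq_one d hd
  rw [hF] at h
  exact h

theorem SMUL_YD (d : F) (hd : d ^ 3 = 1) :
    bY F * Matrix.diagonal ![1, d, d ^ 2]
      = (d ^ 2) • (Matrix.diagonal ![1, d, d ^ 2] * bY F) := by
  have h4 : d ^ 2 * d ^ 2 = d := by
    calc d ^ 2 * d ^ 2 = d ^ 3 * d := by ring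
      _ = d := by rw [hd, one_mul]
  have h3 : d ^ 2 * d = 1 := by
    calc d ^ 2 * d = d ^ 3 := by ring
      _ = 1 := hd
  ext i j
  fin_cases i <;> fin_cases j <;>
    simp [bY, Matrix.mul_apply, Fin.sum_univ_three, Matrix.diagonal, h4, h3]

theorem SMUL_YkD (d : F) (hd : d ^ 3 = 1) (k : ℕ) :
    bY F ^ k * Matrix.diagonal ![1, d, d ^ 2]
      = (d ^ (2 * k)) • (Matrix.diagonal ![1, d, d ^ 2] * bY F ^ k) := by
  induction k with
  | zero => simp
  | succ k ih =>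
    rw [pow_succ, mul_assoc, SMUL_YD d hd, Matrix.mul_smul, ← mul_assoc, ih, Matrix.smul_mul,
      smul_smul, mul_assoc]
    congr 1
    ring

theorem SMUL_DD (d d' : F) :
    Matrix.diagonal ![1, d, d ^ 2] * Matrix.diagonal ![1, d', d' ^ 2]
      = Matrix.diagonal ![1, d * d', (d * d') ^ 2] := by
  rw [Matrix.diagonal_mul_diagonal]
  congr 1
  ext i
  fin_cases i <;> simp [mul_pow]

theorem SMUL_Y3 : bY F ^ 3 = 1 := by
  ext i j
  fin_cases i <;> fin_cases j <;>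
    simp [bY, pow_succ, Matrix.mul_apply, Fin.sum_univ_three]

theorem SMUL_prod (d d' : F) (hd' : d' ^ 3 = 1) (c c' : F) (k k' : ℕ) :
    (c • (Matrix.diagonal ![1, d, d ^ 2] * bY F ^ k))
        * (c' • (Matrix.diagonal ![1, d', d' ^ 2] * bY F ^ k'))
      = (c * c' * d' ^ (2 * k)) • (Matrix.diagonal ![1, d * d', (d * d') ^ 2] * bY F ^ (k + k')) := by
  have h1 : Matrix.diagonal ![1, d, d ^ 2] * bY F ^ k
        * (Matrix.diagonal ![1, d', d' ^ 2] * bY F ^ k')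
      = (d' ^ (2 * k)) • (Matrix.diagonal ![1, d * d', (d * d') ^ 2] * bY F ^ (k + k')) := by
    calc Matrix.diagonal ![1, d, d ^ 2] * bY F ^ k
          * (Matrix.diagonal ![1, d', d' ^ 2] * bY F ^ k')
        = Matrix.diagonal ![1, d, d ^ 2] * (bY F ^ k * Matrix.diagonal ![1, d', d' ^ 2])
          * bY F ^ k' := by simp only [mul_assoc]
      _ = Matrix.diagonal ![1, d, d ^ 2]
          * ((d' ^ (2 * k)) • (Matrix.diagonal ![1, d', d' ^ 2] * bY F ^ k)) * bY F ^ k' := by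
          rw [SMUL_YkD d' hd' k]
      _ = (d' ^ (2 * k)) • (Matrix.diagonal ![1, d, d ^ 2] * Matrix.diagonal ![1, d', d' ^ 2]
          * (bY F ^ k * bY F ^ k')) := by
          rw [Matrix.mul_smul, Matrix.smul_mul]
          simp only [mul_assoc]
      _ = (d' ^ (2 * k)) • (Matrix.diagonal ![1, d * d', (d * d') ^ 2] * bY F ^ (k + k')) := by
          rw [SMUL_DD, pow_add]
  rw [Matrix.smul_mul, Matrix.mul_smul, smul_smul, h1, smul_smul]

/-- SMUL: `bS` is closed under products and inverses. -/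
theorem SMUL (hF : Fintype.card F = 4) : SMULp F := by
  refine ⟨?_, ?_, ?_⟩
  · refine ⟨1, 1, 0, one_ne_zero, one_ne_zero, ?_⟩
    rw [pow_zero, mul_one, one_smul]
    ext i j
    fin_cases i <;> fin_cases j <;> simp [Matrix.diagonal]
  · intro M hM M' hM'
    obtain ⟨c, d, k, hc, hd, rfl⟩ := hM
    obtain ⟨c', d', k', hc', hd', rfl⟩ := hM'
    refine ⟨c * c' * d' ^ (2 * k), d * d', k + k',
      mul_ne_zero (mul_ne_zero hc hc') (pow_ne_zero _ hd'), mul_ne_zero hd hd', ?_⟩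
    exact SMUL_prod d d' (SMUL_d3 hF d' hd') c c' k k'
  · intro M hM
    obtain ⟨c, d, k, hc, hd, rfl⟩ := hM
    have hd3 := SMUL_d3 hF d hd
    have hdi : d⁻¹ ≠ 0 := inv_ne_zero hd
    have hdi3 : d⁻¹ ^ 3 = 1 := SMUL_d3 hF d⁻¹ hdi
    have hci : (c * d⁻¹ ^ (2 * k))⁻¹ ≠ 0 := inv_ne_zero (mul_ne_zero hc (pow_ne_zero _ hdi))
    have hmul : (c • (Matrix.diagonal ![1, d, d ^ 2] * bY F ^ k))
        * ((c * d⁻¹ ^ (2 * k))⁻¹ • (Matrix.diagonal ![1, d⁻¹, d⁻¹ ^ 2] * bY F ^ (2 * k))) = 1 := by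
      rw [SMUL_prod d d⁻¹ hdi3 c _ k (2 * k)]
      have e1 : c * (c * d⁻¹ ^ (2 * k))⁻¹ * d⁻¹ ^ (2 * k) = 1 := by
        field_simp
      have e2 : k + 2 * k = 3 * k := by ring
      rw [e1, one_smul, e2, pow_mul, SMUL_Y3, one_pow, mul_one, mul_inv_cancel₀ hd]
      ext i j
      fin_cases i <;> fin_cases j <;> simp [Matrix.diagonal]
    refine ⟨(c * d⁻¹ ^ (2 * k))⁻¹ • (Matrix.diagonal ![1, d⁻¹, d⁻¹ ^ 2] * bY F ^ (2 * k)),
      ⟨(c * d⁻¹ ^ (2 * k))⁻¹, d⁻¹, 2 * k, hci, hdi, rfl⟩, hmul, ?_⟩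
    exact mul_eq_one_comm.mp hmul

end Cfsg.Agent.Lib.Helper44.BAD
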