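import Mathlib
import Cfsg.Prelude.Def_GeometricClasses
import Cfsg.Prelude.Def_LieClassical

/-!
# Project OMP (helper71, S5814/S5859), piece O1b

Over `F_3` a group of isometries of a non-degenerate quadratic form stabilising a non-degenerate
plane of plus type stabilises a non-degenerate hyperplane.
-/

set_option autoImplicit false

namespace Cfsg.Agent.Lib.Helper61.OMPO1b

open Matrix Cfsg.Geo

variable {n : ℕ} {F : Type*} [Field F] [Fintype F]

/-- `Q (x + y) = Q x + Q y + b x y` -/
theorem o1b_Q_add (Q : (Fin n → F) → F) (x y : Fin n → F) :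
    Q (x + y) = Q x + Q y + QuadraticMap.polar Q x y := by
  unfold QuadraticMap.polar; ring

/-- `b v v = 2 Q v` -/
theorem o1b_polar_self (Q : (Fin n → F) → F) (hQ : IsNondegenerateQuadraticForm Q)
    (v : Fin n → F) : QuadraticMap.polar Q v v = 2 * Q v := by
  have h := hQ.smul 2 v
  have h' : (2 : F) • v = v + v := two_smul F v
  unfold QuadraticMap.polar
  rw [← h', h]; ring

/-- the three elements of a field with three elements -/
theorem o1b_three_cases (h2 : (2 : F) ≠ 0) (hq3 : Fintype.card F = 3) (a : F) :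
    a = 0 ∨ a = 1 ∨ a = -1 := by
  classical
  have h1 : (1 : F) ≠ -1 := by
    intro h
    apply h2
    rw [← one_add_one_eq_two]
    exact eq_neg_iff_add_eq_zero.mp h
  have hcard : ({0, 1, -1} : Finset F).card = 3 := by
    rw [Finset.card_insert_of_notMem, Finset.card_insert_of_notMem, Finset.card_singleton]
    · simpa using h1
    · simp
  have huniv : ({0, 1, -1} : Finset F) = Finset.univ :=
    Finset.eq_univ_of_card _ (by rw [hcard, hq3])
  have := Finset.mem_univ a
  rw [← huniv] at this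
  simpa using this

/-- O1b: over `F_3` a group of isometries stabilising a non-degenerate plane of plus type stabilises
a non-degenerate hyperplane (`n ≥ 5` odd). -/
theorem O1b (Q : (Fin n → F) → F) (hQ : IsNondegenerateQuadraticForm Q) (h2 : (2 : F) ≠ 0)
    (hodd : Odd n) (hn : 5 ≤ n) (hq3 : Fintype.card F = 3) (H : Subgroup (GL (Fin n) F))
    (hfix : FixesQuadForm (matrixSet H) Q) (W : Submodule F (Fin n → F))
    (hnd : IsNondegenerateOn (QuadraticMap.polar Q) W) (hdim : Module.finrank F W = 2)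
    (hplus : IsPlusTypeOn Q W) (hle : H ≤ subspaceStabilizer W) :
    ∃ W₂ : Submodule F (Fin n → F), W₂ ≠ ⊥ ∧ W₂ ≠ ⊤ ∧ Even (Module.finrank F W₂) ∧
      Module.finrank F W₂ ≠ 2 ∧ IsNondegenerateOn (QuadraticMap.polar Q) W₂ ∧
      H ≤ subspaceStabilizer W₂ := by
  classical
  obtain ⟨b, hb⟩ : ∃ b : (Fin n → F) → (Fin n → F) → F, b = QuadraticMap.polar Q := ⟨_, rfl⟩
  rw [← hb] at hnd ⊢
  have hbil : IsBilinearForm b := by rw [hb]; exact hQ.polar_bilinear
  have hsymm : ∀ x y, b x y = b y x := fun x y => by rw [hb]; exact QuadraticMap.polar_comm Q x y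
  have hQadd : ∀ x y, Q (x + y) = Q x + Q y + b x y := fun x y => by
    rw [hb]; exact o1b_Q_add Q x y
  have hbself : ∀ v, b v v = 2 * Q v := fun v => by rw [hb]; exact o1b_polar_self Q hQ v
  have hb0 : ∀ v, b 0 v = 0 := fun v => by
    have := hbil.smul_left 0 0 v
    rwa [zero_smul, zero_mul] at this
  have hst : ∀ h ∈ H, ∀ v, v ∈ W ↔ h.1 *ᵥ v ∈ W := fun h hh => hle hh
  -- (a) a hyperbolic pair
  obtain ⟨U, hUW, hUts, hUdim⟩ := hplus
  have hU1 : Module.finrank F U = 1 := by omega
  obtain ⟨e, heU, he0⟩ : ∃ e ∈ U, e ≠ 0 := by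
    have hUne : U ≠ ⊥ := by
      intro h
      rw [h, finrank_bot] at hU1
      omega
    exact Submodule.exists_mem_ne_zero_of_ne_bot hUne
  have heW : e ∈ W := hUW heU
  have hQe : Q e = 0 := hUts e heU
  have hbee : b e e = 0 := by rw [hbself, hQe, mul_zero]
  obtain ⟨x, hxW, hx⟩ := (hnd e heW he0).1
  obtain ⟨f₁, hf₁⟩ : ∃ f₁ : Fin n → F, f₁ = (b x e)⁻¹ • x := ⟨_, rfl⟩
  have hf₁W : f₁ ∈ W := by rw [hf₁]; exact W.smul_mem _ hxW
  have hbf₁e : b f₁ e = 1 := by rw [hf₁, hbil.smul_left, inv_mul_cancel₀ hx]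
  obtain ⟨f, hf⟩ : ∃ f : Fin n → F, f = f₁ + (-Q f₁) • e := ⟨_, rfl⟩
  have hfW : f ∈ W := by rw [hf]; exact W.add_mem hf₁W (W.smul_mem _ heW)
  have hbfe : b f e = 1 := by
    rw [hf, hbil.add_left, hbil.smul_left, hbee, mul_zero, add_zero, hbf₁e]
  have hQf : Q f = 0 := by
    rw [hf, hQadd, hQ.smul, hQe, hbil.smul_right, hbf₁e]; ring
  have hbef : b e f = 1 := by rw [hsymm, hbfe]
  have hbff : b f f = 0 := by rw [hbself, hQf, mul_zero]
  obtain ⟨z, hz⟩ : ∃ z : Fin n → F, z = e + f := ⟨_, rfl⟩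
  have hzW : z ∈ W := by rw [hz]; exact W.add_mem heW hfW
  have hQz : Q z = 1 := by rw [hz, hQadd, hQe, hQf, hbef]; ring
  have hbzz : b z z = 2 := by rw [hbself, hQz, mul_one]
  -- (b) the vectors of `W` with `Q = 1`
  have hclaim : ∀ w ∈ W, Q w = 1 → w = z ∨ w = -z := by
    intro w hw hQw
    obtain ⟨a, c, rfl⟩ : ∃ a c : F, w = a • e + c • f := by
      have hli : LinearIndependent F ![(⟨e, heW⟩ : W), ⟨f, hfW⟩] := by
        rw [LinearIndependent.pair_iff]
        intro s t hst
        have hst' : s • e + t • f = 0 := by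
          have := congrArg Subtype.val hst
          simpa using this
        have h1 : b (s • e + t • f) e = 0 := by rw [hst', hb0]
        have h3 : b (s • e + t • f) f = 0 := by rw [hst', hb0]
        rw [hbil.add_left, hbil.smul_left, hbil.smul_left, hbee, hbfe] at h1
        rw [hbil.add_left, hbil.smul_left, hbil.smul_left, hbef, hbff] at h3
        constructor
        · linear_combination h3
        · linear_combination h1
      have hspan := hli.span_eq_top_of_card_eq_finrank' (by simp [hdim])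
      have hwmem : (⟨w, hw⟩ : W) ∈
          Submodule.span F (Set.range ![(⟨e, heW⟩ : W), ⟨f, hfW⟩]) := by
        rw [hspan]; trivial
      obtain ⟨cc, hcc⟩ := (Submodule.mem_span_range_iff_exists_fun F).mp hwmem
      refine ⟨cc 0, cc 1, ?_⟩
      have := congrArg Subtype.val hcc
      simp [Fin.sum_univ_two] at this
      exact this.symm
    have hac : a * c = 1 := by
      rw [hQadd, hQ.smul, hQ.smul, hQe, hQf, hbil.smul_left, hbil.smul_right, hbef] at hQw
      linear_combination hQw
    rcases o1b_three_cases h2 hq3 a with rfl | rfl | rfl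
    · rw [zero_mul] at hac
      exact absurd hac zero_ne_one
    · left
      have hc : c = 1 := by linear_combination hac
      rw [hc, hz, one_smul, one_smul]
    · right
      have hc : c = -1 := by linear_combination -hac
      rw [hc, hz, neg_smul, one_smul, neg_smul, one_smul, neg_add]
  have hHz : ∀ h ∈ H, h.1 *ᵥ z = z ∨ h.1 *ᵥ z = -z := by
    intro h hh
    apply hclaim
    · exact (hst h hh z).mp hzW
    · rw [hfix h.1 ⟨h, hh, rfl⟩ z, hQz]
  -- isometries preserve `b`
  have hfixb : ∀ h ∈ H, ∀ u v, b (h.1 *ᵥ u) (h.1 *ᵥ v) = b u v := by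
    intro h hh u v
    have hm : h.1 ∈ matrixSet H := ⟨h, hh, rfl⟩
    rw [hb]
    unfold QuadraticMap.polar
    rw [← Matrix.mulVec_add, hfix _ hm, hfix _ hm, hfix _ hm]
  -- (c) the hyperplane
  obtain ⟨φ, hφ⟩ : ∃ φ : Module.Dual F (Fin n → F), ∀ v, φ v = b v z :=
    ⟨{ toFun := fun v => b v z
       map_add' := fun x y => hbil.add_left x y z
       map_smul' := fun c x => by simpa using hbil.smul_left c x z }, fun v => rfl⟩
  have hφ0 : φ ≠ 0 := by
    intro h
    have := hφ z
    rw [h, hbzz] at this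
    exact h2 (by simpa using this.symm)
  have hker : ∀ v, v ∈ LinearMap.ker φ ↔ b v z = 0 := fun v => by
    rw [LinearMap.mem_ker, hφ]
  have hfr : Module.finrank F (LinearMap.ker φ) + 1 = n := by
    have := Module.Dual.finrank_ker_add_one_of_ne_zero hφ0
    simpa using this
  refine ⟨LinearMap.ker φ, ?_, ?_, ?_, ?_, ?_, ?_⟩
  · intro h
    rw [h, finrank_bot] at hfr
    omega
  · intro h
    have : z ∈ LinearMap.ker φ := by rw [h]; trivial
    rw [hker, hbzz] at this
    exact h2 this
  · obtain ⟨k, hk⟩ := hodd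
    exact ⟨k, by omega⟩
  · omega
  · intro w hw hw0
    rw [hker] at hw
    obtain ⟨y, hy⟩ := (hQ.nondegenerate w hw0).1
    rw [← hb] at hy
    have hy₂ : y - (b y z / 2) • z ∈ LinearMap.ker φ := by
      rw [hker, sub_eq_add_neg, ← neg_smul, hbil.add_left, hbil.smul_left, hbzz]
      field_simp
      ring
    have hy₂w : b (y - (b y z / 2) • z) w ≠ 0 := by
      rw [sub_eq_add_neg, ← neg_smul, hbil.add_left, hbil.smul_left, hsymm z w, hw, mul_zero,
        add_zero]
      exact hy
    exact ⟨⟨_, hy₂, hy₂w⟩, ⟨_, hy₂, by rw [hsymm]; exact hy₂w⟩⟩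
  · intro h hh
    show ∀ v, v ∈ LinearMap.ker φ ↔ h.1 *ᵥ v ∈ LinearMap.ker φ
    intro v
    rw [hker, hker]
    have hfb := hfixb h hh v z
    rcases hHz h hh with hz1 | hz1
    · rw [hz1] at hfb
      rw [hfb]
    · rw [hz1] at hfb
      have : b (h.1 *ᵥ v) (-z) = - b (h.1 *ᵥ v) z := by
        have := hbil.smul_right (-1) (h.1 *ᵥ v) z
        simpa using this
      rw [this] at hfb
      constructor
      · intro hv
        rw [hv] at hfb
        exact neg_eq_zero.mp hfb
      · intro hv
        rw [hv, neg_zero] at hfb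
        exact hfb.symm

end Cfsg.Agent.Lib.Helper61.OMPO1b
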