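import Mathlib
import Cfsg.Prelude.Def_GeometricClasses
import Cfsg.Prelude.Def_LieClassical
import Cfsg.Agent.Lib.Helper7.GUOrder
import Cfsg.Agent.Lib.Helper18.UnitaryTv

/-!
Project SUQ (helper50, S5841), piece PAIRb: for an irreducible group of unitary isometries
permuting the blocks of a decomposition paired by the hermitian form, the pairing is trivial
(a non-degenerate decomposition) or fixed-point-free and compatible with the permutation action.
Hermitian twin of `Cfsg.Agent.Lib.Helper39.SPPPAIRb.PAIRb`.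
-/

set_option autoImplicit false
set_option linter.unusedVariables false

namespace Cfsg.Agent.Lib.Helper61.SUQPAIRb

open Matrix Cfsg.Geo
open scoped Kronecker

variable {n : ℕ} {F : Type*} [Field F] [Fintype F] {q : ℕ}

/-- PAIRb: for an irreducible group permuting the blocks, the pairing is trivial (a non-degenerate
decomposition) or fixed-point-free and compatible with the permutation action. -/
theorem PAIRb (hF : Fintype.card F = q ^ 2) (H : Subgroup (GL (Fin n) F))
    (hH : H ≤ Cfsg.GU n F q) (h1 : ActsIrreducibly (matrixSet H)) {t m : ℕ}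
    (D : Fin t → Submodule F (Fin n → F)) (hD : IsMDecomposition m D)
    (hHD : H ≤ decompositionStabilizer D) (τ : Fin t → Fin t) (hτ : ∀ i, τ (τ i) = i)
    (horth : ∀ i j, j ≠ τ i → AreOrthogonalFor (Cfsg.hermForm n F q) (D i) (D j))
    (hno : ∀ i, ¬ AreOrthogonalFor (Cfsg.hermForm n F q) (D i) (D (τ i))) :
    IsNondegenerateMDecomposition (Cfsg.hermForm n F q) m D ∨
    ((∀ i, τ i ≠ i) ∧ ∀ h ∈ H, ∀ σ : Equiv.Perm (Fin t),
      (∀ i, (D i).map (Matrix.toLin' h.1) = D (σ i)) → ∀ i, σ (τ i) = τ (σ i)) := by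
  classical
  -- (a) compatibility
  have compat : ∀ h ∈ H, ∀ σ : Equiv.Perm (Fin t),
      (∀ i, (D i).map (Matrix.toLin' h.1) = D (σ i)) → ∀ i, σ (τ i) = τ (σ i) := by
    intro h hh σ hσ i
    by_contra hne
    apply hno i
    intro u hu v hv
    have hu' : h.1 *ᵥ u ∈ D (σ i) := by
      rw [← hσ i]
      exact Submodule.mem_map.mpr ⟨u, hu, Matrix.toLin'_apply _ _⟩
    have hv' : h.1 *ᵥ v ∈ D (σ (τ i)) := by
      rw [← hσ (τ i)]
      exact Submodule.mem_map.mpr ⟨v, hv, Matrix.toLin'_apply _ _⟩
    have h0 := horth (σ i) (σ (τ i)) hne _ hu' _ hv'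
    have h6 : Cfsg.hermForm n F q (h.1 *ᵥ u) (h.1 *ᵥ v) = Cfsg.hermForm n F q u v :=
      hH hh u v
    rw [← h6]
    exact h0
  by_cases hS : ∀ i, τ i ≠ i
  · exact Or.inr ⟨hS, compat⟩
  · left
    push Not at hS
    obtain ⟨i₀, hi₀⟩ := hS
    have hDne : ∀ i, D i ≠ ⊥ := by
      intro i hbot
      have h2 := hD.finrank_eq i
      rw [hbot] at h2
      simp at h2
      have h3 := hD.pos
      omega
    -- the sum of the self-paired blocks is invariant
    have hUinv : ∀ s ∈ matrixSet H,
        (⨆ i, ⨆ (_ : τ i = i), D i).map (Matrix.toLin' s) ≤ ⨆ i, ⨆ (_ : τ i = i), D i := by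
      rintro _ ⟨h, hh, rfl⟩
      obtain ⟨σ, hσ⟩ := hHD hh
      rw [Submodule.map_iSup]
      refine iSup_le fun i => ?_
      rw [Submodule.map_iSup]
      refine iSup_le fun hi => ?_
      rw [hσ i]
      have h3 : τ (σ i) = σ i := by rw [← compat h hh σ hσ i, hi]
      exact le_iSup₂ (f := fun i (_ : τ i = i) => D i) (σ i) h3
    have hU := h1 _ hUinv
    have hUtop : (⨆ i, ⨆ (_ : τ i = i), D i) = ⊤ := by
      rcases hU with hU | hU
      · exfalso
        apply hDne i₀
        rw [eq_bot_iff, ← hU]
        exact le_iSup₂ (f := fun i (_ : τ i = i) => D i) i₀ hi₀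
      · exact hU
    have hall : ∀ j, τ j = j := by
      intro j
      by_contra hj
      apply hDne j
      have h4 : D j ≤ ⨆ i, ⨆ (_ : i ≠ j), D i := by
        have h5 : (⨆ i, ⨆ (_ : τ i = i), D i) ≤ ⨆ i, ⨆ (_ : i ≠ j), D i := by
          refine iSup₂_le fun i hi => ?_
          have hij : i ≠ j := by
            rintro rfl
            exact hj hi
          exact le_iSup₂ (f := fun i (_ : i ≠ j) => D i) i hij
        rw [hUtop] at h5
        exact le_top.trans h5
      exact (hD.indep j).eq_bot_of_le h4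
    refine ⟨hD, ?_, ?_⟩
    · intro i w hw hw0
      obtain ⟨x, hx⟩ := Cfsg.Agent.Lib.Helper18.exists_herm_ne_zero hF w hw0
      have hx' : x ∈ D i ⊔ ⨆ j, ⨆ (_ : j ≠ i), D j := by
        rw [← iSup_split_single D i, hD.iSup_eq_top]
        trivial
      obtain ⟨y, hy, z, hz, rfl⟩ := Submodule.mem_sup.mp hx'
      have hz0 : Cfsg.hermForm n F q z w = 0 := by
        let Kw : Submodule F (Fin n → F) :=
          { carrier := {z | Cfsg.hermForm n F q z w = 0}
            add_mem' := by
              intro a b ha hb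
              simp only [Set.mem_ofPred_eq] at ha hb ⊢
              rw [Cfsg.Agent.Lib.Helper7.hf_add_left, ha, hb, add_zero]
            zero_mem' := by
              simp only [Set.mem_ofPred_eq]
              exact Cfsg.Agent.Lib.Helper7.hf_zero_left n w
            smul_mem' := by
              intro c a ha
              simp only [Set.mem_ofPred_eq] at ha ⊢
              rw [Cfsg.Agent.Lib.Helper7.hf_smul_left, ha, mul_zero] }
        have hle : (⨆ j, ⨆ (_ : j ≠ i), D j) ≤ Kw := by
          refine iSup₂_le fun j hj => ?_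
          intro a ha
          exact horth j i (by rw [hall j]; exact hj.symm) a ha w hw
        exact hle hz
      have hy0 : Cfsg.hermForm n F q y w ≠ 0 := by
        rw [Cfsg.Agent.Lib.Helper7.hf_add_left, hz0, add_zero] at hx
        exact hx
      refine ⟨⟨y, hy, hy0⟩, ⟨y, hy, ?_⟩⟩
      intro h0
      exact hy0 (Cfsg.Agent.Lib.Helper7.hf_eq_zero_symm hF n w y h0)
    · intro i j hij
      exact horth i j (by rw [hall i]; exact hij.symm)

end Cfsg.Agent.Lib.Helper61.SUQPAIRb
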