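import Mathlib
import Cfsg.Agent.Lib.Helper98.O72Defs
import Cfsg.Agent.Lib.Helper30.O72WITT
import Cfsg.Agent.Lib.Helper61.O72COPYAux

/-!
# Project O72 (helper98, S5972), piece COPY

A nondegenerate `K` contains an isometric copy, by a global isometry, of any nondegenerate `P₀`
of smaller dimension (symmetric form, odd characteristic, finite field).
-/

set_option autoImplicit false
set_option linter.unusedSectionVars false
set_option linter.unusedVariables false

namespace Cfsg.Agent.Lib.Helper98.O72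

open Module Polynomial Cfsg.Agent.Lib.Helper96.Sp Cfsg.Agent.Lib.Helper96.BG

universe u v

variable {F : Type*} [Field F] [Fintype F] {V : Type*} [AddCommGroup V] [Module F V]
  [FiniteDimensional F V] {B : LinearMap.BilinForm F V}

/-- PIECE COPY. -/
theorem exists_copy (hS : B.IsSymm) (hchar2 : (2 : F) ≠ 0) (hN : ND B ⊤)
    {P₀ K : Submodule F V} (hP₀ : ND B P₀) (hK : ND B K)
    (hlt : finrank F P₀ < finrank F K) :
    ∃ Q : Submodule F V, Q ≤ K ∧ ND B Q ∧ finrank F Q = finrank F P₀ ∧
      ∃ h : V ≃ₗ[F] V, Isom B (h : V →ₗ[F] V) ∧ P₀.map (h : V →ₗ[F] V) = Q :=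
  copy_of_witt hS hchar2 (fun X Y φ hφ => witt_ext hS hchar2 hN X Y φ hφ) hP₀ hK hlt

end Cfsg.Agent.Lib.Helper98.O72
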