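import Mathlib
import Cfsg.Agent.Lib.Helper30.Cores
import Cfsg.Agent.S0255

/-!
# Glue for S3261 (helper61)

* `centDihedral`: the centralizer in `A₆` of a double transposition is dihedral of order 8.
* `exists_index_two_of_sup_oddCore`, `exists_index_two_of_perm`: groups of the shapes
  `C(α) O(G)` (with `C(α)` a 2-group), `S₄`, `S₅` have a subgroup of index 2.
* `sl32_psl27`: `SL₃(2) ≅ PSL₂(7)`.
* `main`: S3261 from the statement of S3035 for the group `G`.
-/

set_option autoImplicit false

namespace Cfsg.Agent.Lib.Helper61.A6Cent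

open Equiv Equiv.Perm DihedralGroup

universe u

/-- `(0 2 1 3)(4 5)`. -/
def rho : Perm (Fin 6) := ⟨![2, 3, 1, 0, 5, 4], ![3, 2, 0, 1, 5, 4], by decide, by decide⟩
/-- `(0 1)(4 5)`. -/
def sigma : Perm (Fin 6) := ⟨![1, 0, 2, 3, 5, 4], ![1, 0, 2, 3, 5, 4], by decide, by decide⟩
/-- `(0 1)(2 3)`. -/
def alpha0 : Perm (Fin 6) := ⟨![1, 0, 3, 2, 4, 5], ![1, 0, 3, 2, 4, 5], by decide, by decide⟩

/-- The dihedral group of order 8 inside `Perm (Fin 6)`. -/
def dmap : DihedralGroup 4 → Perm (Fin 6)
  | r i => rho ^ i.val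
  | sr i => sigma * rho ^ i.val

theorem dmap_mul : ∀ a b : DihedralGroup 4, dmap (a * b) = dmap a * dmap b := by decide

theorem dmap_inj : ∀ a b : DihedralGroup 4, dmap a = dmap b → a = b := by decide

theorem dmap_sign : ∀ a : DihedralGroup 4, sign (dmap a) = 1 := by decide

theorem dmap_comm : ∀ a : DihedralGroup 4, dmap a * alpha0 = alpha0 * dmap a := by decide

theorem alpha0_eq : alpha0 = swap 0 1 * swap 2 3 := by decide

theorem swap45_comm : swap (4 : Fin 6) 5 * alpha0 = alpha0 * swap 4 5 := by decide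

theorem alpha0_sign : sign alpha0 = 1 := by decide

theorem alpha0_cycleType : alpha0.cycleType = {2, 2} := by
  rw [alpha0_eq]
  exact cycleType_swap_mul_swap_of_nodup (by decide)

/-- `(0 1)(2 3)` as an element of `A₆`. -/
def a0 : ↥(alternatingGroup (Fin 6)) := ⟨alpha0, mem_alternatingGroup.mpr alpha0_sign⟩

/-- The dihedral group of order 8 inside the centralizer of `a0`. -/
def dhom : DihedralGroup 4 →* ↥(Subgroup.centralizer ({a0} : Set ↥(alternatingGroup (Fin 6)))) where
  toFun a := ⟨⟨dmap a, mem_alternatingGroup.mpr (dmap_sign a)⟩, by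
    rw [Subgroup.mem_centralizer_singleton_iff]
    apply Subtype.ext
    show dmap a * alpha0 = alpha0 * dmap a
    exact dmap_comm a⟩
  map_one' := by
    apply Subtype.ext; apply Subtype.ext
    show dmap 1 = 1
    decide
  map_mul' a b := by
    apply Subtype.ext; apply Subtype.ext
    show dmap (a * b) = dmap a * dmap b
    exact dmap_mul a b

theorem dhom_injective : Function.Injective dhom := by
  intro a b h
  apply dmap_inj
  have := congrArg (fun v : ↥(Subgroup.centralizer ({a0} : Set ↥(alternatingGroup (Fin 6)))) =>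
    ((v : ↥(alternatingGroup (Fin 6))) : Perm (Fin 6))) h
  exact this

theorem card_centralizer_alpha0 :
    Nat.card (Subgroup.centralizer ({alpha0} : Set (Perm (Fin 6)))) = 16 := by
  rw [nat_card_centralizer, alpha0_cycleType]
  decide

theorem card_centralizer_a0 :
    Nat.card (Subgroup.centralizer ({a0} : Set ↥(alternatingGroup (Fin 6)))) = 8 := by
  classical
  set C := Subgroup.centralizer ({a0} : Set ↥(alternatingGroup (Fin 6))) with hC
  set K := C.map (alternatingGroup (Fin 6)).subtype with hK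
  have hcard : Nat.card K = Nat.card C :=
    Subgroup.card_map_of_injective (Subgroup.subtype_injective _)
  have hle : K ≤ Subgroup.centralizer ({alpha0} : Set (Perm (Fin 6))) := by
    rintro x ⟨y, hy, rfl⟩
    rw [Subgroup.mem_centralizer_singleton_iff]
    have h1 : y * a0 = a0 * y := Subgroup.mem_centralizer_singleton_iff.mp hy
    have := congrArg (fun v : ↥(alternatingGroup (Fin 6)) => (v : Perm (Fin 6))) h1
    exact this
  have hne : K ≠ Subgroup.centralizer ({alpha0} : Set (Perm (Fin 6))) := by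
    intro h
    have h1 : swap (4 : Fin 6) 5 ∈ Subgroup.centralizer ({alpha0} : Set (Perm (Fin 6))) :=
      Subgroup.mem_centralizer_singleton_iff.mpr swap45_comm
    rw [← h] at h1
    obtain ⟨y, -, hy⟩ := h1
    have h2 : sign (swap (4 : Fin 6) 5) = 1 := by
      rw [← hy]; exact mem_alternatingGroup.mp y.2
    revert h2; decide
  have hdvd : Nat.card K ∣ 16 := by
    rw [← card_centralizer_alpha0]; exact Subgroup.card_dvd_of_le hle
  have hne' : Nat.card K ≠ 16 := by
    intro h
    exact hne (Subgroup.eq_of_le_of_card_ge hle (by rw [card_centralizer_alpha0, h]))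
  have hge : 8 ≤ Nat.card C := by
    have := Nat.card_le_card_of_injective dhom dhom_injective
    rwa [DihedralGroup.nat_card] at this
  rw [← hcard] at hge ⊢
  have hle16 : Nat.card K ≤ 16 := Nat.le_of_dvd (by norm_num) hdvd
  have key : ∀ n : ℕ, n ≤ 16 → n ∣ 16 → n ≠ 16 → 8 ≤ n → n = 8 := by decide
  exact key _ hle16 hdvd hne' hge

/-- The centralizer of `a0` in `A₆` is dihedral of order 8. -/
noncomputable def centA0 :
    ↥(Subgroup.centralizer ({a0} : Set ↥(alternatingGroup (Fin 6)))) ≃* DihedralGroup 4 :=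
  (MulEquiv.ofBijective dhom
    ((Nat.bijective_iff_injective_and_card dhom).mpr
      ⟨dhom_injective, by rw [card_centralizer_a0, DihedralGroup.nat_card]⟩)).symm

/-- Transport of centralizers along an isomorphism. -/
def centralizerCongr {H K : Type*} [Group H] [Group K] (ψ : H ≃* K) (x : H) (y : K)
    (h : ψ x = y) :
    ↥(Subgroup.centralizer ({x} : Set H)) ≃* ↥(Subgroup.centralizer ({y} : Set K)) where
  toFun c := ⟨ψ c, by
    rw [Subgroup.mem_centralizer_singleton_iff, ← h, ← map_mul, ← map_mul,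
      Subgroup.mem_centralizer_singleton_iff.mp c.2]⟩
  invFun c := ⟨ψ.symm c, by
    rw [Subgroup.mem_centralizer_singleton_iff]
    apply ψ.injective
    rw [map_mul, map_mul, h, MulEquiv.apply_symm_apply]
    exact Subgroup.mem_centralizer_singleton_iff.mp c.2⟩
  left_inv c := by apply Subtype.ext; simp
  right_inv c := by apply Subtype.ext; simp
  map_mul' a b := by apply Subtype.ext; simp

theorem cycleType_of_order_two (σ : Perm (Fin 6)) (h2 : orderOf σ = 2)
    (hs : σ.support.card = 4) : σ.cycleType = {2, 2} := by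
  have h1 : ∀ n ∈ σ.cycleType, n = 2 := by
    intro n hn
    have h3 := dvd_of_mem_cycleType hn
    have h4 := two_le_of_mem_cycleType hn
    rw [h2] at h3
    exact le_antisymm (Nat.le_of_dvd (by norm_num) h3) h4
  have h5 := Multiset.eq_replicate_card.mpr h1
  have h6 : σ.cycleType.sum = 4 := by rw [sum_cycleType, hs]
  rw [h5, Multiset.sum_replicate, smul_eq_mul] at h6
  have h7 : Multiset.card σ.cycleType = 2 := by omega
  rw [h5, h7]
  rfl

/-- The centralizer in `A₆` of a double transposition is dihedral of order 8. -/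
theorem centDihedral (αt : ↥(alternatingGroup (Fin 6))) (hαt : orderOf αt = 2)
    (hsupp : (αt : Perm (Fin 6)).support.card = 4) :
    Nonempty (↥(Subgroup.centralizer ({αt} : Set ↥(alternatingGroup (Fin 6)))) ≃*
      DihedralGroup 4) := by
  have h2 : orderOf (αt : Perm (Fin 6)) = 2 := by rw [Subgroup.orderOf_coe, hαt]
  have hct := cycleType_of_order_two _ h2 hsupp
  have hconj : IsConj alpha0 (αt : Perm (Fin 6)) := by
    rw [isConj_iff_cycleType_eq, alpha0_cycleType, hct]
  obtain ⟨c, hc⟩ := isConj_iff.mp hconj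
  have h3 : (MulAut.conjNormal c : MulAut ↥(alternatingGroup (Fin 6))) a0 = αt := by
    apply Subtype.ext
    rw [MulAut.conjNormal_apply]
    exact hc
  exact ⟨(centralizerCongr (MulAut.conjNormal c : MulAut ↥(alternatingGroup (Fin 6))) a0 αt
    h3).symm.trans centA0⟩

/-- `G = C(α) O(G)` with `C(α)` dihedral of order 8 has a subgroup of index 2. -/
theorem exists_index_two_of_sup_oddCore {G : Type u} [Group G] [Finite G] (α : G)
    (hα : orderOf α = 2)
    (d : ↥(Subgroup.centralizer ({α} : Set G)) ≃* DihedralGroup 4)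
    (h : Subgroup.centralizer ({α} : Set G) ⊔ Cfsg.oddCore G = ⊤) :
    ∃ H : Subgroup G, H.index = 2 := by
  classical
  have hchar := Helper30.pPrimeCore_characteristic 2 (G := G)
  have hcop := Helper30.pPrimeCore_coprime (G := G) 2
  have hN : Cfsg.oddCore G = Cfsg.pPrimeCore 2 G := rfl
  rw [hN] at h
  generalize Cfsg.pPrimeCore 2 G = N at h hchar hcop
  have hNn : N.Normal := Subgroup.normal_of_characteristic _
  have hodd : Odd (Nat.card N) := Nat.coprime_two_right.mp hcop
  have hcard8 : Nat.card (Subgroup.centralizer ({α} : Set G)) = 8 := by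
    rw [Nat.card_congr d.toEquiv, DihedralGroup.nat_card]
  have h8 : ∀ x : G ⧸ N, x ^ 8 = 1 := by
    intro x
    obtain ⟨g, rfl⟩ := QuotientGroup.mk_surjective x
    have hg : g ∈ (↑(Subgroup.centralizer ({α} : Set G) ⊔ N) : Set G) := by
      rw [h]; trivial
    rw [Subgroup.mul_normal] at hg
    obtain ⟨c, hc, n, hn, rfl⟩ := Set.mem_mul.mp hg
    have hc8 : c ^ 8 = 1 := by
      have h1 : (⟨c, hc⟩ : ↥(Subgroup.centralizer ({α} : Set G))) ^ 8 = 1 := by
        rw [← hcard8]; exact pow_card_eq_one'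
      exact congrArg (fun v : ↥(Subgroup.centralizer ({α} : Set G)) => (v : G)) h1
    have h2 : (QuotientGroup.mk (c * n) : G ⧸ N) = QuotientGroup.mk c := by
      rw [QuotientGroup.mk_mul, (QuotientGroup.eq_one_iff n).mpr hn, mul_one]
    rw [h2, ← QuotientGroup.mk_pow, hc8]; rfl
  have hp : IsPGroup 2 (G ⧸ N) := fun x => ⟨3, by
    have := h8 x
    norm_num
    exact this⟩
  have hnt : Nat.card (G ⧸ N) ≠ 1 := by
    intro h1
    have h2 : N = ⊤ := Subgroup.index_eq_one.mp h1
    have hαN : α ∈ N := h2 ▸ Subgroup.mem_top α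
    have h3 := Subgroup.orderOf_dvd_natCard N hαN
    rw [hα] at h3
    exact (Nat.not_even_iff_odd.mpr hodd) (even_iff_two_dvd.mpr h3)
  obtain ⟨m, hm⟩ := IsPGroup.iff_card.mp hp
  have hm0 : m ≠ 0 := by
    rintro rfl
    exact hnt (by simpa using hm)
  obtain ⟨m', rfl⟩ := Nat.exists_eq_succ_of_ne_zero hm0
  obtain ⟨K, hK⟩ := Sylow.exists_subgroup_card_pow_prime 2 (n := m') (G := G ⧸ N)
    (by rw [hm]; exact pow_dvd_pow 2 (Nat.le_succ m'))
  refine ⟨K.comap (QuotientGroup.mk' N), ?_⟩
  rw [Subgroup.index_comap_of_surjective _ (QuotientGroup.mk'_surjective N)]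
  have h4 := K.card_mul_index
  rw [hK, hm, pow_succ] at h4
  exact Nat.eq_of_mul_eq_mul_left (pow_pos two_pos m') h4

/-- A group isomorphic to a symmetric group of degree at least 2 has a subgroup of index 2. -/
theorem exists_index_two_of_perm {G : Type u} [Group G] (n : ℕ) [Nontrivial (Fin n)]
    (f : G ≃* Perm (Fin n)) : ∃ H : Subgroup G, H.index = 2 := by
  refine ⟨(alternatingGroup (Fin n)).comap f.toMonoidHom, ?_⟩
  rw [Subgroup.index_comap_of_surjective _ f.surjective]
  exact alternatingGroup.index_eq_two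

/-- `SL₃(2) ≅ PSL₂(7)`. -/
theorem sl32_psl27 :
    Nonempty (Matrix.SpecialLinearGroup (Fin 3) (ZMod 2) ≃*
      Matrix.ProjectiveSpecialLinearGroup (Fin 2) (ZMod 7)) := by
  have : Fact (Nat.Prime 7) := ⟨by norm_num⟩
  have hc : Subgroup.center (Matrix.SpecialLinearGroup (Fin 3) (ZMod 2)) = ⊥ := by
    rw [eq_bot_iff]
    intro A hA
    obtain ⟨r, hr, hA'⟩ := Matrix.SpecialLinearGroup.mem_center_iff.mp hA
    have key : ∀ r : ZMod 2, r ^ 3 = 1 → r = 1 := by decide
    have hr1 : r = 1 := key r (by simpa using hr)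
    rw [Subgroup.mem_bot]
    apply Subtype.ext
    rw [← hA', hr1]
    simp
  obtain ⟨φ⟩ := Cfsg.Agent.S0255.result (F := ZMod 7) (K := ZMod 2) (ZMod.card 7) (ZMod.card 2)
  have e1 : Matrix.ProjectiveSpecialLinearGroup (Fin 3) (ZMod 2) ≃*
      Matrix.SpecialLinearGroup (Fin 3) (ZMod 2) :=
    (QuotientGroup.quotientMulEquivOfEq hc).trans QuotientGroup.quotientBot
  exact ⟨e1.symm.trans φ.symm⟩

/-- S3261, from the statement of S3035 for the group `G`. -/
theorem main {G : Type u} [Group G] [Finite G]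
    (hG : ∀ H : Subgroup G, H.index ≠ 2)
    (αt : ↥(alternatingGroup (Fin 6))) (hαt : orderOf αt = 2)
    (hsupp : (αt : Equiv.Perm (Fin 6)).support.card = 4)
    (α : G) (hα : orderOf α = 2)
    (e : ↥(Subgroup.centralizer ({α} : Set G)) ≃*
      ↥(Subgroup.centralizer ({αt} : Set ↥(alternatingGroup (Fin 6)))))
    (h3035 : Nonempty (↥(Subgroup.centralizer ({α} : Set G)) ≃* DihedralGroup 4) →
      (Subgroup.centralizer ({α} : Set G) ⊔ Cfsg.oddCore G = ⊤ ∨
        Nonempty (G ≃* Equiv.Perm (Fin 4)) ∨ Nonempty (G ≃* Equiv.Perm (Fin 5)) ∨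
        Nonempty (G ≃* Matrix.SpecialLinearGroup (Fin 3) (ZMod 2)) ∨
        Nonempty (G ≃* ↥(alternatingGroup (Fin 6))))) :
    Nonempty (G ≃* ↥(alternatingGroup (Fin 6))) ∨
      (∃ (F : Type) (_ : Field F) (_ : Fintype F), Fintype.card F = 7 ∧
        Nonempty (G ≃* Matrix.ProjectiveSpecialLinearGroup (Fin 2) F)) := by
  obtain ⟨d0⟩ := centDihedral αt hαt hsupp
  have d : ↥(Subgroup.centralizer ({α} : Set G)) ≃* DihedralGroup 4 := e.trans d0
  rcases h3035 ⟨d⟩ with h | ⟨⟨f⟩⟩ | ⟨⟨f⟩⟩ | ⟨⟨f⟩⟩ | h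
  · obtain ⟨H, hH⟩ := exists_index_two_of_sup_oddCore α hα d h
    exact absurd hH (hG H)
  · obtain ⟨H, hH⟩ := exists_index_two_of_perm 4 f
    exact absurd hH (hG H)
  · obtain ⟨H, hH⟩ := exists_index_two_of_perm 5 f
    exact absurd hH (hG H)
  · right
    have : Fact (Nat.Prime 7) := ⟨by norm_num⟩
    obtain ⟨φ⟩ := sl32_psl27
    exact ⟨ZMod 7, inferInstance, inferInstance, ZMod.card 7, ⟨f.trans φ⟩⟩
  · left; exact h

end Cfsg.Agent.Lib.Helper61.A6Cent
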