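import Mathlib
import Cfsg.Agent.Lib.Helper61.BlkDefs

/-!
# S5634, blocks of dimension at least 2: an adapted basis (piece T1, helper61)
-/

set_option autoImplicit false

namespace Cfsg.Agent.Lib.Helper61.Blk

open Matrix Cfsg.Agent.Lib.Helper97 Module

/-- T1: a decomposition into `t` subspaces of dimension `m` is the image of a coordinate block
decomposition under an invertible matrix. -/
theorem stepT1 {F : Type*} [Field F] {n t : ℕ} (m : ℕ) (D : Fin t → Submodule F (Fin n → F))
    (hD : Cfsg.Geo.IsMDecomposition m D) :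
    ∃ (β : Fin n → Fin t) (P : GL (Fin n) F), (∀ l, Fintype.card {j // β j = l} = m) ∧
      ∀ l, (Bl β l).map (Matrix.toLin' (P : Matrix (Fin n) (Fin n) F)) = D l := by
  classical
  have hInt : DirectSum.IsInternal D :=
    DirectSum.isInternal_submodule_of_iSupIndep_of_iSup_eq_top hD.indep hD.iSup_eq_top
  obtain ⟨b0, hb0⟩ : ∃ b : Basis (Σ _ : Fin t, Fin m) F (Fin n → F),
      b = hInt.collectedBasis (fun j => Module.finBasisOfFinrankEq F (D j) (hD.finrank_eq j)) :=
    ⟨_, rfl⟩
  have hbm : ∀ a, b0 a ∈ D a.1 := by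
    rw [hb0]
    exact hInt.collectedBasis_mem _
  have hbne : ∀ (i j : Fin t), i ≠ j → ∀ (k : Fin m) (x : Fin n → F), x ∈ D i →
      b0.repr x ⟨j, k⟩ = 0 := by
    intro i j hij k x hx
    rw [hb0]
    exact hInt.collectedBasis_repr_of_mem_ne _ hij hx
  have hcard : Fintype.card (Fin t × Fin m) = n := by
    have h1 := Module.finrank_eq_card_basis b0
    rw [Module.finrank_fin_fun] at h1
    rw [h1, Fintype.card_sigma, Fintype.card_prod, Finset.sum_const, Finset.card_univ,
      smul_eq_mul]
  obtain ⟨e⟩ : Nonempty (Fin t × Fin m ≃ Fin n) :=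
    ⟨Fintype.equivFinOfCardEq hcard⟩
  obtain ⟨b, hb⟩ : ∃ b : Basis (Fin n) F (Fin n → F),
      ∀ j, b j = b0 ⟨(e.symm j).1, (e.symm j).2⟩ := by
    refine ⟨b0.reindex ((Equiv.sigmaEquivProd (Fin t) (Fin m)).trans e), fun j => ?_⟩
    rw [Basis.reindex_apply]
    rfl
  have hbrepr : ∀ (x : Fin n → F) (j : Fin n),
      b.repr x j = b0.repr x ⟨(e.symm j).1, (e.symm j).2⟩ := by
    intro x j
    have hbe : b = b0.reindex ((Equiv.sigmaEquivProd (Fin t) (Fin m)).trans e) := by
      apply Basis.eq_of_apply_eq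
      intro j
      rw [hb, Basis.reindex_apply]
      rfl
    rw [hbe, Basis.repr_reindex_apply]
    rfl
  obtain ⟨P, hP⟩ : ∃ P : GL (Fin n) F, ∀ i j, (P : Matrix (Fin n) (Fin n) F) i j = b j i := by
    refine ⟨⟨(Pi.basisFun F (Fin n)).toMatrix b, b.toMatrix (Pi.basisFun F (Fin n)),
      Module.Basis.toMatrix_mul_toMatrix_flip _ _, Module.Basis.toMatrix_mul_toMatrix_flip _ _⟩,
      fun i j => ?_⟩
    change (Pi.basisFun F (Fin n)).toMatrix b i j = b j i
    rw [Module.Basis.toMatrix_apply, Pi.basisFun_repr]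
  have hPv : ∀ v : Fin n → F, (P : Matrix (Fin n) (Fin n) F) *ᵥ v = ∑ j, v j • b j := by
    intro v
    funext i
    rw [Matrix.mulVec, dotProduct, Finset.sum_apply]
    apply Finset.sum_congr rfl
    intro j _
    rw [hP, Pi.smul_apply, smul_eq_mul, mul_comm]
  refine ⟨fun j => (e.symm j).1, P, fun l => ?_, fun l => ?_⟩
  · have hequiv : {j : Fin n // (e.symm j).1 = l} ≃ Fin m :=
      { toFun := fun j => (e.symm j.1).2
        invFun := fun k => ⟨e (l, k), by rw [Equiv.symm_apply_apply]⟩
        left_inv := by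
          intro j
          apply Subtype.ext
          change e (l, (e.symm j.1).2) = j.1
          have : (l, (e.symm j.1).2) = e.symm j.1 := Prod.ext j.2.symm rfl
          rw [this, Equiv.apply_symm_apply]
        right_inv := by
          intro k
          change (e.symm (e (l, k))).2 = k
          rw [Equiv.symm_apply_apply] }
    rw [Fintype.card_congr hequiv, Fintype.card_fin]
  · apply le_antisymm
    · rintro _ ⟨v, hv, rfl⟩
      rw [Matrix.toLin'_apply, hPv]
      apply Submodule.sum_mem
      intro j _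
      by_cases hj : (e.symm j).1 = l
      · apply Submodule.smul_mem
        rw [hb, ← hj]
        exact hbm ⟨(e.symm j).1, (e.symm j).2⟩
      · have : v j = 0 := hv j hj
        rw [this, zero_smul]
        exact Submodule.zero_mem _
    · intro x hx
      refine ⟨fun j => b.repr x j, ?_, ?_⟩
      · intro j hj
        change b.repr x j = 0
        rw [hbrepr]
        exact hbne l _ (Ne.symm hj) _ x hx
      · rw [Matrix.toLin'_apply, hPv]
        exact b.sum_repr x

end Cfsg.Agent.Lib.Helper61.Blk
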