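import Mathlib
import Cfsg.Agent.Lib.Helper61.BlkDefs
import Cfsg.Agent.Lib.Helper61.BlkT1
import Cfsg.Agent.Lib.Helper12.BlkA
import Cfsg.Agent.Lib.Helper35.BlkB
import Cfsg.Agent.Lib.Helper29.BlkC
import Cfsg.Agent.Lib.Helper19.BlkD
import Cfsg.Agent.Lib.Helper65.BlkE
import Cfsg.Agent.Lib.Helper13.BlkG
import Cfsg.Agent.Lib.Helper6.BlkH1
import Cfsg.Agent.Lib.Helper65.BlkH2
import Cfsg.Agent.Lib.Helper19.BlkI
import Cfsg.Agent.Lib.Helper87.BlkK2
import Cfsg.Agent.Lib.Helper19.BlkK3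
import Cfsg.Agent.Lib.Helper97.BlkK4
import Cfsg.Agent.Lib.Helper87.BlkT2

/-!
# S5634, blocks of dimension at least 2 (helper61): assembly

The stabiliser in `SL_n(F)` of a decomposition of `F^n` into `t ≥ 2` blocks of dimension
`m ≥ 2` (with `|F| ≥ 3` if `m = 2`) is a maximal subgroup of `SL_n(F)`; note 1443 / 1278.
Pieces A-T2 by helpers 12, 35, 29, 19, 65, 13, 6, 87, 97, 61.
-/

set_option autoImplicit false
set_option linter.unusedSectionVars false

namespace Cfsg.Agent.Lib.Helper61.Blk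

open Matrix Cfsg.Agent.Lib.Helper97


section
variable {ι : Type} [Fintype ι] [DecidableEq ι] {F : Type*} [Field F] {t : ℕ}

omit [Fintype ι] [DecidableEq ι] in
lemma exists_hit_of_ne_zero (β : ι → Fin t) {v : ι → F} (hv : v ≠ 0) : ∃ l, Hit β l v := by
  obtain ⟨j, hj⟩ := Function.ne_iff.mp hv
  exact ⟨β j, j, rfl, hj⟩

omit [Fintype ι] [DecidableEq ι] in
lemma not_hit_of_inB {β : ι → Fin t} {l l' : Fin t} {v : ι → F} (hv : InB β l v)
    (hne : l' ≠ l) : ¬ Hit β l' v := by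
  rintro ⟨j, hj, hj0⟩
  exact hj0 (hv j (by rw [hj]; exact hne))

omit [Fintype ι] [DecidableEq ι] in
lemma ne_zero_of_hit {β : ι → Fin t} {l : Fin t} {v : ι → F} (hv : Hit β l v) : v ≠ 0 := by
  rintro rfl
  obtain ⟨j, _, hj0⟩ := hv
  exact hj0 rfl

lemma exists_third (ht : 3 ≤ t) (l₁ l₂ : Fin t) : ∃ l' : Fin t, l' ≠ l₁ ∧ l' ≠ l₂ := by
  by_contra hcon
  push Not at hcon
  have hsub : (Finset.univ : Finset (Fin t)) ⊆ {l₁, l₂} := by
    intro x _
    by_cases hx : x = l₁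
    · simp [hx]
    · simp [hcon x hx]
  have := Finset.card_le_card hsub
  rw [Finset.card_univ, Fintype.card_fin] at this
  have h2 : ({l₁, l₂} : Finset (Fin t)).card ≤ 2 := Finset.card_le_two
  omega

theorem mix (β : ι → Fin t) (hf : Fib2 β) [Nontrivial ι] {X : Subgroup (GL ι F)}
    (hBT : BT β X) (hBP : BPm β X) {c φ : ι → F} (h : TM X c φ) (hc : c ≠ 0) (hφ : φ ≠ 0)
    (l : Fin t) (hne : (Hit β l c ∧ ¬ Hit β l φ) ∨ (¬ Hit β l c ∧ Hit β l φ)) :
    Cfsg.Geo.specialLinear ι F ≤ X := by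
  have key : ∃ j l', j ≠ l' ∧ U β X j l' := by
    rcases hne with ⟨h1, h2⟩ | ⟨h1, h2⟩
    · have hA := stepA β hf hBT h l h2 h1
      obtain ⟨j, hj⟩ := exists_hit_of_ne_zero β hφ
      have hjl : j ≠ l := by
        rintro rfl
        exact h2 hj
      exact ⟨l, j, hjl.symm, fun u ψ hu hψ =>
        stepB β hf hBT (hA u hu) j (not_hit_of_inB hu hjl) hj ψ hψ⟩
    · have hB := stepB β hf hBT h l h1 h2
      obtain ⟨j, hj⟩ := exists_hit_of_ne_zero β hc
      have hjl : j ≠ l := by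
        rintro rfl
        exact h1 hj
      exact ⟨j, l, hjl, fun u ψ hu hψ =>
        stepA β hf hBT (hB ψ hψ) j (not_hit_of_inB hψ hjl) hj u hu⟩
  obtain ⟨j, l', hjl, hU⟩ := key
  exact stepD β hBT (fun j' l'' h' => stepC β hBP hjl hU h')

theorem step2 (β : ι → Fin t) (hf : Fib2 β) [Nontrivial ι] {X : Subgroup (GL ι F)}
    (hBT : BT β X) (hBP : BPm β X) (hBD : BDg β X)
    (h23 : Fib3 β ∨ (3 ≤ t ∧ ∃ δ : F, δ ≠ 0 ∧ δ ≠ 1)) {c φ : ι → F} (h : TM X c φ)
    (hS : ∀ l, Hit β l c ↔ Hit β l φ) (l₁ l₂ : Fin t) (h12 : l₁ ≠ l₂) (h1 : Hit β l₁ c)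
    (h2 : Hit β l₂ c) : Cfsg.Geo.specialLinear ι F ≤ X := by
  have hc : c ≠ 0 := ne_zero_of_hit h1
  by_cases hE : Fib3 β ∨ bdot β l₁ φ c ≠ 0
  · obtain ⟨ψ, hψ0, hψl, hψ⟩ := stepE β hf hBT h l₁ h1 ((hS l₁).1 h1) hE
    exact mix β hf hBT hBP hψ hc hψ0 l₂ (Or.inl ⟨h2, not_hit_of_inB hψl h12.symm⟩)
  · push Not at hE
    obtain ⟨hn3, h0⟩ := hE
    obtain ⟨ht3, δ, hδ0, hδ1⟩ := h23.resolve_left hn3
    obtain ⟨l', hl1, hl2⟩ := exists_third ht3 l₁ l₂
    obtain ⟨ψ, hψ, hψh, hψs⟩ :=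
      stepG β hf hBD h l₁ l' hl1.symm ((hS l₁).1 h1) h0 δ hδ0 hδ1
    refine mix β hf hBT hBP hψ hc (ne_zero_of_hit hψh) l₂ (Or.inl ⟨h2, ?_⟩)
    rintro ⟨j, hj, hj0⟩
    rcases hψs j hj0 with h' | h'
    · exact h12 (h'.symm.trans hj)
    · exact hl2 (h'.symm.trans hj)

lemma BT.mono {β : ι → Fin t} {M X : Subgroup (GL ι F)} (h : BT β M) (hMX : M ≤ X) :
    BT β X :=
  fun l u ψ hu hψ h0 => ⟨h0, fun g hg => hMX ((h l u ψ hu hψ h0).2 g hg)⟩

lemma BPm.mono {β : ι → Fin t} {M X : Subgroup (GL ι F)} (h : BPm β M) (hMX : M ≤ X) :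
    BPm β X := fun σ => by
  obtain ⟨g, hg, h1, h2⟩ := h σ
  exact ⟨g, hMX hg, h1, h2⟩

lemma BDg.mono {β : ι → Fin t} {M X : Subgroup (GL ι F)} (h : BDg β M) (hMX : M ≤ X) :
    BDg β X := fun g h1 h2 => hMX (h g h1 h2)

omit [Fintype ι] in
lemma bmono_tv (β : ι → Fin t) (l : Fin t) {u ψ : ι → F} (hu : InB β l u) (hψ : InB β l ψ) :
    BMono β 1 (tv u ψ) := by
  intro i j hij
  rw [Equiv.Perm.coe_one, id_eq]
  by_contra hne
  apply hij
  have hij' : i ≠ j := fun h => hne (by rw [h])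
  rw [tv, Matrix.add_apply, Matrix.one_apply_ne hij', zero_add, Matrix.vecMulVec_apply]
  by_cases hi : β i = l
  · have hj : β j ≠ l := fun h => hne (hi.trans h.symm)
    rw [hψ j hj, mul_zero]
  · rw [hu i hi, zero_mul]

theorem bt_MB (β : ι → Fin t) (m : ℕ) (hfib : ∀ l, Fintype.card {j // β j = l} = m) :
    BT β (MB β F) := by
  intro l u ψ hu hψ h0
  refine TM_of_mem h0 ⟨?_, tvG_mem_specialLinear u ψ h0⟩
  exact stepK2 β m hfib _ 1 (by rw [tvG_val]; exact bmono_tv β l hu hψ)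

theorem bdg_MB (β : ι → Fin t) (m : ℕ) (hfib : ∀ l, Fintype.card {j // β j = l} = m) :
    BDg β (MB β F) := by
  intro g h1 h2
  exact ⟨stepK2 β m hfib g 1 h1, (mem_specialLinear_iff g).mpr h2⟩

theorem bpm_MB (β : ι → Fin t) (m : ℕ) (hm : 0 < m)
    (hfib : ∀ l, Fintype.card {j // β j = l} = m) : BPm β (MB β F) := by
  intro σ
  obtain ⟨g, hdet, h1, h2⟩ := stepK4 (F := F) β m hm hfib σ
  exact ⟨g, ⟨stepK2 β m hfib g σ h1, (mem_specialLinear_iff g).mpr hdet⟩, h1, h2⟩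

theorem model_max [Fintype F] (β : ι → Fin t) (m : ℕ) (hm : 2 ≤ m)
    (hfib : ∀ l, Fintype.card {j // β j = l} = m) (ht : 2 ≤ t)
    (h2 : m = 2 → 3 ≤ t ∧ 3 ≤ Fintype.card F) :
    Cfsg.Geo.IsMaximalIn (Cfsg.Geo.specialLinear ι F) (MB β F) := by
  have hf : Fib2 β := by
    intro l
    have h1 : 1 < Fintype.card {j // β j = l} := by rw [hfib l]; omega
    obtain ⟨a, b, hab⟩ := Fintype.one_lt_card_iff.mp h1
    exact ⟨a.1, b.1, fun h => hab (Subtype.ext h), a.2, b.2⟩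
  have h23 : Fib3 β ∨ (3 ≤ t ∧ ∃ δ : F, δ ≠ 0 ∧ δ ≠ 1) := by
    rcases Nat.lt_or_ge 2 m with h3 | h3
    · left
      intro l
      have h1 : 2 < Fintype.card {j // β j = l} := by rw [hfib l]; omega
      obtain ⟨a, b, c, hab, hac, hbc⟩ := Fintype.two_lt_card_iff.mp h1
      exact ⟨a.1, b.1, c.1, fun h => hab (Subtype.ext h), fun h => hac (Subtype.ext h),
        fun h => hbc (Subtype.ext h), a.2, b.2, c.2⟩
    · right
      obtain ⟨h3t, h3F⟩ := h2 (by omega)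
      refine ⟨h3t, ?_⟩
      obtain ⟨a, b, c, hab, hac, hbc⟩ := Fintype.two_lt_card_iff.mp (by omega : 2 < Fintype.card F)
      by_cases ha : a ≠ 0 ∧ a ≠ 1
      · exact ⟨a, ha⟩
      by_cases hb : b ≠ 0 ∧ b ≠ 1
      · exact ⟨b, hb⟩
      refine ⟨c, ?_, ?_⟩
      · rintro rfl
        rcases not_and_or.mp ha with ha | ha <;> rcases not_and_or.mp hb with hb | hb <;>
          simp only [not_not] at ha hb
        · exact hab (ha.trans hb.symm)
        · exact hac ha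
        · exact hbc hb
        · exact hab (ha.trans hb.symm)
      · rintro rfl
        rcases not_and_or.mp ha with ha | ha <;> rcases not_and_or.mp hb with hb | hb <;>
          simp only [not_not] at ha hb
        · exact hab (ha.trans hb.symm)
        · exact hbc hb
        · exact hac ha
        · exact hab (ha.trans hb.symm)
  have l0 : Fin t := ⟨0, by omega⟩
  have : Nontrivial ι := by
    obtain ⟨j₁, j₂, h12, _, _⟩ := hf l0
    exact ⟨⟨j₁, j₂, h12⟩⟩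
  have hBT := bt_MB (F := F) β m hfib
  have hBP := bpm_MB (F := F) β m (by omega) hfib
  have hBD := bdg_MB (F := F) β m hfib
  refine ⟨lt_of_le_of_ne inf_le_right ?_, ?_⟩
  · intro hEq
    obtain ⟨a, _, _, ha, _⟩ := hf (⟨0, by omega⟩ : Fin t)
    obtain ⟨b, _, _, hb, _⟩ := hf (⟨1, by omega⟩ : Fin t)
    have hab : β a ≠ β b := by
      rw [ha, hb]
      intro h
      have := congrArg Fin.val h
      simp at this
    obtain ⟨g, hg, hno⟩ := stepI (F := F) β a b hab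
    rw [← hEq] at hg
    obtain ⟨σ, hσ⟩ := stepK3 β g hg.1
    exact hno σ hσ
  · intro X hMX hXS
    by_cases hSL : Cfsg.Geo.specialLinear ι F ≤ X
    · right
      exact le_antisymm hXS hSL
    · left
      have hBTX := BT.mono hBT hMX
      have hBPX := BPm.mono hBP hMX
      have hBDX := BDg.mono hBD hMX
      have hsing : ∀ c φ : ι → F, TM X c φ → c ≠ 0 → φ ≠ 0 → ∃ l, InB β l c ∧ InB β l φ := by
        intro c φ h hc hφ
        have hS : ∀ l, Hit β l c ↔ Hit β l φ := by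
          intro l
          by_contra hcon
          apply hSL
          refine mix β hf hBTX hBPX h hc hφ l ?_
          by_cases h1 : Hit β l c
          · exact Or.inl ⟨h1, fun h2 => hcon ⟨fun _ => h2, fun _ => h1⟩⟩
          · refine Or.inr ⟨h1, ?_⟩
            by_contra h2
            exact hcon ⟨fun h => absurd h h1, fun h => absurd h h2⟩
        have huniq : ∀ l₁ l₂, Hit β l₁ c → Hit β l₂ c → l₁ = l₂ := by
          intro l₁ l₂ h1 h2
          by_contra hne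
          exact hSL (step2 β hf hBTX hBPX hBDX h23 h hS l₁ l₂ hne h1 h2)
        obtain ⟨l, hl⟩ := exists_hit_of_ne_zero β hc
        refine ⟨l, fun j hj => ?_, fun j hj => ?_⟩
        · by_contra hj0
          exact hj (huniq (β j) l ⟨j, rfl, hj0⟩ hl)
        · by_contra hj0
          exact hj (huniq (β j) l ((hS (β j)).2 ⟨j, rfl, hj0⟩) hl)
      apply le_antisymm _ hMX
      intro x hx
      obtain ⟨σ, hσ⟩ := stepH2 β hf x (fun i c hc => stepH1 β hf hBTX hsing x hx i c hc)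
      exact ⟨stepK2 β m hfib x σ hσ, hXS hx⟩

end

theorem s5634_m2 {F : Type*} [Field F] [Fintype F] (n : ℕ) (hn : 13 ≤ n) {t : ℕ} (m : ℕ)
    (hm : 2 ≤ m) (D : Fin t → Submodule F (Fin n → F)) (hD : Cfsg.Geo.IsMDecomposition m D)
    (h2 : m = 2 → 3 ≤ Fintype.card F) :
    Cfsg.Geo.IsMaximalIn (Cfsg.Geo.specialLinear (Fin n) F)
      (Cfsg.Geo.decompositionStabilizer D ⊓ Cfsg.Geo.specialLinear (Fin n) F) := by
  obtain ⟨β, P, hfib, hP⟩ := stepT1 m D hD
  refine stepT2 β P D hP (model_max β m hm hfib hD.two_le ?_)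
  intro hm2
  refine ⟨?_, h2 hm2⟩
  have hcard : n = t * m := by
    have h1 : Fintype.card (Fin n) = Fintype.card (Σ l : Fin t, {j // β j = l}) :=
      Fintype.card_congr (Equiv.sigmaFiberEquiv β).symm
    rw [Fintype.card_fin, Fintype.card_sigma] at h1
    rw [h1, Finset.sum_congr rfl (fun l _ => hfib l), Finset.sum_const, Finset.card_univ,
      Fintype.card_fin, smul_eq_mul]
  subst hm2
  omega

end Cfsg.Agent.Lib.Helper61.Blk
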