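import Cfsg.Agent.Lib.Helper98.H90Defs

/-!
# Project H74, batch 2 (S5990, architect helper98), piece AR90EF: `ar90_even_fwd` (helper61)

Pure arithmetic: for `i` even and `i ≤ m`, the model `ModelH (-1) (-1) i d m` implies
`Cond90 i d m` (test the model at `A = (2 * d) / i`).
-/

set_option autoImplicit false

namespace Cfsg.Agent.Lib.Helper98.H74

open Cfsg.Agent.Lib.Helper47 Cfsg.Agent.Lib.Helper98.T73 Module Polynomial

theorem AR90EF_sgn_even {i j : ℕ} (hi : Even i) (hj : j % 2 = 0) : sgn i j = 1 := by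
  unfold sgn; rw [if_pos hi]; exact (Nat.even_iff.mpr hj).neg_one_pow

theorem AR90EF_sgn_odd {i j : ℕ} (hi : Even i) (hj : j % 2 = 1) : sgn i j = -1 := by
  unfold sgn; rw [if_pos hi]; exact (Nat.odd_iff.mpr hj).neg_one_pow

theorem AR90EF_div_uniq (i b t j w : ℕ) (ht : t < i) (hw : w < i)
    (h : i * b + t = i * j + w) : b = j ∧ t = w := by
  have h1 : (i * b + t) / i = b := by
    rw [Nat.mul_add_div (by omega : 0 < i), Nat.div_eq_of_lt ht, add_zero]
  have h2 : (i * j + w) / i = j := by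
    rw [Nat.mul_add_div (by omega : 0 < i), Nat.div_eq_of_lt hw, add_zero]
  have hbj : b = j := by rw [← h1, h, h2]
  subst hbj
  exact ⟨rfl, by omega⟩

theorem AR90EF_core (i D m a s b t : ℕ) (hi0 : 0 < i) (heven : Even i)
    (hD : i * a + s = D) (hmb : i * b + t = m) (hs : s < i) (ht : t < i) (hmD : m + 2 ≤ D)
    (him : i ≤ m)
    (hM : ∀ A, (1 ≤ A ∧ i * A ≤ D ∧ (Odd i → Even A) ∧ (D = i * A → sgn i A = -1)) →
      ∃ j w, j ≤ A ∧ (Odd i → Even j) ∧ m = i * j + w ∧ w ≤ D - i * A ∧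
        (w = 0 → sgn i j = -1) ∧
        (0 < w → w = D - i * A → (-1 : ℤ) * sgn i j = -1 * sgn i A)) :
    (s = 0 ∧ (Even a ∨ (t = 0 ∧ Odd b))) ∨
      (0 < s ∧ i ≤ m ∧ ((0 < t ∧ t < s) ∨ (t = 0 ∧ Odd b) ∨ (t = s ∧ Even (a + b)))) := by
  have ha1 : 1 ≤ a := by
    by_contra h0
    have ha0 : a = 0 := by omega
    subst ha0
    omega
  have hvac : Odd i → Even a := fun h => absurd heven (Nat.not_even_iff_odd.mpr h)
  have hpar : ∀ j : ℕ, sgn i j = -1 → j % 2 = 1 := by
    intro j hj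
    rcases Nat.mod_two_eq_zero_or_one j with h | h
    · rw [AR90EF_sgn_even heven h] at hj
      omega
    · exact h
  rcases Nat.eq_zero_or_pos s with hs0 | hspos
  · left
    refine ⟨hs0, ?_⟩
    by_cases hae : a % 2 = 0
    · left; exact Nat.even_iff.mpr hae
    · right
      have hvalid : (1 ≤ a ∧ i * a ≤ D ∧ (Odd i → Even a) ∧ (D = i * a → sgn i a = -1)) :=
        ⟨ha1, by omega, hvac, fun _ => AR90EF_sgn_odd heven (by omega)⟩
      obtain ⟨j, w, -, -, hmj, hw, hw0, -⟩ := hM a hvalid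
      have hw00 : w = 0 := by omega
      have hj := hpar j (hw0 hw00)
      obtain ⟨hbj, htw⟩ := AR90EF_div_uniq i b t j w ht (by omega) (by omega)
      exact ⟨by omega, Nat.odd_iff.mpr (by omega)⟩
  · right
    refine ⟨hspos, him, ?_⟩
    have hvalid : (1 ≤ a ∧ i * a ≤ D ∧ (Odd i → Even a) ∧ (D = i * a → sgn i a = -1)) :=
      ⟨ha1, by omega, hvac, fun h => by omega⟩
    obtain ⟨j, w, -, -, hmj, hw, hw0, hw1⟩ := hM a hvalid
    have hws : w ≤ s := by omega
    obtain ⟨hbj, htw⟩ := AR90EF_div_uniq i b t j w ht (by omega) (by omega)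
    subst hbj
    subst htw
    by_cases ht0 : t = 0
    · right; left
      exact ⟨ht0, Nat.odd_iff.mpr (hpar b (hw0 ht0))⟩
    · by_cases hts : t < s
      · left; exact ⟨by omega, hts⟩
      · right; right
        have htse : t = s := by omega
        refine ⟨htse, ?_⟩
        have h1 := hw1 (by omega) (by omega)
        rcases Nat.mod_two_eq_zero_or_one a with hae | hao <;>
          rcases Nat.mod_two_eq_zero_or_one b with hbe | hbo
        · exact Nat.even_iff.mpr (by omega)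
        · rw [AR90EF_sgn_odd heven hbo, AR90EF_sgn_even heven hae] at h1
          norm_num at h1
        · rw [AR90EF_sgn_even heven hbe, AR90EF_sgn_odd heven hao] at h1
          norm_num at h1
        · exact Nat.even_iff.mpr (by omega)

/-- AR90EF -/
theorem ar90_even_fwd (i d m : ℕ) (hi : 1 ≤ i) (heven : Even i) (hd : 4 ≤ d) (hm : 2 ≤ m)
    (hme : Even m) (hmd : m + 2 ≤ 2 * d) (him : i ≤ m) (hM : ModelH (-1) (-1) i d m) :
    Cond90 i d m := by
  have hi0 : 0 < i := by omega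
  have hcore := AR90EF_core i (2 * d) m ((2 * d) / i) ((2 * d) % i) (m / i) (m % i) hi0 heven
    (Nat.div_add_mod (2 * d) i) (Nat.div_add_mod m i) (Nat.mod_lt _ hi0) (Nat.mod_lt _ hi0)
    hmd him (fun A hA => hM A hA)
  have hq : m % i = (2 * d) % i →
      (2 * d + m - 2 * ((2 * d) % i)) / i = (2 * d) / i + m / i := by
    intro h
    have h1 := Nat.div_add_mod (2 * d) i
    have h2 := Nat.div_add_mod m i
    have h3 : 2 * d + m - 2 * ((2 * d) % i) = i * ((2 * d) / i + m / i) := by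
      rw [Nat.mul_add]; omega
    rw [h3, Nat.mul_div_cancel_left _ hi0]
  unfold Cond90
  rw [if_pos heven]
  rcases hcore with h | ⟨h1, h2, h3 | h3 | ⟨h3, h4⟩⟩
  · exact Or.inl h
  · exact Or.inr ⟨h1, h2, Or.inl h3⟩
  · exact Or.inr ⟨h1, h2, Or.inr (Or.inl h3)⟩
  · exact Or.inr ⟨h1, h2, Or.inr (Or.inr ⟨h3, by rw [hq h3]; exact h4⟩)⟩

end Cfsg.Agent.Lib.Helper98.H74
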