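import Mathlib
import Cfsg.Prelude.Def_KGroupFacts
import Cfsg.Agent.Lib.Helper95.IcoJ
import Cfsg.Agent.Lib.Helper7.J2Perm

/-! S2040 piece J2M-STEM (helper61 for helper70): the double cover `twoJ2 → J2 ≃ P` is a stem
extension with kernel of order 2.  The real content is `center twoJ2 ≤ commutator twoJ2`: the
abelianisation of `twoJ2` is generated by images of reflections (involutions), hence has exponent 2,
and `-1` is the square of an explicit word of length 10 in the four generating reflections. -/

set_option autoImplicit false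
set_option maxRecDepth 100000
set_option maxHeartbeats 400000

namespace Cfsg.Agent.Lib.Helper61.J2MSTEM

open Quaternion Cfsg.Spor Cfsg.Agent.Lib.Helper95.Ico

/-- the product of the generating reflections along a word -/
noncomputable def wordPerm : List (Fin 4) → Equiv.Perm icoLeech
  | [] => 1
  | a :: l => lineRefl (glF a) * wordPerm l

theorem wordPerm_mem (l : List (Fin 4)) : wordPerm l ∈ twoJ2 := by
  induction l with
  | nil => exact one_mem _
  | cons a l ih => exact mul_mem (lineRefl_mem _) ih

theorem wordPerm_append (l l' : List (Fin 4)) :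
    wordPerm (l ++ l') = wordPerm l * wordPerm l' := by
  induction l with
  | nil => show wordPerm l' = 1 * wordPerm l'; rw [one_mul]
  | cons a l ih =>
    show lineRefl (glF a) * wordPerm (l ++ l') = lineRefl (glF a) * wordPerm l * wordPerm l'
    rw [ih, mul_assoc]

/-- the action of a word on the indices of the lines, through the tables -/
def natTab : List (Fin 4) → ℕ → ℕ
  | [], j => j
  | a :: l, j => ap9 (gT a.1) (natTab l j)

theorem lineAct_word (l : List (Fin 4)) (j : Fin 315) :
    (lineAct (wordPerm l) j).1 = natTab l j.1 := by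
  induction l with
  | nil =>
    show (lineAct 1 j).1 = j.1
    rw [lineAct_one]
  | cons a l ih =>
    show (lineAct (lineRefl (glF a) * wordPerm l) j).1 = ap9 (gT a.1) (natTab l j.1)
    rw [lineAct_mul (good_of_mem (lineRefl_mem _)) (good_of_mem (wordPerm_mem l)), genAct, ← ih]
    rfl

/-- the action of a word on a vector of the model -/
def wordV : List (Fin 4) → V → V
  | [], v => v
  | a :: l, v => reflM (lineN (gl a.1)) (wordV l v)

theorem wordPerm_vec (l : List (Fin 4)) (x : icoLeech) (v : V) (hx : x.1 = vecV v) :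
    (wordPerm l x).1 = vecV (wordV l v) := by
  induction l with
  | nil => exact hx
  | cons a l ih =>
    show (lineRefl (glF a) (wordPerm l x)).1 = vecV (reflM (lineN (gl a.1)) (wordV l v))
    have h1 : (lineRefl (glF a) (wordPerm l x)).1 =
        qrefl (vecV (line (glF a))) (wordPerm l x).1 := rfl
    have hmem : vecV (wordV l v) ∈ icoLeech := by rw [← ih]; exact (wordPerm l x).2
    have e : lineN (gl a.1) = line (glF a) := lineN_eq (glF a)
    rw [h1, ih, e, vecV_reflM (lineVec_mem _) hmem]

/-- a word of length 10 whose square is `-1` -/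
def W : List (Fin 4) := [0, 3, 1, 2, 0, 3, 1, 2, 0, 1]

theorem tab_fix : ∀ j < 315, natTab (W ++ W) j = j := by decide +kernel

theorem vec_ne : wordV (W ++ W) (twoI8, I8.zero, I8.zero) ≠ (twoI8, I8.zero, I8.zero) := by
  decide +kernel

theorem word_sq : wordPerm W * wordPerm W = negPerm := by
  rw [← wordPerm_append]
  have hg : Good (wordPerm (W ++ W)) := good_of_mem (wordPerm_mem _)
  have hfix : ∀ j, lineAct (wordPerm (W ++ W)) j = j := by
    intro j
    apply Fin.ext
    rw [lineAct_word]
    exact tab_fix j.1 j.2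
  rcases trivial_of_fix hg hfix with h | h
  · exfalso
    have h1 := wordPerm_vec (W ++ W) (lineVec 0) (twoI8, I8.zero, I8.zero) lineVec0
    rw [h] at h1
    have h2 : vecV (twoI8, I8.zero, I8.zero) =
        vecV (wordV (W ++ W) (twoI8, I8.zero, I8.zero)) := by
      rw [← h1]; exact lineVec0.symm
    exact vec_ne (vecV_injective h2).symm
  · exact h

/-- squares lie in the commutator subgroup: the abelianisation is generated by involutions -/
theorem sq_mem_commutator (g : twoJ2) : g * g ∈ commutator twoJ2 := by
  have hcl : Subgroup.closure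
      ((Subtype.val : twoJ2 → Equiv.Perm icoLeech) ⁻¹' {f | IsIcoReflection f}) = ⊤ :=
    Subgroup.closure_closure_coe_preimage
  have hφ : (powMonoidHom 2).comp (Abelianization.of : twoJ2 →* Abelianization twoJ2) = 1 := by
    apply MonoidHom.eq_of_eqOn_dense hcl
    intro x hx
    obtain ⟨j, hj⟩ := (isRefl_iff_line x.1).mp hx
    have hxx : x * x = 1 := by
      apply Subtype.ext
      show x.1 * x.1 = 1
      rw [hj]
      apply Equiv.ext
      intro y
      apply Subtype.ext
      exact qrefl_qrefl (lineVec_qip j) y.1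
    show (Abelianization.of x) ^ 2 = 1
    rw [← map_pow, pow_two, hxx, map_one]
  have h1 : (Abelianization.of g : Abelianization twoJ2) ^ 2 = 1 := by
    have h := congrArg (fun f : twoJ2 →* Abelianization twoJ2 => f g) hφ
    exact h
  rw [← Abelianization.ker_of, MonoidHom.mem_ker, map_mul, ← pow_two]
  exact h1

theorem center_le_commutator : Subgroup.center twoJ2 ≤ commutator twoJ2 := by
  intro z hz
  rcases (mem_center_iff' z).mp hz with h | h
  · have hz1 : z = 1 := Subtype.ext h
    rw [hz1]; exact one_mem _
  · have hz' : z = (⟨wordPerm W, wordPerm_mem W⟩ : twoJ2) * ⟨wordPerm W, wordPerm_mem W⟩ := by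
      apply Subtype.ext
      show z.1 = wordPerm W * wordPerm W
      rw [h, word_sq]
    rw [hz']; exact sq_mem_commutator _

theorem exists_j2_cover :
    ∃ (Γ : Type) (_ : Group Γ) (_ : Finite Γ) (σ : Γ →* ↥Cfsg.Agent.Lib.Helper7.J2P.P),
      Cfsg.IsStemExtension σ ∧ Nonempty (σ.ker ≃* Multiplicative (ZMod 2)) := by
  have hfin : Finite twoJ2 := Nat.finite_of_card_ne_zero (by rw [twoJ2_card']; norm_num)
  have hker : ((j2IsoP.toMonoidHom.comp (QuotientGroup.mk' (Subgroup.center twoJ2)) :
      twoJ2 →* ↥Cfsg.Agent.Lib.Helper7.J2P.P)).ker = Subgroup.center twoJ2 := by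
    ext x
    rw [MonoidHom.mem_ker]
    show j2IsoP (QuotientGroup.mk' (Subgroup.center twoJ2) x) = 1 ↔ _
    rw [MulEquiv.map_eq_one_iff]
    exact QuotientGroup.eq_one_iff x
  refine ⟨twoJ2, inferInstance, hfin,
    j2IsoP.toMonoidHom.comp (QuotientGroup.mk' (Subgroup.center twoJ2)), ⟨?_, ?_, ?_⟩, ?_⟩
  · exact j2IsoP.surjective.comp (QuotientGroup.mk'_surjective _)
  · rw [hker]
  · rw [hker]; exact center_le_commutator
  · have hc : Nat.card ((j2IsoP.toMonoidHom.comp (QuotientGroup.mk' (Subgroup.center twoJ2)) :
        twoJ2 →* ↥Cfsg.Agent.Lib.Helper7.J2P.P)).ker = 2 := by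
      rw [hker]; exact center_card
    have : Fact (Nat.Prime 2) := ⟨Nat.prime_two⟩
    have hz : Nat.card (Multiplicative (ZMod 2)) = 2 := by
      rw [Nat.card_eq_fintype_card]; rfl
    exact ⟨mulEquivOfPrimeCardEq (p := 2) hc hz⟩

end Cfsg.Agent.Lib.Helper61.J2MSTEM
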