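import Mathlib
import Cfsg.Prelude.Def_GeometricClasses
import Cfsg.Prelude.Def_Classical
import Cfsg.Agent.Lib.Helper47.QuadDefs
import Cfsg.Agent.Lib.Helper47.PrimeOrd
import Cfsg.Agent.Lib.Helper82.QuadSELFDUAL

/-!
# S5981 (helper96), piece SELFDUAL: the characteristic polynomial of an isometry of a
non-degenerate quadratic form is self-dual.
-/

set_option autoImplicit false

universe u

namespace Cfsg.Agent.Lib.Helper61.Oq

open Polynomial Matrix
open scoped MatrixGroups
open Cfsg.Agent.Lib.Helper47

-- PIECE SELFDUAL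
theorem charpoly_selfdual_of_isometry {F : Type*} [Field F] {n : ℕ}
    (Q : (Fin n → F) → F) (hQ : Cfsg.Geo.IsNondegenerateQuadraticForm Q)
    (y : Matrix (Fin n) (Fin n) F) (hy : ∀ v, Q (y *ᵥ v) = Q v) :
    dualP (RingHom.id F) y.charpoly = y.charpoly := by
  have hB : IsSForm (RingHom.id F) (1 : F) (QuadraticMap.polar Q) :=
    { add_left := hQ.polar_bilinear.add_left
      smul_left := hQ.polar_bilinear.smul_left
      symm := fun x y => by
        rw [RingHom.id_apply, one_mul]
        exact QuadraticMap.polar_comm Q y x }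
  have hnd : Nondeg (QuadraticMap.polar Q) := by
    intro x hx
    by_contra hx0
    obtain ⟨w, hw⟩ := (hQ.nondegenerate x hx0).2
    exact hw (hx w)
  have hgi : ∀ u v, QuadraticMap.polar Q (Matrix.toLin' y u) (Matrix.toLin' y v) =
      QuadraticMap.polar Q u v := by
    intro u v
    rw [Matrix.toLin'_apply, Matrix.toLin'_apply]
    unfold QuadraticMap.polar
    rw [← Matrix.mulVec_add, hy, hy, hy]
  have h := Cfsg.Agent.Lib.Helper82.charpoly_selfdual hB hnd (Matrix.toLin' y) hgi
  rwa [Matrix.charpoly_toLin'] at h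

end Cfsg.Agent.Lib.Helper61.Oq
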