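import Mathlib
import Cfsg.Prelude.Def_Classical
import Cfsg.Prelude.Def_Transfer
import Cfsg.Agent.S5396

/-!
# S5432, piece M- (helper61)

The minus-type model: a cocycle `β` on `((Fin m ⊕ Fin m) ⊕ Fin 2) → ZMod 2` with
`β v v = quadFormMinus m (ZMod 2) 1 1 v`, nondegenerate, such that `Ext β` has no elementary
abelian subgroup of order `2 ^ (m + 2)`.
-/

set_option autoImplicit false
set_option linter.unusedSectionVars false

namespace Cfsg.Agent.Lib.Helper61.OutExtra

open Cfsg.Agent.S5396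

/-- the coordinate space of the minus-type form -/
abbrev Wm (m : ℕ) : Type := ((Fin m ⊕ Fin m) ⊕ Fin 2) → ZMod 2

/-- the minus-type cocycle -/
def bm (m : ℕ) : Wm m →+ Wm m →+ ZMod 2 :=
  AddMonoidHom.mk' (fun v => AddMonoidHom.mk' (fun w =>
      (∑ i : Fin m, v (.inl (.inl i)) * w (.inl (.inr i))) +
        (v (.inr 0) * w (.inr 0) + v (.inr 0) * w (.inr 1) + v (.inr 1) * w (.inr 1)))
    (by
      intro w w'
      simp only [Pi.add_apply, mul_add, Finset.sum_add_distrib]
      ring))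
    (by
      intro v v'
      refine AddMonoidHom.ext (fun w => ?_)
      show (∑ i : Fin m, (v + v') (.inl (.inl i)) * w (.inl (.inr i))) +
          ((v + v') (.inr 0) * w (.inr 0) + (v + v') (.inr 0) * w (.inr 1) +
            (v + v') (.inr 1) * w (.inr 1)) =
        ((∑ i : Fin m, v (.inl (.inl i)) * w (.inl (.inr i))) +
          (v (.inr 0) * w (.inr 0) + v (.inr 0) * w (.inr 1) + v (.inr 1) * w (.inr 1))) +
        ((∑ i : Fin m, v' (.inl (.inl i)) * w (.inl (.inr i))) +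
          (v' (.inr 0) * w (.inr 0) + v' (.inr 0) * w (.inr 1) + v' (.inr 1) * w (.inr 1)))
      simp only [Pi.add_apply, add_mul, Finset.sum_add_distrib]
      ring)

theorem bm_apply (m : ℕ) (v w : Wm m) : bm m v w =
    (∑ i : Fin m, v (.inl (.inl i)) * w (.inl (.inr i))) +
      (v (.inr 0) * w (.inr 0) + v (.inr 0) * w (.inr 1) + v (.inr 1) * w (.inr 1)) := rfl

theorem bm_self (m : ℕ) (v : Wm m) : bm m v v = Cfsg.quadFormMinus m (ZMod 2) 1 1 v := by
  rw [bm_apply]
  unfold Cfsg.quadFormMinus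
  ring

theorem bm_nd (m : ℕ) (v : Wm m) (h : ∀ w, bm m v w = bm m w v) : v = 0 := by
  funext x
  rcases x with (i | i) | k
  · have h1 := h (Pi.single (.inl (.inr i)) 1)
    simp [bm_apply, Pi.single_apply] at h1
    exact h1
  · have h1 := h (Pi.single (.inl (.inl i)) 1)
    simp [bm_apply, Pi.single_apply] at h1
    exact h1.symm
  · have h0 := h (Pi.single (.inr 0) 1)
    have h1 := h (Pi.single (.inr 1) 1)
    simp [bm_apply] at h0 h1
    fin_cases k
    · exact h1
    · exact h0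

theorem bm_nd' (m : ℕ) (w : Wm m) (h : ∀ v, om (bm m) v w = 0) : w = 0 := by
  apply bm_nd m
  intro v
  exact (z2_add_eq _ _ (h v)).symm

/-- reindexing to helper92's coordinates -/
def toVm (m : ℕ) : Wm m ≃ Vm m where
  toFun v := fun i => Fin.cases (v (.inr 0), v (.inr 1))
    (fun j => (v (.inl (.inl j)), v (.inl (.inr j)))) i
  invFun u := fun x => match x with
    | .inl (.inl j) => (u j.succ).1
    | .inl (.inr j) => (u j.succ).2
    | .inr k => if k = 0 then (u 0).1 else (u 0).2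
  left_inv v := by
    funext x
    rcases x with (j | j) | k
    · simp
    · simp
    · fin_cases k
      · simp
      · simp
  right_inv u := by
    funext i
    refine Fin.cases ?_ ?_ i
    · simp
    · intro j
      simp

theorem bm_toVm (m : ℕ) (v : Wm m) : bm m v v = form m 1 (toVm m v) (toVm m v) := by
  rw [bm_apply, form_apply, Fin.sum_univ_succ, ee_zero]
  simp only [ee_succ, b, toVm, Equiv.coe_fn_mk, Fin.cases_zero, Fin.cases_succ, zero_mul,
    add_zero, one_mul]
  ring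

theorem gauss_bm (m : ℕ) : ∑ v : Wm m, chi (bm m v v) = -(2 ^ (m + 1) : ℤ) := by
  rw [← gauss_minus m]
  exact Fintype.sum_equiv (toVm m) _ _ (fun v => by rw [bm_toVm])

theorem card_wm (m : ℕ) : Nat.card (Wm m) = 2 ^ (2 * (m + 1)) := by
  rw [Nat.card_eq_fintype_card, Fintype.card_fun, ZMod.card, Fintype.card_sum, Fintype.card_sum,
    Fintype.card_fin, Fintype.card_fin]
  congr 1
  omega

theorem rank_bound_bm (m : ℕ) (A : Subgroup (Ext (bm m))) (hA : Cfsg.IsElementaryAbelian 2 A)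
    (k : ℕ) (hk : Nat.card A = 2 ^ k) : k ≤ m + 1 := by
  classical
  obtain ⟨W, hW, hcard⟩ := Ext.exists_W A hA
  have h1 := bound_neg (bm m) (bm_nd' m) W hW _ (gauss_bm m)
  rw [← Nat.card_eq_fintype_card, ← Nat.card_eq_fintype_card, card_wm] at h1
  have h2 : Nat.card W * 2 ^ (m + 1) < 2 ^ (2 * (m + 1)) := by exact_mod_cast h1
  have h3 : Nat.card W < 2 ^ (m + 1) := by
    have h4 : (2 : ℕ) ^ (2 * (m + 1)) = 2 ^ (m + 1) * 2 ^ (m + 1) := by
      rw [← pow_add]
      congr 1
      ring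
    rw [h4] at h2
    exact Nat.lt_of_mul_lt_mul_right h2
  have h6 : Nat.card W ∣ 2 ^ (2 * (m + 1)) := by
    rw [← card_wm]
    exact AddSubgroup.card_addSubgroup_dvd_card W
  obtain ⟨j, -, hj⟩ := (Nat.dvd_prime_pow Nat.prime_two).mp h6
  rw [hj] at h3 hcard
  have hj' : j < m + 1 := (Nat.pow_lt_pow_iff_right (by norm_num)).mp h3
  rw [hk, ← pow_succ] at hcard
  have h7 : k ≤ j + 1 := (Nat.pow_le_pow_iff_right (by norm_num)).mp hcard
  omega

/-- PIECE M- -/
theorem model_minus (m : ℕ) :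
    ∃ β : (((Fin m ⊕ Fin m) ⊕ Fin 2) → ZMod 2) →+ (((Fin m ⊕ Fin m) ⊕ Fin 2) → ZMod 2) →+ ZMod 2,
      (∀ v, β v v = Cfsg.quadFormMinus m (ZMod 2) 1 1 v) ∧
      (∀ v, (∀ w, β v w = β w v) → v = 0) ∧
      ¬ ∃ A : Subgroup (Ext β), Cfsg.IsElementaryAbelian 2 A ∧ Nat.card A = 2 ^ (m + 2) := by
  refine ⟨bm m, bm_self m, bm_nd m, ?_⟩
  rintro ⟨A, hA, hc⟩
  have := rank_bound_bm m A hA (m + 2) hc
  omega

end Cfsg.Agent.Lib.Helper61.OutExtra
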