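import Mathlib
import Cfsg.Prelude.Def_Classical
import Cfsg.Agent.S5396

/-!
# S5432, piece O1 (helper61)

The homomorphism `Aut(Ext β) → O(Q)`, `Q v = β v v`, for helper92's central extension `Ext β`
of `V = ι → ZMod 2` by `ZMod 2`.
-/

set_option autoImplicit false
set_option linter.unusedSectionVars false

namespace Cfsg.Agent.Lib.Helper61.OutExtra

open Cfsg.Agent.S5396

variable {ι : Type} [Fintype ι] [DecidableEq ι]
  {β : (ι → ZMod 2) →+ (ι → ZMod 2) →+ ZMod 2}

/-- automorphisms preserve the centre `{x | x.v = 0}` -/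
theorem aut_v_zero (hnd : ∀ v, (∀ w, β v w = β w v) → v = 0) (α : MulAut (Ext β)) (x : Ext β)
    (hx : x.v = 0) : (α x).v = 0 := by
  rw [← Ext.mem_center_iff' hnd] at hx ⊢
  rw [Subgroup.mem_center_iff] at hx ⊢
  intro g
  have h1 := hx (α.symm g)
  have h2 := congrArg α h1
  simpa using h2

/-- automorphisms fix the centre pointwise -/
theorem aut_center (hnd : ∀ v, (∀ w, β v w = β w v) → v = 0) (α : MulAut (Ext β)) (t : ZMod 2) :
    α ⟨0, t⟩ = ⟨0, t⟩ := by
  have hv : (α ⟨0, t⟩).v = 0 := aut_v_zero hnd α ⟨0, t⟩ rfl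
  by_cases ht : t = 0
  · subst ht
    exact map_one α
  · have ht1 : t = 1 := z2_ne_zero t ht
    have hs : (α ⟨0, t⟩).s ≠ 0 := by
      intro hs
      have h1 : α ⟨0, t⟩ = 1 := Ext.ext hv hs
      have h2 : (⟨0, t⟩ : Ext β) = 1 := by
        apply α.injective
        rw [h1, map_one]
      exact ht (congrArg Ext.s h2)
    apply Ext.ext hv
    show (α ⟨0, t⟩).s = t
    rw [z2_ne_zero _ hs, ht1]

/-- `(α x).v` depends only on `x.v` -/
theorem aut_v_eq (hnd : ∀ v, (∀ w, β v w = β w v) → v = 0) (α : MulAut (Ext β)) (x : Ext β) :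
    (α x).v = (α ⟨x.v, 0⟩).v := by
  have hx : x = ⟨x.v, 0⟩ * ⟨0, x.s⟩ := by
    ext
    · simp
    · simp
  conv_lhs => rw [hx]
  rw [map_mul, Ext.mul_v, aut_v_zero hnd α ⟨0, x.s⟩ rfl, add_zero]

/-- the map induced on `V` -/
def bar (α : MulAut (Ext β)) (v : ι → ZMod 2) : ι → ZMod 2 := (α ⟨v, 0⟩).v

theorem bar_add (hnd : ∀ v, (∀ w, β v w = β w v) → v = 0) (α : MulAut (Ext β))
    (u v : ι → ZMod 2) : bar α (u + v) = bar α u + bar α v := by
  have h : (⟨u, 0⟩ : Ext β) * ⟨v, 0⟩ = ⟨u + v, β u v⟩ := by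
    ext
    · simp
    · simp
  have h1 := aut_v_eq hnd α (⟨u + v, β u v⟩)
  unfold bar
  rw [← h1, ← h, map_mul, Ext.mul_v]

theorem bar_mul (hnd : ∀ v, (∀ w, β v w = β w v) → v = 0) (α α' : MulAut (Ext β))
    (v : ι → ZMod 2) : bar (α * α') v = bar α (bar α' v) := by
  unfold bar
  rw [MulAut.mul_apply, aut_v_eq hnd α (α' ⟨v, 0⟩)]

theorem bar_one (v : ι → ZMod 2) : bar (1 : MulAut (Ext β)) v = v := rfl

/-- the induced map preserves `Q v = β v v` -/
theorem bar_isometry (hnd : ∀ v, (∀ w, β v w = β w v) → v = 0) (α : MulAut (Ext β))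
    (v : ι → ZMod 2) : β (bar α v) (bar α v) = β v v := by
  have hvv : v + v = 0 := by
    funext i
    exact CharTwo.add_self_eq_zero _
  have h1 : (⟨v, 0⟩ : Ext β) * ⟨v, 0⟩ = ⟨0, β v v⟩ := by
    apply Ext.ext
    · show v + v = 0
      exact hvv
    · simp
  have h2 := congrArg α h1
  rw [map_mul, aut_center hnd] at h2
  have h3 := congrArg Ext.s h2
  rw [Ext.mul_s, two_s, zero_add] at h3
  exact h3

/-- the induced linear map -/
noncomputable def barLin (hnd : ∀ v, (∀ w, β v w = β w v) → v = 0) (α : MulAut (Ext β)) :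
    (ι → ZMod 2) →ₗ[ZMod 2] (ι → ZMod 2) :=
  AddMonoidHom.toZModLinearMap 2 (AddMonoidHom.mk' (bar α) (bar_add hnd α))

theorem barLin_apply (hnd : ∀ v, (∀ w, β v w = β w v) → v = 0) (α : MulAut (Ext β))
    (v : ι → ZMod 2) : barLin hnd α v = bar α v := rfl

/-- the matrix of the induced map, as a monoid homomorphism -/
noncomputable def barMat (hnd : ∀ v, (∀ w, β v w = β w v) → v = 0) :
    MulAut (Ext β) →* Matrix ι ι (ZMod 2) where
  toFun α := LinearMap.toMatrix' (barLin hnd α)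
  map_one' := by
    have h : barLin hnd (1 : MulAut (Ext β)) = LinearMap.id := by
      apply LinearMap.ext
      intro v
      rfl
    rw [h, LinearMap.toMatrix'_id]
  map_mul' α α' := by
    have h : barLin hnd (α * α') = (barLin hnd α).comp (barLin hnd α') := by
      apply LinearMap.ext
      intro v
      exact bar_mul hnd α α' v
    rw [h, LinearMap.toMatrix'_comp]

theorem barMat_mulVec (hnd : ∀ v, (∀ w, β v w = β w v) → v = 0) (α : MulAut (Ext β))
    (v : ι → ZMod 2) : Matrix.mulVec (barMat hnd α) v = bar α v := by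
  show Matrix.mulVec (LinearMap.toMatrix' (barLin hnd α)) v = bar α v
  rw [← Matrix.toLin'_apply, Matrix.toLin'_toMatrix']
  rfl

/-- PIECE O1 -/
theorem exists_phi (β : (ι → ZMod 2) →+ (ι → ZMod 2) →+ ZMod 2)
    (hnd : ∀ v, (∀ w, β v w = β w v) → v = 0) :
    ∃ Φ : MulAut (Ext β) →* ↥(Cfsg.isometryGroup (ZMod 2) (fun v : ι → ZMod 2 => β v v)),
      ∀ (α : MulAut (Ext β)) (v : ι → ZMod 2),
        Matrix.mulVec ((Φ α : Matrix.GeneralLinearGroup ι (ZMod 2)) : Matrix ι ι (ZMod 2)) v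
          = (α ⟨v, 0⟩).v := by
  have hmem : ∀ α : MulAut (Ext β), (barMat hnd).toHomUnits α ∈
      Cfsg.isometryGroup (ZMod 2) (fun v : ι → ZMod 2 => β v v) := by
    intro α u v
    show β (Matrix.mulVec (barMat hnd α) u) (Matrix.mulVec (barMat hnd α) u) = β u u
    rw [barMat_mulVec, bar_isometry hnd]
  refine ⟨(barMat hnd).toHomUnits.codRestrict _ hmem, ?_⟩
  intro α v
  show Matrix.mulVec (barMat hnd α) v = (α ⟨v, 0⟩).v
  rw [barMat_mulVec]
  rfl

end Cfsg.Agent.Lib.Helper61.OutExtra
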