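import Cfsg.Agent.Lib.Helper22.PTDefs
import Cfsg.Agent.Lib.Helper80.Twisted

/-!
Project PT (helper22; S4705), piece ZCZ (helper61): an irreducible character `ζ` has central
character `cz ζ`.
-/

set_option autoImplicit false

namespace Cfsg.Agent.Lib.Helper61.PT

open Cfsg Cfsg.Agent.Lib.Helper22.BFD Cfsg.Agent.Lib.Helper22.PT
open scoped ComplexConjugate

universe u

variable {G : Type u} [Group G] [Fintype G]

/-- PIECE ZCZ -/
theorem zcz (ζ : G → ℂ) (hirr : IsIrrCharacter G ζ) : ZC (cz ζ) ζ := by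
  intro c hc g
  have h1 := Cfsg.Agent.Lib.Helper80.irr_mul_central (⟨ζ, hirr⟩ : IrrCharacter G) hc g
  have h2 : c * g = g * c := (Subgroup.mem_center_iff.mp hc g).symm
  rw [h2]
  exact h1

end Cfsg.Agent.Lib.Helper61.PT
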