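import Cfsg.Agent.Lib.Helper98.H74Defs

/-!
# Project PE (S5988, architect helper96), piece AR88B: `ar88_even_bwd` (helper61)

Pure arithmetic: for `i` even, the condition of S5988 implies the model `ModelH 1 (-1) i d m`
(twin of `Helper99.H74AREVB`).
-/

set_option autoImplicit false
set_option linter.unusedSectionVars false
set_option linter.unusedVariables false

namespace Cfsg.Agent.Lib.Helper61.Pe

universe u

open Cfsg.Agent.Lib.Helper47 Cfsg.Agent.Lib.Helper98.T73 Cfsg.Agent.Lib.Helper98.H74 Module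

theorem AR88B_sgn_even {i j : ℕ} (hi : Even i) (hj : j % 2 = 0) : sgn i j = 1 := by
  unfold sgn; rw [if_pos hi]; exact (Nat.even_iff.mpr hj).neg_one_pow

theorem AR88B_sgn_odd {i j : ℕ} (hi : Even i) (hj : j % 2 = 1) : sgn i j = -1 := by
  unfold sgn; rw [if_pos hi]; exact (Nat.odd_iff.mpr hj).neg_one_pow

theorem AR88B_core (i D m a s b t A : ℕ) (hi0 : 0 < i) (heven : Even i)
    (hD : i * a + s = D) (hmb : i * b + t = m) (hs : s < i) (ht : t < i) (hmD : m < D)
    (hm : 2 ≤ m)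
    (hC : (s = 0 ∧ (Odd a ∨ (t = 0 ∧ Odd b))) ∨
      (i ≤ m ∧ ((0 < t ∧ t < s) ∨ (0 < t ∧ t = s ∧ Odd (a + b)) ∨ (t = 0 ∧ 0 < s ∧ Odd b))))
    (hA1 : 1 ≤ A) (hA2 : i * A ≤ D) (hA4 : D = i * A → sgn i A = 1) :
    ∃ j w, j ≤ A ∧ (Odd i → Even j) ∧ m = i * j + w ∧ w ≤ D - i * A ∧ (w = 0 → sgn i j = -1) ∧
      (0 < w → w = D - i * A → (-1 : ℤ) * sgn i j = 1 * sgn i A) := by
  have hvac : ∀ j : ℕ, Odd i → Even j := fun j h => absurd heven (Nat.not_even_iff_odd.mpr h)
  have hAa : A ≤ a := by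
    have h1 : i * A < i * (a + 1) := by rw [Nat.mul_succ]; omega
    exact Nat.lt_succ_iff.mp (Nat.lt_of_mul_lt_mul_left h1)
  have hiAa : i * A ≤ i * a := Nat.mul_le_mul_left i hAa
  have hAlt : s = 0 → Odd a → A + 1 ≤ a := by
    intro hs0 ha
    by_contra hcon
    have hAae : A = a := by omega
    have h1 : sgn i A = 1 := hA4 (by rw [hAae]; omega)
    rw [AR88B_sgn_odd heven (by rw [hAae]; exact Nat.odd_iff.mp ha)] at h1
    omega
  by_cases hAb : A ≤ b
  · have hiAb : i * A ≤ i * b := Nat.mul_le_mul_left i hAb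
    by_cases hsp : t = 0 ∧ A = b ∧ b % 2 = 0
    · obtain ⟨ht0, hAbe, hbev⟩ := hsp
      have hs0a : s = 0 ∧ a % 2 = 1 := by
        rcases hC with ⟨hs0, ha | ⟨-, hb⟩⟩ | ⟨-, ⟨h, -⟩ | ⟨h, -, -⟩ | ⟨-, -, hb⟩⟩
        · exact ⟨hs0, Nat.odd_iff.mp ha⟩
        · have := Nat.odd_iff.mp hb; omega
        · omega
        · omega
        · have := Nat.odd_iff.mp hb; omega
      obtain ⟨hs0, haodd⟩ := hs0a
      have hlt := hAlt hs0 (Nat.odd_iff.mpr haodd)
      have h2 : i * (A + 1) ≤ i * a := Nat.mul_le_mul_left i hlt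
      have h3 : i * (A + 1) = i * A + i := by ring
      have h4 : i * (A - 1) + i = i * A := by
        obtain ⟨A', rfl⟩ : ∃ A', A = A' + 1 := ⟨A - 1, by omega⟩
        simp [Nat.mul_succ]
      have h5 : i * A = i * b := by rw [hAbe]
      refine ⟨A - 1, i, Nat.sub_le _ _, hvac _, ?_, ?_, ?_, ?_⟩
      · omega
      · omega
      · intro h; omega
      · intro _ h
        rw [AR88B_sgn_odd heven (by omega : (A - 1) % 2 = 1),
          AR88B_sgn_even heven (by omega : A % 2 = 0)]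
        norm_num
    · refine ⟨A, m - i * A, le_refl _, hvac _, ?_, ?_, ?_, ?_⟩
      · omega
      · omega
      · intro h
        have ht0 : t = 0 := by omega
        have hAbe : A = b := Nat.eq_of_mul_eq_mul_left hi0 (by omega)
        have hbodd : b % 2 = 1 := by
          by_contra hb; exact hsp ⟨ht0, hAbe, by omega⟩
        exact AR88B_sgn_odd heven (by omega)
      · intro _ h; exfalso; omega
  · have hbA : b < A := by omega
    by_cases ht0 : t = 0
    · by_cases hbodd : b % 2 = 1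
      · refine ⟨b, 0, by omega, hvac _, by omega, by omega, ?_, ?_⟩
        · intro _; exact AR88B_sgn_odd heven hbodd
        · intro h; omega
      · have hs0a : s = 0 ∧ a % 2 = 1 := by
          rcases hC with ⟨hs0, ha | ⟨-, hb⟩⟩ | ⟨-, ⟨h, -⟩ | ⟨h, -, -⟩ | ⟨-, -, hb⟩⟩
          · exact ⟨hs0, Nat.odd_iff.mp ha⟩
          · have := Nat.odd_iff.mp hb; omega
          · omega
          · omega
          · have := Nat.odd_iff.mp hb; omega
        obtain ⟨hs0, haodd⟩ := hs0a
        have hlt := hAlt hs0 (Nat.odd_iff.mpr haodd)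
        have h2 : i * (A + 1) ≤ i * a := Nat.mul_le_mul_left i hlt
        have h3 : i * (A + 1) = i * A + i := by ring
        have hb1 : 1 ≤ b := by
          by_contra hb0
          have hb00 : b = 0 := by omega
          subst hb00
          omega
        have h4 : i * (b - 1) + i = i * b := by
          obtain ⟨b', rfl⟩ : ∃ b', b = b' + 1 := ⟨b - 1, by omega⟩
          simp [Nat.mul_succ]
        refine ⟨b - 1, i, by omega, hvac _, ?_, ?_, ?_, ?_⟩
        · omega
        · omega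
        · intro h; omega
        · intro _ h
          have hAa1 : A + 1 = a := Nat.eq_of_mul_eq_mul_left hi0 (by omega)
          rw [AR88B_sgn_odd heven (by omega : (b - 1) % 2 = 1),
            AR88B_sgn_even heven (by omega : A % 2 = 0)]
          norm_num
    · refine ⟨b, t, by omega, hvac _, by omega, ?_, ?_, ?_⟩
      · rcases hC with ⟨hs0, ha | ⟨ht0', -⟩⟩ | ⟨-, ⟨-, h1⟩ | ⟨-, h1, -⟩ | ⟨ht0', -, -⟩⟩
        · have hlt := hAlt hs0 ha
          have h2 : i * (A + 1) ≤ i * a := Nat.mul_le_mul_left i hlt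
          have h3 : i * (A + 1) = i * A + i := by ring
          omega
        · omega
        · omega
        · omega
        · omega
      · intro h; omega
      · intro htpos h
        rcases hC with ⟨hs0, ha | ⟨ht0', -⟩⟩ | ⟨-, ⟨-, h1⟩ | ⟨-, h1, hab⟩ | ⟨ht0', -, -⟩⟩
        · exfalso
          have hlt := hAlt hs0 ha
          have h2 : i * (A + 1) ≤ i * a := Nat.mul_le_mul_left i hlt
          have h3 : i * (A + 1) = i * A + i := by ring
          omega
        · exfalso; omega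
        · exfalso; omega
        · have hAae : A = a := Nat.eq_of_mul_eq_mul_left hi0 (by omega)
          have hab' := Nat.odd_iff.mp hab
          rcases Nat.mod_two_eq_zero_or_one b with hb | hb
          · rw [AR88B_sgn_even heven hb, AR88B_sgn_odd heven (by omega : A % 2 = 1)]
            norm_num
          · rw [AR88B_sgn_odd heven hb, AR88B_sgn_even heven (by omega : A % 2 = 0)]
            norm_num
        · exfalso; omega

-- PIECE AR88B
theorem ar88_even_bwd (i d m : ℕ) (hi : 1 ≤ i) (heven : Even i) (hd : 4 ≤ d) (hm : 2 ≤ m)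
    (hme : Even m) (hmd : m < d)
    (hC : (((2 * d) % i = 0 ∧ (Odd ((2 * d) / i) ∨ (m % i = 0 ∧ Odd (m / i)))) ∨
      (i ≤ m ∧ ((0 < m % i ∧ m % i < (2 * d) % i) ∨
        (0 < m % i ∧ m % i = (2 * d) % i ∧ Odd ((2 * d + m - 2 * ((2 * d) % i)) / i)) ∨
        (m % i = 0 ∧ 0 < (2 * d) % i ∧ Odd (m / i)))))) :
    ModelH 1 (-1) i d m := by
  intro A hA
  obtain ⟨hA1, hA2, -, hA4⟩ := hA
  have hi0 : 0 < i := by omega
  have hq : m % i = (2 * d) % i →
      (2 * d + m - 2 * ((2 * d) % i)) / i = (2 * d) / i + m / i := by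
    intro h
    have h1 := Nat.div_add_mod (2 * d) i
    have h2 := Nat.div_add_mod m i
    have h3 : 2 * d + m - 2 * ((2 * d) % i) = i * ((2 * d) / i + m / i) := by
      rw [Nat.mul_add]; omega
    rw [h3, Nat.mul_div_cancel_left _ hi0]
  have hC' : ((2 * d) % i = 0 ∧ (Odd ((2 * d) / i) ∨ (m % i = 0 ∧ Odd (m / i)))) ∨
      (i ≤ m ∧ ((0 < m % i ∧ m % i < (2 * d) % i) ∨
        (0 < m % i ∧ m % i = (2 * d) % i ∧ Odd ((2 * d) / i + m / i)) ∨
        (m % i = 0 ∧ 0 < (2 * d) % i ∧ Odd (m / i)))) := by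
    rcases hC with h | ⟨h1, h | ⟨h2, h3, h4⟩ | h⟩
    · exact Or.inl h
    · exact Or.inr ⟨h1, Or.inl h⟩
    · exact Or.inr ⟨h1, Or.inr (Or.inl ⟨h2, h3, by rw [← hq h3]; exact h4⟩)⟩
    · exact Or.inr ⟨h1, Or.inr (Or.inr h)⟩
  exact AR88B_core i (2 * d) m ((2 * d) / i) ((2 * d) % i) (m / i) (m % i) A hi0 heven
    (Nat.div_add_mod (2 * d) i) (Nat.div_add_mod m i) (Nat.mod_lt _ hi0) (Nat.mod_lt _ hi0)
    (by omega) hm hC' hA1 hA2 hA4

end Cfsg.Agent.Lib.Helper61.Pe
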