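import Mathlib

/-! SLP piece ARI (helper61 for helper71; S5793/S5808/S5853): the arithmetic of the minimal field
for `ℓ = 5, 7, 11`: the order of `p` modulo `ℓ` is odd. -/

set_option autoImplicit false

namespace Cfsg.Agent.Lib.Helper61.SLPARI

private theorem ari_key (l p d : ℕ) (hp : 0 < p) :
    l ∣ p ^ d - 1 ↔ (p : ZMod l) ^ d = 1 := by
  have h1 : 1 ≤ p ^ d := Nat.one_le_pow _ _ hp
  rw [← ZMod.natCast_eq_zero_iff, Nat.cast_sub h1, Nat.cast_pow, Nat.cast_one, sub_eq_zero]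

private theorem ari_order (l p e : ℕ) [Fact l.Prime] (hp : p.Prime) (he : Odd e)
    (hdvd : l ∣ p ^ e - 1) (hmin : ∀ d : ℕ, 0 < d → d < e → ¬ l ∣ p ^ d - 1) :
    (p : ZMod l) ^ e = 1 ∧ e ∣ l - 1 ∧ ∀ d, 0 < d → d < e → (p : ZMod l) ^ d ≠ 1 := by
  have hp0 := hp.pos
  have he0 : 0 < e := he.pos
  have h1 : (p : ZMod l) ^ e = 1 := (ari_key l p e hp0).mp hdvd
  have h2 : ∀ d, 0 < d → d < e → (p : ZMod l) ^ d ≠ 1 := fun d hd hde h =>
    hmin d hd hde ((ari_key l p d hp0).mpr h)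
  have hord : orderOf (p : ZMod l) = e := by
    rw [orderOf_eq_iff he0]
    exact ⟨h1, fun m hm hm0 => h2 m hm0 hm⟩
  have ha0 : (p : ZMod l) ≠ 0 := by
    intro h0
    rw [h0, zero_pow he0.ne'] at h1
    exact zero_ne_one h1
  refine ⟨h1, ?_, h2⟩
  rw [← hord]
  exact ZMod.orderOf_dvd_card_sub_one ha0

private theorem ari_mod (l p k : ℕ) (hk : k < l) (h : (p : ZMod l) = (k : ZMod l)) :
    p % l = k := by
  have h1 := (ZMod.natCast_eq_natCast_iff' p k l).mp h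
  rw [Nat.mod_eq_of_lt hk] at h1
  exact h1

private theorem ari_c7 : ∀ a : ZMod 7, a ^ 3 = 1 → a = 1 ∨ a = 2 ∨ a = 4 := by decide

private theorem ari_c11 : ∀ a : ZMod 11, a ^ 5 = 1 → a = 1 ∨ a = 3 ∨ a = 4 ∨ a = 5 ∨ a = 9 := by
  decide

/-- A5 -/
theorem A5 (p e : ℕ) (hp : p.Prime) (he : Odd e) (hdvd : 5 ∣ p ^ e - 1)
    (hmin : ∀ d : ℕ, 0 < d → d < e → ¬ 5 ∣ p ^ d - 1) : e = 1 ∧ p % 5 = 1 := by
  have : Fact (Nat.Prime 5) := ⟨by norm_num⟩
  obtain ⟨h1, h2, h3⟩ := ari_order 5 p e hp he hdvd hmin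
  have he1 : e = 1 := by
    have hle : e ≤ 4 := Nat.le_of_dvd (by norm_num) h2
    obtain ⟨k, hk⟩ := he
    clear h1 h3 hdvd hmin
    interval_cases e <;> omega
  subst he1
  rw [pow_one] at h1
  exact ⟨rfl, ari_mod 5 p 1 (by norm_num) (by rw [h1, Nat.cast_one])⟩

/-- A7 -/
theorem A7 (p e : ℕ) (hp : p.Prime) (he : Odd e) (hdvd : 7 ∣ p ^ e - 1)
    (hmin : ∀ d : ℕ, 0 < d → d < e → ¬ 7 ∣ p ^ d - 1) :
    (e = 1 ∧ p % 7 = 1) ∨ (e = 3 ∧ (p % 7 = 2 ∨ p % 7 = 4)) := by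
  have : Fact (Nat.Prime 7) := ⟨by norm_num⟩
  obtain ⟨h1, h2, h3⟩ := ari_order 7 p e hp he hdvd hmin
  have he1 : e = 1 ∨ e = 3 := by
    have hle : e ≤ 6 := Nat.le_of_dvd (by norm_num) h2
    obtain ⟨k, hk⟩ := he
    clear h1 h3 hdvd hmin
    interval_cases e <;> omega
  rcases he1 with he1 | he1
  · subst he1
    rw [pow_one] at h1
    exact Or.inl ⟨rfl, ari_mod 7 p 1 (by norm_num) (by rw [h1, Nat.cast_one])⟩
  · subst he1
    right
    refine ⟨rfl, ?_⟩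
    have hne : (p : ZMod 7) ≠ 1 := by
      have := h3 1 (by norm_num) (by norm_num)
      rwa [pow_one] at this
    rcases ari_c7 _ h1 with h | h | h
    · exact absurd h hne
    · exact Or.inl (ari_mod 7 p 2 (by norm_num) (by rw [h]; rfl))
    · exact Or.inr (ari_mod 7 p 4 (by norm_num) (by rw [h]; rfl))

/-- A11 -/
theorem A11 (p e : ℕ) (hp : p.Prime) (he : Odd e) (hdvd : 11 ∣ p ^ e - 1)
    (hmin : ∀ d : ℕ, 0 < d → d < e → ¬ 11 ∣ p ^ d - 1) :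
    (e = 1 ∧ p % 11 = 1) ∨
      (e = 5 ∧ (p % 11 = 3 ∨ p % 11 = 4 ∨ p % 11 = 5 ∨ p % 11 = 9)) := by
  have : Fact (Nat.Prime 11) := ⟨by norm_num⟩
  obtain ⟨h1, h2, h3⟩ := ari_order 11 p e hp he hdvd hmin
  have he1 : e = 1 ∨ e = 5 := by
    have hle : e ≤ 10 := Nat.le_of_dvd (by norm_num) h2
    obtain ⟨k, hk⟩ := he
    clear h1 h3 hdvd hmin
    interval_cases e <;> omega
  rcases he1 with he1 | he1
  · subst he1
    rw [pow_one] at h1
    exact Or.inl ⟨rfl, ari_mod 11 p 1 (by norm_num) (by rw [h1, Nat.cast_one])⟩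
  · subst he1
    right
    refine ⟨rfl, ?_⟩
    have hne : (p : ZMod 11) ≠ 1 := by
      have := h3 1 (by norm_num) (by norm_num)
      rwa [pow_one] at this
    rcases ari_c11 _ h1 with h | h | h | h | h
    · exact absurd h hne
    · exact Or.inl (ari_mod 11 p 3 (by norm_num) (by rw [h]; rfl))
    · exact Or.inr (Or.inl (ari_mod 11 p 4 (by norm_num) (by rw [h]; rfl)))
    · exact Or.inr (Or.inr (Or.inl (ari_mod 11 p 5 (by norm_num) (by rw [h]; rfl))))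
    · exact Or.inr (Or.inr (Or.inr (ari_mod 11 p 9 (by norm_num) (by rw [h]; rfl))))

end Cfsg.Agent.Lib.Helper61.SLPARI
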