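import Mathlib
import Cfsg.Prelude.Def_GeometricClasses
import Cfsg.Prelude.Def_LieClassical
import Cfsg.Agent.Lib.Helper71.Asch0
import Cfsg.Agent.Lib.Helper29.SPPTens
import Cfsg.Agent.Lib.Helper29.SPPT33
import Cfsg.Agent.Lib.Helper60.OqDIAGFORM

/-!
# Project SP12 (helper71; S5868), piece T33g (helper61)

The landed `T33` (helper29, `Lib/Helper29/SPPT33.lean`) with the symplectic factor of any dimension
`d ≥ 1`: over the field with three elements a group of isometries inside `Sp_d ⊗ O_3` stabilises a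
non-degenerate decomposition into three `d`-spaces.
-/

set_option autoImplicit false

namespace Cfsg.Agent.Lib.Helper61.SP12T33g

open Matrix Cfsg.Geo Cfsg.Agent.Lib.Helper71.Asch
open Cfsg.Agent.Lib.Helper29.SPPTens Cfsg.Agent.Lib.Helper29.SPPT33
open scoped Kronecker

variable {n : ℕ} {F : Type*} [Field F] [Fintype F]

/-- T33g: over the field with three elements a group of isometries inside `Sp_d ⊗ O_3` stabilises
a non-degenerate decomposition into three `d`-spaces (`T33` is the case `d = 2`). -/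
theorem T33g (hq : Fintype.card F = 3) (f : (Fin n → F) → (Fin n → F) → F)
    (hf : IsSymplecticForm f) (H : Subgroup (GL (Fin n) F)) (hfix : FixesForm (matrixSet H) f)
    {d : ℕ} (hd : 1 ≤ d) (e : Fin n ≃ Fin d × Fin 3) (P : GL (Fin n) F)
    (f₁ : (Fin d → F) → (Fin d → F) → F) (f₂ : (Fin 3 → F) → (Fin 3 → F) → F)
    (h1 : IsSymplecticForm f₁) (h2 : IsSymmetricForm f₂)
    (ht : IsTensorFormStructure id f f₁ f₂ e P) (hH : H ≤ tensorProductSubgroup d 3 e P) :
    ∃ D : Fin 3 → Submodule F (Fin n → F), IsNondegenerateMDecomposition f d D ∧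
      H ≤ decompositionStabilizer D := by
  classical
  have h2F : (2 : F) ≠ 0 := t33_two_ne hq
  have hb1 := h1.bilinear
  have hb2 := h2.bilinear
  have hsymm := h2.symm
  have hbf := hf.bilinear
  -- the quadratic form of `f₂` and its diagonalisation
  obtain ⟨Q, hQdef⟩ : ∃ Q : (Fin 3 → F) → F, ∀ v, Q v = f₂ v v := ⟨fun v => f₂ v v, fun _ => rfl⟩
  have hpolar : ∀ v w, QuadraticMap.polar Q v w = 2 * f₂ v w := by
    intro v w
    unfold QuadraticMap.polar
    rw [hQdef, hQdef, hQdef, hb2.add_left, hb2.add_right, hb2.add_right, hsymm w v]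
    ring
  have hQ : IsNondegenerateQuadraticForm Q :=
    { smul := fun c v => by
        rw [hQdef, hQdef, hb2.smul_left, hb2.smul_right]
        ring
      polar_bilinear :=
        { add_left := fun x y v => by
            rw [hpolar, hpolar, hpolar, hb2.add_left]
            ring
          smul_left := fun c x v => by
            rw [hpolar, hpolar, hb2.smul_left]
            ring
          add_right := fun v x y => by
            rw [hpolar, hpolar, hpolar, hb2.add_right]
            ring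
          smul_right := fun c v x => by
            rw [hpolar, hpolar, hb2.smul_right]
            ring }
      nondegenerate := fun v hv => by
        obtain ⟨⟨x, hx⟩, ⟨y, hy⟩⟩ := h2.nondegenerate v hv
        exact ⟨⟨x, by rw [hpolar]; exact mul_ne_zero h2F hx⟩,
          ⟨y, by rw [hpolar]; exact mul_ne_zero h2F hy⟩⟩ }
  obtain ⟨L, a, ha, hL⟩ := Cfsg.Agent.Lib.Helper60.Oq.exists_diag_form h2F 3 Q hQ
  have hdiag : ∀ v, f₂ v v = ∑ i, a i * (L v i * L v i) := by
    intro v
    have h3 := hL v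
    rw [one_mul, hQdef] at h3
    rw [← h3]
    apply Finset.sum_congr rfl
    intro i _
    ring
  have hdiag2 : ∀ v w, f₂ v w = ∑ i, a i * (L v i * L w i) := by
    intro v w
    have e1 := hdiag (v + w)
    rw [hb2.add_left, hb2.add_right, hb2.add_right, hsymm w v, hdiag v, hdiag w] at e1
    have e2 : ∑ i, a i * (L (v + w) i * L (v + w) i) = ∑ i, a i * (L v i * L v i) +
        2 * ∑ i, a i * (L v i * L w i) + ∑ i, a i * (L w i * L w i) := by
      rw [Finset.mul_sum, ← Finset.sum_add_distrib, ← Finset.sum_add_distrib]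
      apply Finset.sum_congr rfl
      intro i _
      rw [map_add, Pi.add_apply]
      ring
    rw [e2] at e1
    have e3 : 2 * f₂ v w = 2 * ∑ i, a i * (L v i * L w i) := by linear_combination e1
    exact mul_left_cancel₀ h2F e3
  -- the frame
  obtain ⟨ε, c, hε, hO, hK, hS⟩ := t33_frame hq a ha
  obtain ⟨u, hLu⟩ : ∃ u : Fin 3 → (Fin 3 → F), ∀ s, L (u s) = c s :=
    ⟨fun s => L.symm (c s), fun s => L.apply_symm_apply (c s)⟩
  have hU1 : ∀ s t, f₂ (u s) (u t) = if s = t then ε else 0 := by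
    intro s t
    rw [hdiag2, hLu, hLu]
    exact hO s t
  have hU2 : ∀ v, f₂ v v = ε → ∃ s, v = u s ∨ v = -u s := by
    intro v hv
    rw [hdiag] at hv
    obtain ⟨s, hs⟩ := hS (L v) hv
    refine ⟨s, ?_⟩
    rcases hs with hs | hs
    · left
      apply L.injective
      rw [hLu]
      exact hs
    · right
      apply L.injective
      rw [map_neg, hLu]
      exact hs
  have hE : ∀ v : Fin 3 → F, v = ∑ s, (f₂ v (u s) / ε) • u s := by
    intro v
    apply L.injective
    rw [map_sum]
    funext i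
    rw [Finset.sum_apply]
    simp only [map_smul, hLu, Pi.smul_apply, smul_eq_mul, hdiag2]
    have h3 : ∀ s, (∑ j, a j * (L v j * c s j)) / ε * c s i =
        (∑ j, (c s i * c s j * a j) * L v j) / ε := by
      intro s
      rw [div_mul_eq_mul_div, Finset.sum_mul]
      congr 1
      apply Finset.sum_congr rfl
      intro j _
      ring
    simp only [h3]
    rw [← Finset.sum_div, Finset.sum_comm]
    simp only [← Finset.sum_mul, hK]
    rw [eq_div_iff hε]
    simp [mul_comm]
  -- the planes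
  obtain ⟨c₀, hc₀, hform⟩ := ht
  have hf0l : ∀ x, f 0 x = 0 := by
    intro x
    have h3 := hbf.smul_left 0 0 x
    rw [zero_smul, zero_mul] at h3
    exact h3
  have hf0r : ∀ x, f x 0 = 0 := by
    intro x
    have h3 := hbf.smul_right 0 x 0
    rw [zero_smul, zero_mul] at h3
    exact h3
  let ι : Fin 3 → (Fin d → F) →ₗ[F] (Fin n → F) := fun s =>
    { toFun := fun w => tT e P (ptens w (u s))
      map_add' := fun w w' => by
        rw [← map_add]
        congr 1
        funext p
        simp [ptens, add_mul]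
      map_smul' := fun t w => by
        rw [RingHom.id_apply, ← map_smul]
        congr 1
        funext p
        simp [ptens, mul_assoc] }
  have hι : ∀ s w, ι s w = P.1 *ᵥ (ptens w (u s) ∘ e) := fun s w => rfl
  have hD1 : ∀ s t w w', f (ι s w) (ι t w') = c₀ * (f₁ w w' * (if s = t then ε else 0)) := by
    intro s t w w'
    rw [hι, hι, hform, formOfGram_ptens f₁ f₂ hb1 hb2, hU1]
  have hιinj : ∀ s, Function.Injective (ι s) := by
    intro s
    rw [injective_iff_map_eq_zero]
    intro w hw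
    by_contra hw0
    obtain ⟨w', hw'⟩ := (h1.nondegenerate w hw0).2
    have h3 := hD1 s s w w'
    rw [hw, if_pos rfl, hf0l] at h3
    exact mul_ne_zero hc₀ (mul_ne_zero hw' hε) h3.symm
  obtain ⟨D, hDdef⟩ : ∃ D : Fin 3 → Submodule F (Fin n → F), ∀ s, D s = LinearMap.range (ι s) :=
    ⟨fun s => LinearMap.range (ι s), fun _ => rfl⟩
  have hmemD : ∀ s x, x ∈ D s ↔ ∃ w, ι s w = x := by
    intro s x
    rw [hDdef, LinearMap.mem_range]
  have hnd : ∀ s, IsNondegenerateOn f (D s) := by
    intro s x hx hx0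
    obtain ⟨w₀, rfl⟩ := (hmemD s x).1 hx
    have hw₀ : w₀ ≠ 0 := by
      rintro rfl
      exact hx0 (map_zero _)
    obtain ⟨⟨x₀, hx₀⟩, ⟨x₁, hx₁⟩⟩ := h1.nondegenerate w₀ hw₀
    refine ⟨⟨ι s x₀, (hmemD s _).2 ⟨x₀, rfl⟩, ?_⟩, ⟨ι s x₁, (hmemD s _).2 ⟨x₁, rfl⟩, ?_⟩⟩
    · rw [hD1, if_pos rfl]
      exact mul_ne_zero hc₀ (mul_ne_zero hx₀ hε)
    · rw [hD1, if_pos rfl]
      exact mul_ne_zero hc₀ (mul_ne_zero hx₁ hε)
  have horth : ∀ s t, s ≠ t → AreOrthogonalFor f (D s) (D t) := by
    intro s t hst x hx y hy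
    obtain ⟨w, rfl⟩ := (hmemD s x).1 hx
    obtain ⟨w', rfl⟩ := (hmemD t y).1 hy
    rw [hD1, if_neg hst]
    ring
  have hindep : iSupIndep D := by
    intro s
    rw [Submodule.disjoint_def]
    intro x hx hx'
    by_contra hx0
    obtain ⟨⟨y, hy, hyx⟩, -⟩ := hnd s x hx hx0
    apply hyx
    let K : Submodule F (Fin n → F) :=
      { carrier := {x | ∀ y ∈ D s, f y x = 0}
        add_mem' := fun {x x'} hx hx' y hy => by
          rw [hbf.add_right, hx y hy, hx' y hy, add_zero]
        zero_mem' := fun y _ => hf0r y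
        smul_mem' := fun c x hx y hy => by
          rw [hbf.smul_right, hx y hy, mul_zero] }
    have hle : (⨆ (j) (_ : j ≠ s), D j) ≤ K := by
      apply iSup₂_le
      intro t hts z hz y hy
      exact horth s t (Ne.symm hts) y hy z hz
    exact hle hx' y hy
  have htop : iSup D = ⊤ := by
    rw [eq_top_iff]
    intro v _
    obtain ⟨x, rfl⟩ := tT_surjective e P v
    have hx : x = ∑ s, ptens (fun i => f₂ (fun j => x (i, j)) (u s) / ε) (u s) := by
      funext p
      obtain ⟨i, j⟩ := p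
      have h3 := congrFun (hE (fun j => x (i, j))) j
      rw [Finset.sum_apply] at h3 ⊢
      simpa [ptens] using h3
    rw [hx, map_sum]
    apply Submodule.sum_mem
    intro s _
    exact Submodule.mem_iSup_of_mem s ((hmemD s _).2 ⟨_, rfl⟩)
  have hfr : ∀ s, Module.finrank F (D s) = d := by
    intro s
    rw [hDdef, LinearMap.finrank_range_of_inj (hιinj s), Module.finrank_fin_fun]
  refine ⟨D, ⟨⟨by norm_num, hd, hfr, hindep, htop⟩, hnd, horth⟩, ?_⟩
  -- the stabiliser
  intro h hh
  obtain ⟨a', b, lam, hab, hlam, hb⟩ := tens_factor f H hfix hd (by norm_num) e P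
    f₁ f₂ h1.bilinear h1.nondegenerate h2.bilinear h2.nondegenerate ⟨c₀, hc₀, hform⟩ hH h hh
  have hlam1 : lam = 1 := t33_lam_one hq f₂ h2 b lam hlam hb
  rw [hlam1] at hb
  simp only [one_mul] at hb
  have hex : ∀ s, ∃ (t : Fin 3) (δ : F), δ ≠ 0 ∧ b.1 *ᵥ u s = δ • u t := by
    intro s
    obtain ⟨t, ht⟩ := hU2 (b.1 *ᵥ u s) (by rw [hb, hU1, if_pos rfl])
    rcases ht with ht | ht
    · exact ⟨t, 1, one_ne_zero, by rw [ht, one_smul]⟩
    · exact ⟨t, -1, neg_ne_zero.mpr one_ne_zero, by rw [ht, neg_smul, one_smul]⟩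
  choose σ δ hδ0 hδ using hex
  have hσinj : Function.Injective σ := by
    intro s s' hss
    by_contra hne
    have h3 := hb (u s) (u s')
    rw [hU1, if_neg hne, hδ s, hδ s', hb2.smul_left, hb2.smul_right, hss, hU1, if_pos rfl] at h3
    exact mul_ne_zero (hδ0 s) (mul_ne_zero (hδ0 s') hε) h3
  have hact : ∀ s w, h.1 *ᵥ ι s w = ι (σ s) (δ s • (a'.1 *ᵥ w)) := by
    intro s w
    rw [hι, hι, hab, tmat_mulVec, kron_mulVec_ptens, hδ s]
    congr 2
    funext p
    simp [ptens]
    ring
  refine ⟨Equiv.ofBijective σ (Finite.injective_iff_bijective.mp hσinj), fun s => ?_⟩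
  rw [Equiv.ofBijective_apply]
  apply le_antisymm
  · rintro _ ⟨x, hx, rfl⟩
    obtain ⟨w, rfl⟩ := (hmemD s x).1 hx
    rw [Matrix.toLin'_apply, hact]
    exact (hmemD _ _).2 ⟨_, rfl⟩
  · intro y hy
    obtain ⟨w', rfl⟩ := (hmemD _ y).1 hy
    refine ⟨ι s ((a'⁻¹ : GL (Fin d) F).1 *ᵥ ((δ s)⁻¹ • w')), (hmemD s _).2 ⟨_, rfl⟩, ?_⟩
    rw [Matrix.toLin'_apply, hact, Matrix.mulVec_mulVec, ← Units.val_mul, mul_inv_cancel,
      Units.val_one, Matrix.one_mulVec, smul_smul, mul_inv_cancel₀ (hδ0 s), one_smul]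

end Cfsg.Agent.Lib.Helper61.SP12T33g
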