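import Mathlib
import Cfsg.Prelude.Def_GeometricClasses
import Cfsg.Prelude.Def_LieClassical
import Cfsg.Agent.Lib.Helper18.UnitaryFr
import Cfsg.Agent.Lib.Helper18.UnitaryGenB
import Cfsg.Agent.Lib.Helper18.UnitaryWitt
import Cfsg.Agent.Lib.Helper93.SUPair
import Cfsg.Agent.Lib.Helper65.SUPNU6

/-! Project SU4 (helper50, S5784), piece NU64 (helper61; insurance copy): `SU_4(q)` does not
normalise a non-scalar subgroup `R ≤ GU_4(q)` with scalar commutator subgroup and without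
non-trivial quadratic unipotent elements.  This is `NU6` of `Lib/Helper65/SUPNU6.lean` with a
new step (5) (`c` is central in `R`) which works for every `n ≥ 4`. -/

set_option autoImplicit false

namespace Cfsg.Agent.Lib.Helper61.SU4NU64

open Matrix Cfsg.Geo Cfsg.Agent.Lib.Helper7 Cfsg.Agent.Lib.Helper18
open Cfsg.Agent.Lib.Helper65.SUPNU6
open scoped commutatorElement

variable {n : ℕ} {F : Type*} [Field F] [Fintype F] {q : ℕ}

omit [Fintype F] in
/-- two linear conditions have a solution space of dimension at least two in dimension `≥ 4` -/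
theorem su4nu64_ker2 (hn : 4 ≤ n) (φ : Fin 2 → ((Fin n → F) →ₗ[F] F)) :
    2 ≤ Module.finrank F (LinearMap.ker (LinearMap.pi φ)) := by
  have h1 := LinearMap.finrank_range_add_finrank_ker (LinearMap.pi φ)
  have h2 : Module.finrank F (LinearMap.range (LinearMap.pi φ)) ≤ 2 := by
    have h3 := Submodule.finrank_le (LinearMap.range (LinearMap.pi φ))
    rwa [Module.finrank_fin_fun] at h3
  rw [Module.finrank_fin_fun] at h1
  omega

/-- `NU6` for every `n ≥ 4` -/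
theorem su4nu64_gen (hF : Fintype.card F = q ^ 2) (hn : 4 ≤ n) (R : Subgroup (GL (Fin n) F))
    (hR : R ≤ Cfsg.GU n F q) (hc : ⁅R, R⁆ ≤ scalars (Fin n) F)
    (hns : ¬ R ≤ scalars (Fin n) F)
    (hu : ∀ y ∈ R, (y.1 - 1) * (y.1 - 1) = 0 → y = 1) :
    ¬ (Cfsg.GU n F q ⊓ specialLinear (Fin n) F) ≤ subgroupNormalizer R := by
  intro hS
  obtain ⟨μ, hμ0, hμ⟩ := exists_trace_zero hF
  have hμq : μ ^ q = -μ := by linear_combination hμ
  -- (1) a non-scalar element and an isotropic non-eigenvector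
  obtain ⟨x, hxR, hxs⟩ := SetLike.not_le_iff_exists.mp hns
  have hxp : ∀ u v, Cfsg.hermForm n F q (x.1 *ᵥ u) (x.1 *ᵥ v) = Cfsg.hermForm n F q u v :=
    hR hxR
  obtain ⟨v₀, hv₀v₀, hv₀x⟩ : ∃ v₀ : Fin n → F, Cfsg.hermForm n F q v₀ v₀ = 0 ∧
      ¬ ∃ a : F, x.1 *ᵥ v₀ = a • v₀ := by
    by_contra hcon
    push Not at hcon
    have hcon' : ∀ z : Fin n → F, Cfsg.hermForm n F q z z = 0 → ∃ a : F, x.1 *ᵥ z = a • z :=
      fun z hz => hcon z hz
    obtain ⟨a, ha⟩ := NU6_scalar hF (by omega) x.1 hcon'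
    apply hxs
    rw [mem_scalars_iff]
    have ha0 : a ≠ 0 := by
      rintro rfl
      have h0 : x.1 = 0 := by rw [ha, zero_smul]
      have h1 : x.1 * x⁻¹.1 = 1 := by rw [← Units.val_mul, mul_inv_cancel, Units.val_one]
      rw [h0, zero_mul] at h1
      have h2 := congrFun (congrFun h1 ⟨0, by omega⟩) ⟨0, by omega⟩
      simp at h2
    exact ⟨Units.mk0 a ha0, ha⟩
  obtain ⟨w₀, hw₀⟩ : ∃ w₀ : Fin n → F, w₀ = x.1 *ᵥ v₀ := ⟨_, rfl⟩
  have hv₀0 : v₀ ≠ 0 := by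
    rintro rfl
    exact hv₀x ⟨0, by rw [Matrix.mulVec_zero, smul_zero]⟩
  have hw₀w₀ : Cfsg.hermForm n F q w₀ w₀ = 0 := by rw [hw₀, hxp, hv₀v₀]
  have hfvw : Cfsg.hermForm n F q v₀ w₀ = Cfsg.hermForm n F q w₀ v₀ ^ q := hf_conj hF n w₀ v₀
  -- (2) the commutator `c`
  obtain ⟨t, htS, ht, hti⟩ := NU6_tv hF μ hμ v₀ hv₀v₀
  obtain ⟨c, hcdef⟩ : ∃ c : GL (Fin n) F, c = t * x * t⁻¹ * x⁻¹ := ⟨_, rfl⟩
  have hcR : c ∈ R := by
    rw [hcdef]
    have htN : t ∈ Subgroup.normalizer (R : Set (GL (Fin n) F)) := hS htS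
    exact R.mul_mem ((Subgroup.mem_normalizer_iff.mp htN x).mp hxR) (R.inv_mem hxR)
  have hcf : ∀ y, c.1 *ᵥ y = y - (μ * Cfsg.hermForm n F q y w₀) • w₀ +
      (μ * Cfsg.hermForm n F q y v₀ -
        μ ^ 2 * Cfsg.hermForm n F q y w₀ * Cfsg.hermForm n F q w₀ v₀) • v₀ := by
    intro y
    obtain ⟨y', hy'⟩ : ∃ y' : Fin n → F, y' = x⁻¹.1 *ᵥ y := ⟨_, rfl⟩
    have hxy' : x.1 *ᵥ y' = y := by rw [hy', NU6_mulVec_inv]
    have h1 : Cfsg.hermForm n F q y' v₀ = Cfsg.hermForm n F q y w₀ := by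
      rw [← hxp y' v₀, hxy', ← hw₀]
    rw [hcdef, Units.val_mul, Units.val_mul, Units.val_mul, ← Matrix.mulVec_mulVec,
      ← Matrix.mulVec_mulVec, ← Matrix.mulVec_mulVec, ← hy', hti, Matrix.mulVec_sub,
      Matrix.mulVec_smul, hxy', ← hw₀, ht, h1, hf_sub_left, hf_smul_left]
    module
  -- (3) `a ≠ 0`
  obtain ⟨a, ha⟩ : ∃ a : F, a = μ * Cfsg.hermForm n F q w₀ v₀ := ⟨_, rfl⟩
  have ha0 : a ≠ 0 := by
    intro ha0
    rw [ha0] at ha
    have hwv : Cfsg.hermForm n F q w₀ v₀ = 0 := by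
      rcases mul_eq_zero.mp ha.symm with h | h
      · exact absurd h hμ0
      · exact h
    have hvw : Cfsg.hermForm n F q v₀ w₀ = 0 := hf_eq_zero_symm hF n _ _ hwv
    have hcy : ∀ y, c.1 *ᵥ y = y + (-(μ * Cfsg.hermForm n F q y w₀)) • w₀ +
        (μ * Cfsg.hermForm n F q y v₀) • v₀ := by
      intro y
      rw [hcf, hwv]
      module
    have hcv : c.1 *ᵥ v₀ = v₀ := by
      rw [hcy, hvw, hv₀v₀]
      module
    have hcw : c.1 *ᵥ w₀ = w₀ := by
      rw [hcy, hwv, hw₀w₀]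
      module
    have hc1 : ∀ y, (c.1 - 1) *ᵥ y = c.1 *ᵥ y - y := by
      intro y
      rw [Matrix.sub_mulVec, Matrix.one_mulVec]
    have hsq : (c.1 - 1) * (c.1 - 1) = 0 := by
      apply Matrix.mulVec_injective
      funext y
      rw [← Matrix.mulVec_mulVec, Matrix.zero_mulVec, hc1, hc1, Matrix.mulVec_sub]
      nth_rewrite 1 [hcy y]
      rw [Matrix.mulVec_add, Matrix.mulVec_add, Matrix.mulVec_smul, Matrix.mulVec_smul, hcv, hcw]
      rw [hcy y]
      module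
    have hc1' : c = 1 := hu c hcR hsq
    obtain ⟨y, hy⟩ := exists_herm_ne_zero hF v₀ hv₀0
    have h1 := hcy y
    rw [hc1', Units.val_one, Matrix.one_mulVec] at h1
    have h2 : (μ * Cfsg.hermForm n F q y v₀) • v₀ = (μ * Cfsg.hermForm n F q y w₀) • w₀ := by
      have h3 : (0 : Fin n → F) = (-(μ * Cfsg.hermForm n F q y w₀)) • w₀ +
          (μ * Cfsg.hermForm n F q y v₀) • v₀ := by
        have h4 : y + 0 = y + ((-(μ * Cfsg.hermForm n F q y w₀)) • w₀ +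
            (μ * Cfsg.hermForm n F q y v₀) • v₀) := by
          rw [add_zero, ← add_assoc]
          exact h1
        exact add_left_cancel h4
      have h5 : (μ * Cfsg.hermForm n F q y v₀) • v₀ - (μ * Cfsg.hermForm n F q y w₀) • w₀ =
          (0 : Fin n → F) := by
        rw [h3]
        module
      exact sub_eq_zero.mp h5
    have hk0 : μ * Cfsg.hermForm n F q y v₀ ≠ 0 := mul_ne_zero hμ0 hy
    have hk1 : μ * Cfsg.hermForm n F q y w₀ ≠ 0 := by
      intro h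
      rw [h, zero_smul] at h2
      rcases smul_eq_zero.mp h2 with h' | h'
      · exact hk0 h'
      · exact hv₀0 h'
    apply hv₀x
    refine ⟨(μ * Cfsg.hermForm n F q y w₀)⁻¹ * (μ * Cfsg.hermForm n F q y v₀), ?_⟩
    rw [← hw₀, ← smul_smul, h2, smul_smul, inv_mul_cancel₀ hk1, one_smul]
  have hwv0 : Cfsg.hermForm n F q w₀ v₀ ≠ 0 := by
    intro h
    rw [h, mul_zero] at ha
    exact ha0 ha
  have hvw0 : Cfsg.hermForm n F q v₀ w₀ ≠ 0 := by
    rw [hfvw]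
    exact pow_ne_zero _ hwv0
  -- (4) the action of `c`
  have haq : a ^ q = -(μ * Cfsg.hermForm n F q v₀ w₀) := by
    rw [ha, mul_pow, hμq, hfvw]
    ring
  have hcv : c.1 *ᵥ v₀ = (1 + a ^ (q + 1)) • v₀ + a ^ q • w₀ := by
    rw [hcf, hv₀v₀]
    have e1 : μ * Cfsg.hermForm n F q v₀ w₀ = -a ^ q := by rw [haq]; ring
    have e2 : μ * 0 - μ ^ 2 * Cfsg.hermForm n F q v₀ w₀ * Cfsg.hermForm n F q w₀ v₀ =
        a ^ (q + 1) := by
      rw [pow_succ a q, haq, ha]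
      ring
    rw [e1, e2]
    module
  have hcw : c.1 *ᵥ w₀ = w₀ + a • v₀ := by
    rw [hcf, hw₀w₀]
    have e1 : μ * Cfsg.hermForm n F q w₀ v₀ - μ ^ 2 * 0 * Cfsg.hermForm n F q w₀ v₀ = a := by
      rw [ha]
      ring
    rw [e1]
    module
  have hcfix : ∀ y, Cfsg.hermForm n F q y v₀ = 0 → Cfsg.hermForm n F q y w₀ = 0 →
      c.1 *ᵥ y = y := by
    intro y h1 h2
    rw [hcf, h1, h2]
    module
  -- (5) `c` is central in `R` (new argument, valid for `n ≥ 4`)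
  have hli2 : ∀ α β : F, α • v₀ + β • w₀ = 0 → α = 0 ∧ β = 0 := by
    intro α β h
    have h1 : Cfsg.hermForm n F q (α • v₀ + β • w₀) v₀ = 0 := by
      rw [h, hf_zero_left]
    have h2 : Cfsg.hermForm n F q (α • v₀ + β • w₀) w₀ = 0 := by
      rw [h, hf_zero_left]
    rw [hf_add_left, hf_smul_left, hf_smul_left, hv₀v₀] at h1
    rw [hf_add_left, hf_smul_left, hf_smul_left, hw₀w₀] at h2
    have hβ : β = 0 := by
      have h3 : β * Cfsg.hermForm n F q w₀ v₀ = 0 := by linear_combination h1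
      rcases mul_eq_zero.mp h3 with h' | h'
      · exact h'
      · exact absurd h' hwv0
    have hα : α = 0 := by
      have h3 : α * Cfsg.hermForm n F q v₀ w₀ = 0 := by linear_combination h2
      rcases mul_eq_zero.mp h3 with h' | h'
      · exact h'
      · exact absurd h' hvw0
    exact ⟨hα, hβ⟩
  have hcomm : ∀ y ∈ R, c * y = y * c := by
    intro y hy
    have h1 : ⁅c, y⁆ ∈ scalars (Fin n) F := hc (Subgroup.commutator_mem_commutator hcR hy)
    obtain ⟨ζ, hζ⟩ := (mem_scalars_iff _).mp h1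
    have h2 : (c * y).1 = (ζ : F) • (y * c).1 := by
      have h3 : c * y = ⁅c, y⁆ * (y * c) := by
        rw [commutatorElement_def]
        group
      rw [h3, Units.val_mul, hζ, Matrix.smul_mul, Matrix.one_mul]
    have hζ1 : (ζ : F) = 1 := by
      by_contra hζne
      obtain ⟨φ, hφ⟩ : ∃ φ : Fin 2 → ((Fin n → F) →ₗ[F] F),
          φ = ![Cfsg.Agent.Lib.Helper93.hl q n v₀, Cfsg.Agent.Lib.Helper93.hl q n w₀] :=
        ⟨_, rfl⟩
      obtain ⟨U, hU⟩ : ∃ U : Submodule F (Fin n → F), U = LinearMap.ker (LinearMap.pi φ) :=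
        ⟨_, rfl⟩
      have hUmem : ∀ z ∈ U, Cfsg.hermForm n F q z v₀ = 0 ∧ Cfsg.hermForm n F q z w₀ = 0 := by
        intro z hz
        rw [hU, LinearMap.mem_ker] at hz
        have e0 := congrFun hz 0
        have e1 := congrFun hz 1
        rw [hφ] at e0 e1
        exact ⟨e0, e1⟩
      have hUfr : 2 ≤ Module.finrank F U := by
        rw [hU]
        exact su4nu64_ker2 hn φ
      obtain ⟨S, hS⟩ : ∃ S : Submodule F (Fin n → F),
          S = Submodule.span F (Set.range ![v₀, w₀]) := ⟨_, rfl⟩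
      have hSfr : Module.finrank F S ≤ 2 := by
        rw [hS]
        have h3 := finrank_range_le_card (R := F) ![v₀, w₀]
        simpa [Set.finrank] using h3
      have hvS : v₀ ∈ S := by
        rw [hS]
        exact Submodule.subset_span ⟨0, rfl⟩
      have hwS : w₀ ∈ S := by
        rw [hS]
        exact Submodule.subset_span ⟨1, rfl⟩
      have hcS : ∀ x : Fin n → F, c.1 *ᵥ x - x ∈ S := by
        intro x
        have h3 : c.1 *ᵥ x - x = (-(μ * Cfsg.hermForm n F q x w₀)) • w₀ +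
            (μ * Cfsg.hermForm n F q x v₀ -
              μ ^ 2 * Cfsg.hermForm n F q x w₀ * Cfsg.hermForm n F q w₀ v₀) • v₀ := by
          rw [hcf]
          module
        rw [h3]
        exact S.add_mem (S.smul_mem _ hwS) (S.smul_mem _ hvS)
      have hcy : ∀ z ∈ U, c.1 *ᵥ (y.1 *ᵥ z) = (ζ : F) • (y.1 *ᵥ z) := by
        intro z hz
        obtain ⟨hz1, hz2⟩ := hUmem z hz
        have h3 : (c * y).1 *ᵥ z = c.1 *ᵥ (y.1 *ᵥ z) := by
          rw [Units.val_mul, ← Matrix.mulVec_mulVec]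
        have h4 : (y * c).1 *ᵥ z = y.1 *ᵥ z := by
          rw [Units.val_mul, ← Matrix.mulVec_mulVec, hcfix _ hz1 hz2]
        rw [← h3, h2, Matrix.smul_mulVec, h4]
      have hyS : ∀ z ∈ U, y.1 *ᵥ z ∈ S := by
        intro z hz
        have h3 := hcS (y.1 *ᵥ z)
        rw [hcy z hz] at h3
        have h4 : (ζ : F) • (y.1 *ᵥ z) - y.1 *ᵥ z = ((ζ : F) - 1) • (y.1 *ᵥ z) := by
          rw [sub_smul, one_smul]
        rw [h4] at h3
        exact (Submodule.smul_mem_iff S (sub_ne_zero.mpr hζne)).mp h3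
      have hinj : Function.Injective (Matrix.mulVecLin y.1) := by
        intro a' b' hab
        have h3 : y.1 *ᵥ a' = y.1 *ᵥ b' := hab
        have h4 := NU6_inv_mulVec y a'
        rw [h3, NU6_inv_mulVec] at h4
        exact h4.symm
      have hle : U.map (Matrix.mulVecLin y.1) ≤ S := by
        rintro _ ⟨z, hz, rfl⟩
        exact hyS z hz
      have hfr : Module.finrank F (U.map (Matrix.mulVecLin y.1)) = Module.finrank F U :=
        (Submodule.equivMapOfInjective (Matrix.mulVecLin y.1) hinj U).finrank_eq.symm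
      have heq : U.map (Matrix.mulVecLin y.1) = S :=
        Submodule.eq_of_le_of_finrank_le hle (by rw [hfr]; exact hSfr.trans hUfr)
      have hv3 : v₀ ∈ U.map (Matrix.mulVecLin y.1) := by
        rw [heq]
        exact hvS
      obtain ⟨z, hz, hzv⟩ := hv3
      have hzv' : y.1 *ᵥ z = v₀ := hzv
      have h5 := hcy z hz
      rw [hzv', hcv] at h5
      have h6 : (1 + a ^ (q + 1) - (ζ : F)) • v₀ + a ^ q • w₀ = 0 := by
        have h7 : (1 + a ^ (q + 1)) • v₀ + a ^ q • w₀ - (ζ : F) • v₀ = 0 := sub_eq_zero.mpr h5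
        rw [← h7]
        module
      obtain ⟨-, h8⟩ := hli2 _ _ h6
      exact ha0 (pow_eq_zero_iff (herm_q_ne_zero hF) |>.mp h8)
    apply Units.ext
    rw [h2, hζ1, one_smul]
  -- (6) a third isotropic vector
  obtain ⟨s, hs⟩ : ∃ s : F, s = (Cfsg.hermForm n F q w₀ v₀)⁻¹ := ⟨_, rfl⟩
  have hs0 : s ≠ 0 := by
    rw [hs]
    exact inv_ne_zero hwv0
  have hsw1 : Cfsg.hermForm n F q (s • w₀) (s • w₀) = 0 := by
    rw [hf_smul_left, hf_smul_right, hw₀w₀]
    ring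
  have hsw2 : Cfsg.hermForm n F q v₀ (s • w₀) = 1 := by
    rw [hf_smul_right, hs, inv_pow, ← hfvw, inv_mul_cancel₀ hvw0]
  obtain ⟨z₀, hz₀0, hz₀z₀, hz₀v, hz₀sw⟩ :=
    exists_iso_perp_hyp hF (by omega) v₀ (s • w₀) hv₀v₀ hsw1 hsw2
  have hz₀w : Cfsg.hermForm n F q z₀ w₀ = 0 := by
    rw [hf_smul_right] at hz₀sw
    rcases mul_eq_zero.mp hz₀sw with h | h
    · exact absurd (pow_eq_zero_iff (herm_q_ne_zero hF) |>.mp h) hs0
    · exact h
  have hvz₀ : Cfsg.hermForm n F q v₀ z₀ = 0 := hf_eq_zero_symm hF n _ _ hz₀v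
  have hwz₀ : Cfsg.hermForm n F q w₀ z₀ = 0 := hf_eq_zero_symm hF n _ _ hz₀w
  have hli : ∀ α β γ : F, α • v₀ + β • w₀ + γ • z₀ = 0 → α = 0 ∧ β = 0 ∧ γ = 0 := by
    intro α β γ h
    have h1 : Cfsg.hermForm n F q (α • v₀ + β • w₀ + γ • z₀) v₀ = 0 := by
      rw [h, hf_zero_left]
    have h2 : Cfsg.hermForm n F q (α • v₀ + β • w₀ + γ • z₀) w₀ = 0 := by
      rw [h, hf_zero_left]
    rw [hf_add_left, hf_add_left, hf_smul_left, hf_smul_left, hf_smul_left, hv₀v₀, hz₀v] at h1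
    rw [hf_add_left, hf_add_left, hf_smul_left, hf_smul_left, hf_smul_left, hw₀w₀, hz₀w] at h2
    have hβ : β = 0 := by
      have h3 : β * Cfsg.hermForm n F q w₀ v₀ = 0 := by linear_combination h1
      rcases mul_eq_zero.mp h3 with h' | h'
      · exact h'
      · exact absurd h' hwv0
    have hα : α = 0 := by
      have h3 : α * Cfsg.hermForm n F q v₀ w₀ = 0 := by linear_combination h2
      rcases mul_eq_zero.mp h3 with h' | h'
      · exact h'
      · exact absurd h' hvw0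
    refine ⟨hα, hβ, ?_⟩
    rw [hα, hβ, zero_smul, zero_smul, zero_add, zero_add] at h
    rcases smul_eq_zero.mp h with h' | h'
    · exact h'
    · exact absurd h' hz₀0
  have huu : Cfsg.hermForm n F q (v₀ + z₀) (v₀ + z₀) = 0 := by
    rw [hf_add_left, hf_add_right hF, hf_add_right hF, hv₀v₀, hvz₀, hz₀v, hz₀z₀]
    ring
  obtain ⟨g, hgS, hg, hgi⟩ := NU6_tv hF μ hμ (v₀ + z₀) huu
  have hgv : g.1 *ᵥ v₀ = v₀ := by
    rw [hg, hf_add_right hF, hv₀v₀, hvz₀]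
    module
  have hgw : g.1 *ᵥ w₀ = w₀ + a • v₀ + a • z₀ := by
    rw [hg, hf_add_right hF, hwz₀, add_zero, ← ha]
    module
  -- (7) the conjugate `c' = g c g⁻¹`
  obtain ⟨c', hc'def⟩ : ∃ c' : GL (Fin n) F, c' = g * c * g⁻¹ := ⟨_, rfl⟩
  have hc'R : c' ∈ R := by
    rw [hc'def]
    have hgN : g ∈ Subgroup.normalizer (R : Set (GL (Fin n) F)) := hS hgS
    exact (Subgroup.mem_normalizer_iff.mp hgN c).mp hcR
  have hcc' : c * c' = c' * c := hcomm c' hc'R
  have hc'f : ∀ y, c'.1 *ᵥ y = g.1 *ᵥ (c.1 *ᵥ (g⁻¹.1 *ᵥ y)) := by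
    intro y
    rw [hc'def, Units.val_mul, Units.val_mul, ← Matrix.mulVec_mulVec, ← Matrix.mulVec_mulVec]
  obtain ⟨m₁, hm₁⟩ : ∃ m₁ : Fin n → F, m₁ = g.1 *ᵥ (a⁻¹ • w₀) := ⟨_, rfl⟩
  have hc'm : c'.1 *ᵥ m₁ = m₁ + v₀ := by
    rw [hc'f, hm₁, NU6_inv_mulVec, Matrix.mulVec_smul, hcw, Matrix.mulVec_smul,
      Matrix.mulVec_smul, Matrix.mulVec_add, Matrix.mulVec_smul, hgv, smul_add, smul_smul,
      inv_mul_cancel₀ ha0, one_smul]
  obtain ⟨p, hp⟩ : ∃ p : Fin n → F, p = g⁻¹.1 *ᵥ (c.1 *ᵥ m₁) := ⟨_, rfl⟩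
  have hgp : g.1 *ᵥ p = c.1 *ᵥ m₁ := by rw [hp, NU6_mulVec_inv]
  have h8 : c.1 *ᵥ m₁ + c.1 *ᵥ v₀ = g.1 *ᵥ (c.1 *ᵥ p) := by
    have h9 : (c * c').1 *ᵥ m₁ = (c' * c).1 *ᵥ m₁ := by rw [hcc']
    rw [Units.val_mul, Units.val_mul, ← Matrix.mulVec_mulVec, ← Matrix.mulVec_mulVec, hc'm,
      Matrix.mulVec_add, hc'f, ← hp] at h9
    exact h9
  obtain ⟨β, hβ⟩ : ∃ β : F, β = -(μ * Cfsg.hermForm n F q p w₀) := ⟨_, rfl⟩
  obtain ⟨α, hα⟩ : ∃ α : F, α = μ * Cfsg.hermForm n F q p v₀ -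
      μ ^ 2 * Cfsg.hermForm n F q p w₀ * Cfsg.hermForm n F q w₀ v₀ := ⟨_, rfl⟩
  have hcp : c.1 *ᵥ p = p + β • w₀ + α • v₀ := by
    rw [hcf, hβ, hα]
    module
  have h10 : c.1 *ᵥ v₀ = β • (w₀ + a • v₀ + a • z₀) + α • v₀ := by
    have h11 : c.1 *ᵥ m₁ + c.1 *ᵥ v₀ = c.1 *ᵥ m₁ + (β • (w₀ + a • v₀ + a • z₀) + α • v₀) := by
      rw [h8, hcp, Matrix.mulVec_add, Matrix.mulVec_add, Matrix.mulVec_smul, Matrix.mulVec_smul,
        hgp, hgw, hgv, add_assoc]
    exact add_left_cancel h11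
  -- (8) comparison of coefficients
  rw [hcv] at h10
  have h12 : (1 + a ^ (q + 1) - β * a - α) • v₀ + (a ^ q - β) • w₀ + (-(β * a)) • z₀ = 0 := by
    have h13 : (1 + a ^ (q + 1)) • v₀ + a ^ q • w₀ -
        (β • (w₀ + a • v₀ + a • z₀) + α • v₀) = 0 := sub_eq_zero.mpr h10
    rw [← h13]
    module
  obtain ⟨-, h14, h15⟩ := hli _ _ _ h12
  have hβ0 : β = 0 := by
    rcases mul_eq_zero.mp (neg_eq_zero.mp h15) with h | h
    · exact h
    · exact absurd h ha0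
  rw [hβ0, sub_zero] at h14
  exact ha0 (pow_eq_zero_iff (herm_q_ne_zero hF) |>.mp h14)


/-- NU64: `SU_4(q)` does not normalise a non-scalar subgroup of `GU_4(q)` with scalar
commutators (and no non-trivial quadratic elements): `NU6` for `n = 4`. -/
theorem NU64 (hF : Fintype.card F = q ^ 2) (R : Subgroup (GL (Fin 4) F))
    (hR : R ≤ Cfsg.GU 4 F q) (hc : ⁅R, R⁆ ≤ scalars (Fin 4) F)
    (hns : ¬ R ≤ scalars (Fin 4) F)
    (hu : ∀ y ∈ R, (y.1 - 1) * (y.1 - 1) = 0 → y = 1) :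
    ¬ (Cfsg.GU 4 F q ⊓ specialLinear (Fin 4) F) ≤ subgroupNormalizer R :=
  su4nu64_gen hF (le_refl 4) R hR hc hns hu

end Cfsg.Agent.Lib.Helper61.SU4NU64
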