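import Mathlib
import Cfsg.Agent.Lib.Helper61.TT5Defs

/-!
# S5365, piece P3b: the affine plane lemma (helper61)

For involutions `d, d', g` with `d, d', g, d d' d` pairwise braided, `p = d d'` and `q = d g`
generate a quotient of the Heisenberg group of order 27: the commutator `c = [p, q]` is central.
-/

set_option autoImplicit false

namespace Cfsg.Agent.Lib.Helper61.TT5

variable {G : Type*} [Group G]

/-- in a group generated by `p`, `q` with `p³ = q³ = (pq)³ = (qp⁻¹)³ = 1`, `q` commutes with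
`[p, q]` -/
theorem heis_comm {p q : G} (hp : p * p * p = 1) (hq : q * q * q = 1)
    (h1 : p * q * (p * q) * (p * q) = 1) (h2 : q * p⁻¹ * (q * p⁻¹) * (q * p⁻¹) = 1) :
    q * (p * q * p⁻¹ * q⁻¹) = (p * q * p⁻¹ * q⁻¹) * q := by
  have e1 : q * p * q = p⁻¹ * q⁻¹ * p⁻¹ := by
    have h : q * p * q = p⁻¹ * (p * q * (p * q) * (p * q)) * q⁻¹ * p⁻¹ := by group
    rw [h, h1]
    group
  have e2 : p⁻¹ * q * p⁻¹ = q⁻¹ * p * q⁻¹ := by
    have h : p⁻¹ * q * p⁻¹ = q⁻¹ * (q * p⁻¹ * (q * p⁻¹) * (q * p⁻¹)) * p * q⁻¹ := by group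
    rw [h, h2]
    group
  have e3 : p⁻¹ * p⁻¹ = p := by
    have h : p⁻¹ * p⁻¹ * (p * p * p) = p := by group
    rw [hp, mul_one] at h
    exact h
  have e4 : q⁻¹ * q⁻¹ = q := by
    have h : q⁻¹ * q⁻¹ * (q * q * q) = q := by group
    rw [hq, mul_one] at h
    exact h
  calc q * (p * q * p⁻¹ * q⁻¹) = (q * p * q) * p⁻¹ * (q⁻¹ * q⁻¹) * q := by group
    _ = (p⁻¹ * q⁻¹ * p⁻¹) * p⁻¹ * q * q := by rw [e1, e4]
    _ = p⁻¹ * q⁻¹ * (p⁻¹ * p⁻¹) * q * q := by group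
    _ = p⁻¹ * q⁻¹ * p * q * q := by rw [e3]
    _ = p⁻¹ * (q⁻¹ * p * q⁻¹) * (q * q) * q := by group
    _ = p⁻¹ * (p⁻¹ * q * p⁻¹) * (q * q) * q := by rw [← e2]
    _ = (p⁻¹ * p⁻¹) * q * p⁻¹ * (q * q * q) := by group
    _ = p * q * p⁻¹ * 1 := by rw [e3, hq]
    _ = (p * q * p⁻¹ * q⁻¹) * q := by group

/-- braided involutions have product of order dividing 3 -/
theorem cube_of_braid {x y : G} (hx : x * x = 1) (hy : y * y = 1) (h : x * y * x = y * x * y) :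
    x * y * (x * y) * (x * y) = 1 := by
  have hx' : ∀ z : G, x * (x * z) = z := fun z => by rw [← mul_assoc, hx, one_mul]
  have hy' : ∀ z : G, y * (y * z) = z := fun z => by rw [← mul_assoc, hy, one_mul]
  calc x * y * (x * y) * (x * y) = (x * y * x) * y * x * y := by simp [mul_assoc]
    _ = (y * x * y) * y * x * y := by rw [h]
    _ = 1 := by simp [mul_assoc, hx, hx', hy, hy']

/-- PIECE P3b -/
theorem ap : APProp G := by
  intro d d' g hd hd' hg b1 b2 b3 b4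
  have hdi : d⁻¹ = d := inv_eq_of_mul_eq_one_left hd
  have hd'i : d'⁻¹ = d' := inv_eq_of_mul_eq_one_left hd'
  have hgi : g⁻¹ = g := inv_eq_of_mul_eq_one_left hg
  have hdd' : ∀ z : G, d * (d * z) = z := fun z => by rw [← mul_assoc, hd, one_mul]
  have hd'd' : ∀ z : G, d' * (d' * z) = z := fun z => by rw [← mul_assoc, hd', one_mul]
  have hgg' : ∀ z : G, g * (g * z) = z := fun z => by rw [← mul_assoc, hg, one_mul]
  obtain ⟨p, hp⟩ : ∃ p : G, p = d * d' := ⟨_, rfl⟩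
  obtain ⟨q, hq⟩ : ∃ q : G, q = d * g := ⟨_, rfl⟩
  have hpi : p⁻¹ = d' * d := by rw [hp, mul_inv_rev, hdi, hd'i]
  have hqi : q⁻¹ = g * d := by rw [hq, mul_inv_rev, hdi, hgi]
  have hgq : g = d * q := by rw [hq, ← mul_assoc, hd, one_mul]
  -- conjugation by `d` inverts `p` and `q`
  have hdp : d * p * d = p⁻¹ := by rw [hpi, hp]; simp [mul_assoc, hdd']
  have hdq : d * q * d = q⁻¹ := by rw [hqi, hq]; simp [mul_assoc, hdd']
  have hdpi : d * p⁻¹ * d = p := by rw [hpi, hp]; simp [mul_assoc, hd]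
  have hdqi : d * q⁻¹ * d = q := by rw [hqi, hq]; simp [mul_assoc, hd]
  -- the four cubes
  have hp3 : p * p * p = 1 := by
    have h := cube_of_braid hd hd' b1
    rw [← hp] at h
    simpa [mul_assoc] using h
  have hq3 : q * q * q = 1 := by
    have h := cube_of_braid hd hg b2
    rw [← hq] at h
    simpa [mul_assoc] using h
  have h1 : p * q * (p * q) * (p * q) = 1 := by
    have hx : (d * d' * d) * (d * d' * d) = 1 := by simp [mul_assoc, hd, hdd', hd'd']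
    have h := cube_of_braid hx hg b4
    have e : p * q = d * d' * d * g := by rw [hp, hq]; simp [mul_assoc]
    rw [e]
    exact h
  have h2 : q * p⁻¹ * (q * p⁻¹) * (q * p⁻¹) = 1 := by
    have h := cube_of_braid hg hd' b3.symm
    have e : q * p⁻¹ = d * (g * d') * d⁻¹ := by rw [hq, hpi, hdi]; simp [mul_assoc]
    rw [e]
    have e2 : d * (g * d') * d⁻¹ * (d * (g * d') * d⁻¹) * (d * (g * d') * d⁻¹) =
        d * (g * d' * (g * d') * (g * d')) * d⁻¹ := by group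
    rw [e2, h]
    group
  have h1' : q * p * (q * p) * (q * p) = 1 := by
    have e : q * p * (q * p) * (q * p) = p⁻¹ * (p * q * (p * q) * (p * q)) * p := by group
    rw [e, h1]
    group
  have h2' : p * q⁻¹ * (p * q⁻¹) * (p * q⁻¹) = 1 := by
    have e : p * q⁻¹ * (p * q⁻¹) * (p * q⁻¹) = (q * p⁻¹ * (q * p⁻¹) * (q * p⁻¹))⁻¹ := by group
    rw [e, h2, inv_one]
  -- centrality of the commutator
  obtain ⟨c, hc⟩ : ∃ c : G, c = p * q * p⁻¹ * q⁻¹ := ⟨_, rfl⟩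
  have cq : q * c = c * q := by rw [hc]; exact heis_comm hp3 hq3 h1 h2
  have hci : c⁻¹ = q * p * q⁻¹ * p⁻¹ := by rw [hc]; group
  have cp0 : p * c⁻¹ = c⁻¹ * p := by rw [hci]; exact heis_comm hq3 hp3 h1' h2'
  have cp : p * c = c * p := by
    calc p * c = c * (c⁻¹ * p) * c := by group
      _ = c * (p * c⁻¹) * c := by rw [cp0]
      _ = c * p := by group
  have hcq : q⁻¹ * c * q = c := by
    rw [mul_assoc, ← cq, ← mul_assoc, inv_mul_cancel, one_mul]
  have hcp : p⁻¹ * c * p = c := by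
    rw [mul_assoc, ← cp, ← mul_assoc, inv_mul_cancel, one_mul]
  have hciq : q⁻¹ * c⁻¹ * q = c⁻¹ := by
    have h : q⁻¹ * c⁻¹ * q = (q⁻¹ * c * q)⁻¹ := by group
    rw [h, hcq]
  have hcip : p⁻¹ * c⁻¹ * p = c⁻¹ := by
    have h : p⁻¹ * c⁻¹ * p = (p⁻¹ * c * p)⁻¹ := by group
    rw [h, hcp]
  have hdc : d * c * d = c := by
    have e : d * c * d⁻¹ = (d * p * d⁻¹) * (d * q * d⁻¹) * (d * p⁻¹ * d⁻¹) * (d * q⁻¹ * d⁻¹) := by
      rw [hc]; group
    rw [hdi] at e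
    rw [e, hdp, hdq, hdpi, hdqi]
    -- p⁻¹ q⁻¹ p q = c
    have e2 : p⁻¹ * q⁻¹ * p * q = p⁻¹ * (q⁻¹ * (p * q * p⁻¹ * q⁻¹) * q) * p := by group
    rw [e2, ← hc, hcq, hcp]
  have cd : d * c = c * d := by
    calc d * c = (d * c * d) * d := by simp [mul_assoc, hd]
      _ = c * d := by rw [hdc]
  have hdci : d * c⁻¹ * d = c⁻¹ := by
    have e : d * c⁻¹ * d⁻¹ = (d * c * d⁻¹)⁻¹ := by group
    rw [hdi] at e
    rw [e, hdc]
  have cg : g * c = c * g := by
    calc g * c = d * (q * c) := by rw [hgq, mul_assoc]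
      _ = d * (c * q) := by rw [cq]
      _ = (d * c) * q := by rw [mul_assoc]
      _ = c * (d * q) := by rw [cd, mul_assoc]
      _ = c * g := by rw [← hgq]
  -- c³ = 1
  have hpc : ∀ z : G, p * (c * z) = c * (p * z) := fun z => by
    rw [← mul_assoc, cp, mul_assoc]
  have e0 : p * q = c * (q * p) := by rw [hc]; group
  have e0' : ∀ z : G, p * (q * z) = c * (q * (p * z)) := fun z => by
    rw [← mul_assoc, e0]; simp [mul_assoc]
  have c3 : c * c * c = 1 := by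
    have h : p * (p * (p * q)) = c * (c * (c * (q * (p * (p * p))))) := by
      rw [e0, hpc, hpc, e0', hpc, e0']
    have h' : 1 * q = c * c * c * q := by
      calc 1 * q = p * p * p * q := by rw [hp3]
        _ = p * (p * (p * q)) := by simp [mul_assoc]
        _ = c * (c * (c * (q * (p * (p * p))))) := h
        _ = c * c * c * q := by rw [← mul_assoc p p p, hp3]; simp [mul_assoc]
    exact (mul_right_cancel h').symm
  have e3 : p⁻¹ * p⁻¹ = p := by
    have h : p⁻¹ * p⁻¹ * (p * p * p) = p := by group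
    rw [hp3, mul_one] at h
    exact h
  -- u = c⁻¹ p
  have hu : g * ((d * d') * g * (d * d')⁻¹) = c⁻¹ * p := by
    rw [← hp]
    have hA : g * (p * g * p⁻¹) = (d * q * d) * (d * p * d) * q * p⁻¹ := by
      rw [hgq]
      simp [mul_assoc, hdd']
    rw [hA, hdq, hdp]
    have e5 : p⁻¹ * q * p * q⁻¹ = c⁻¹ := by
      have h : p⁻¹ * q * p * q⁻¹ = p⁻¹ * (p * q * p⁻¹ * q⁻¹)⁻¹ * p := by group
      rw [h, ← hc, hcip]
    calc q⁻¹ * p⁻¹ * q * p⁻¹ = q⁻¹ * (p⁻¹ * q * p * q⁻¹) * q * (p⁻¹ * p⁻¹) := by group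
      _ = (q⁻¹ * c⁻¹ * q) * p := by rw [e5, e3]
      _ = c⁻¹ * p := by rw [hciq]
  have hdud : d * (c⁻¹ * p) * d = c⁻¹ * p⁻¹ := by
    have e : d * (c⁻¹ * p) * d⁻¹ = (d * c⁻¹ * d⁻¹) * (d * p * d⁻¹) := by group
    rw [hdi] at e
    rw [e, hdci, hdp]
  have hw : (c⁻¹ * p) * (c⁻¹ * p⁻¹) = c⁻¹ * c⁻¹ := by
    calc (c⁻¹ * p) * (c⁻¹ * p⁻¹) = c⁻¹ * (p * c⁻¹) * p⁻¹ := by group
      _ = c⁻¹ * (c⁻¹ * p) * p⁻¹ := by rw [cp0]
      _ = c⁻¹ * c⁻¹ := by group
  rw [hu, hdud, hw]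
  refine ⟨?_, ?_⟩
  · have h : c⁻¹ * c⁻¹ * g = (c * c)⁻¹ * g := by group
    have h' : g * (c⁻¹ * c⁻¹) = g * (c * c)⁻¹ := by group
    rw [h, h']
    have h3 : g * (c * c) = (c * c) * g := by
      rw [← mul_assoc, cg, mul_assoc, cg, mul_assoc]
    calc (c * c)⁻¹ * g = (c * c)⁻¹ * (g * (c * c)) * (c * c)⁻¹ := by group
      _ = (c * c)⁻¹ * ((c * c) * g) * (c * c)⁻¹ := by rw [h3]
      _ = g * (c * c)⁻¹ := by group
  · intro h
    have hc1 : c = 1 := by
      calc c = (c⁻¹ * c⁻¹) * (c * c * c) := by group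
        _ = 1 := by rw [h, c3, one_mul]
    rw [hc1, inv_one, one_mul, hp]

end Cfsg.Agent.Lib.Helper61.TT5
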