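import Mathlib
import Cfsg.Agent.Lib.Helper61.TT5Defs
import Cfsg.Agent.Lib.Helper61.TT5Basic

/-!
# S5365 piece P5: the abelian normal 3-subgroup generated by products of twins (helper61)
-/

set_option autoImplicit false

namespace Cfsg.Agent.Lib.Helper61.TT5

variable {G : Type*} [Group G] {D : Set G}

/-- the product of two distinct points of the line `{p, q, pqp}` is `pq` or `qp` -/
theorem line_prod {p q u v : G} (hp : p * p = 1) (hq : q * q = 1)
    (hbr : p * q * p = q * p * q)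
    (hu : u = p ∨ u = q ∨ u = p * q * p) (hv : v = p ∨ v = q ∨ v = p * q * p) (huv : u ≠ v) :
    u * v = p * q ∨ u * v = q * p := by
  have hp' : ∀ x : G, p * (p * x) = x := fun x => by rw [← mul_assoc, hp, one_mul]
  have hq' : ∀ x : G, q * (q * x) = x := fun x => by rw [← mul_assoc, hq, one_mul]
  rcases hu with rfl | rfl | rfl <;> rcases hv with rfl | rfl | rfl
  · exact absurd rfl huv
  · exact Or.inl rfl
  · right
    simp [mul_assoc, hp']
  · exact Or.inr rfl
  · exact absurd rfl huv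
  · left
    rw [hbr]
    simp [mul_assoc, hq']
  · left
    simp [mul_assoc, hp]
  · right
    rw [hbr]
    simp [mul_assoc, hq]
  · exact absurd rfl huv

theorem cube_braid {x y : G} (hx : x * x = 1) (hy : y * y = 1) (h : x * y * x = y * x * y) :
    (x * y) * (x * y) * (x * y) = 1 := by
  have hx' : ∀ z : G, x * (x * z) = z := fun z => by rw [← mul_assoc, hx, one_mul]
  have hy' : ∀ z : G, y * (y * z) = z := fun z => by rw [← mul_assoc, hy, one_mul]
  calc x * y * (x * y) * (x * y) = (x * y * x) * (y * x * y) := by simp [mul_assoc]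
    _ = (x * y * x) * (x * y * x) := by rw [← h]
    _ = 1 := by simp [mul_assoc, hx, hy, hx', hy']

theorem SameNb.symm' {x y : G} (h : SameNb D x y) : SameNb D y x := fun z => (h z).symm

theorem SameNb.trans' {x y z : G} (h : SameNb D x y) (h' : SameNb D y z) : SameNb D x z :=
  fun w => (h w).trans (h' w)

/-- the twin class of `y` lies in the line `{y, y', y y' y}` -/
theorem class_line (hT : TS D) {y y' z : G} (hy : y ∈ D) (hy' : y' ∈ D) (hne : y ≠ y')
    (hN : SameNb D y y') (hz : z ∈ D) (hzN : SameNb D y z) :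
    z = y ∨ z = y' ∨ z = y * y' * y := by
  obtain ⟨a, b, ha, -, -, -⟩ := hT.line y hy
  have hk := k33 hT hy hy' hne hN ha
  exact (hk.2.1 z).mp (Nb.symm hz ((hzN a).mp ha))

theorem sameNb_conj (hT : TS D) (g : G) {y y' : G} (hN : SameNb D y y') :
    SameNb D (g * y * g⁻¹) (g * y' * g⁻¹) := by
  have key : ∀ {u v : G}, SameNb D u v → ∀ z, Nb D (g * u * g⁻¹) z → Nb D (g * v * g⁻¹) z := by
    intro u v huv z hz
    have h1 := nb_conj hT g⁻¹ hz
    have e1 : g⁻¹ * (g * u * g⁻¹) * g⁻¹⁻¹ = u := by group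
    rw [e1] at h1
    have h2 := nb_conj hT g ((huv _).mp h1)
    have e2 : g * (g⁻¹ * z * g⁻¹⁻¹) * g⁻¹ = z := by group
    rwa [e2] at h2
  intro z
  exact ⟨key hN z, key hN.symm' z⟩

/-- conjugation by `y1 * y1'` preserves the twin class of a point `e` off the line of `y1` and
not adjacent to it -/
theorem conj_class (hT : TS D) (hNI : NIProp D) {y1 y1' a1 e : G} (h1 : y1 ∈ D) (h1' : y1' ∈ D)
    (hne1 : y1 ≠ y1') (hN1 : SameNb D y1 y1') (ha1 : Nb D y1 a1) (he : e ∈ D)
    (heL : ¬ (e = y1 ∨ e = y1' ∨ e = y1 * y1' * y1)) (heN : ¬ Nb D y1 e) :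
    SameNb D e ((y1 * y1') * e * (y1 * y1')⁻¹) := by
  have hk := k33 hT h1 h1' hne1 hN1 ha1
  have hax : Nb D a1 y1 := Nb.symm h1 ha1
  have hay : Nb D a1 y1' := Nb.symm h1' ((hN1 a1).mp ha1)
  have c1 : ¬ Commute a1 e := by
    intro hc
    by_cases hea : e = a1
    · exact heN (hea ▸ ha1)
    · exact heL ((hk.2.1 e).mp ⟨he, hea, hc⟩)
  have c2 : ¬ Commute y1 e := by
    intro hc
    by_cases hey : e = y1
    · exact heL (Or.inl hey)
    · exact heN ⟨he, hey, hc⟩
  have c3 : ¬ Commute y1' e := by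
    intro hc
    by_cases hey : e = y1'
    · exact heL (Or.inr (Or.inl hey))
    · exact heN ((hN1 e).mpr ⟨he, hey, hc⟩)
  have c4 : ¬ Commute (y1 * y1' * y1) e := by
    intro hc
    by_cases hey : e = y1 * y1' * y1
    · exact heL (Or.inr (Or.inr hey))
    · exact heN ((hk.2.2 e).mpr ⟨he, hey, hc⟩)
  exact (hNI a1 y1 y1' e ha1.1 hax hay (fun h => hk.1 h) he c1 c2 c3 c4).2

theorem gen_comm (hT : TS D) (hNI : NIProp D) {y1 y1' y2 y2' : G} (h1 : y1 ∈ D) (h1' : y1' ∈ D)
    (h2 : y2 ∈ D) (h2' : y2' ∈ D) (hN1 : SameNb D y1 y1') (hN2 : SameNb D y2 y2') :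
    (y1 * y1') * (y2 * y2') = (y2 * y2') * (y1 * y1') := by
  by_cases hne1 : y1 = y1'
  · subst hne1
    rw [hT.sq y1 h1, one_mul, mul_one]
  by_cases hne2 : y2 = y2'
  · subst hne2
    rw [hT.sq y2 h2, one_mul, mul_one]
  obtain ⟨a1, -, ha1, -, -, -⟩ := hT.line y1 h1
  obtain ⟨a2, -, ha2, -, -, -⟩ := hT.line y2 h2
  have hk1 := k33 hT h1 h1' hne1 hN1 ha1
  have hk2 := k33 hT h2 h2' hne2 hN2 ha2
  have hbr1 : y1 * y1' * y1 = y1' * y1 * y1' := hT.braid_of_not_commute h1 h1' hk1.1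
  have hbr2 : y2 * y2' * y2 = y2' * y2 * y2' := hT.braid_of_not_commute h2 h2' hk2.1
  have s1 := hT.sq y1 h1
  have s1' := hT.sq y1' h1'
  have s2 := hT.sq y2 h2
  have s2' := hT.sq y2' h2'
  have hrr : (y1 * y1') * (y1' * y1) = 1 := by
    rw [mul_assoc, ← mul_assoc y1' y1' y1, s1', one_mul, s1]
  have hrr' : (y1' * y1) * (y1 * y1') = 1 := by
    rw [mul_assoc, ← mul_assoc y1 y1 y1', s1, one_mul, s1']
  by_cases hL : y2 = y1 ∨ y2 = y1' ∨ y2 = y1 * y1' * y1
  · -- (a) `y2` on the line of `y1`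
    have hL' : y2' = y1 ∨ y2' = y1' ∨ y2' = y1 * y1' * y1 := by
      have h3 : Nb D a1 y2 := (hk1.2.1 y2).mpr hL
      have h4 : Nb D y2' a1 := (hN2 a1).mp (Nb.symm ha1.1 h3)
      exact (hk1.2.1 y2').mp (Nb.symm h2' h4)
    rcases line_prod s1 s1' hbr1 hL hL' hne2 with e | e
    · rw [e]
    · rw [e, hrr, hrr']
  by_cases hNb : Nb D y1 y2
  · -- (b) `y2` adjacent to `y1`
    have hNb' : Nb D y1' y2 := (hN1 y2).mp hNb
    have hNb2 : Nb D y1 y2' := Nb.symm h2' ((hN2 y1).mp (Nb.symm h1 hNb))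
    have hNb2' : Nb D y1' y2' := (hN1 y2').mp hNb2
    have c1 : Commute (y1 * y1') (y2 * y2') :=
      (hNb.2.2.mul_right hNb2.2.2).mul_left (hNb'.2.2.mul_right hNb2'.2.2)
    exact c1.eq
  -- (c)
  have hL' : ¬ (y2' = y1 ∨ y2' = y1' ∨ y2' = y1 * y1' * y1) := by
    intro hL'
    apply hL
    have h3 : Nb D a1 y2' := (hk1.2.1 y2').mpr hL'
    have h4 : Nb D y2 a1 := (hN2 a1).mpr (Nb.symm ha1.1 h3)
    exact (hk1.2.1 y2).mp (Nb.symm h2 h4)
  have hNb' : ¬ Nb D y1 y2' := by
    intro h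
    apply hNb
    exact Nb.symm h2 ((hN2 y1).mpr (Nb.symm h1 h))
  set r := y1 * y1' with hr
  have hz := conj_class hT hNI h1 h1' hne1 hN1 ha1 h2 hL hNb
  have hz' := conj_class hT hNI h1 h1' hne1 hN1 ha1 h2' hL' hNb'
  rw [← hr] at hz hz'
  have hzD : r * y2 * r⁻¹ ∈ D := hT.conj r y2 h2
  have hzD' : r * y2' * r⁻¹ ∈ D := hT.conj r y2' h2'
  have m1 := class_line hT h2 h2' hne2 hN2 hzD hz
  have m2 := class_line hT h2 h2' hne2 hN2 hzD' (hN2.trans' hz')
  have hzne : r * y2 * r⁻¹ ≠ r * y2' * r⁻¹ := by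
    intro e
    exact hne2 (mul_left_cancel (mul_right_cancel e))
  have hprod : (r * y2 * r⁻¹) * (r * y2' * r⁻¹) = r * (y2 * y2') * r⁻¹ := by group
  rcases line_prod s2 s2' hbr2 m1 m2 hzne with e | e
  · rw [hprod] at e
    calc r * (y2 * y2') = (r * (y2 * y2') * r⁻¹) * r := by group
      _ = (y2 * y2') * r := by rw [e]
  · exfalso
    rw [hprod] at e
    -- `r` inverts `r2 = y2 * y2'`, of order 3, and `r ^ 3 = 1`
    have hr3 : r * r * r = 1 := cube_braid s1 s1' hbr1
    have hq3 : (y2 * y2') * (y2 * y2') * (y2 * y2') = 1 := cube_braid s2 s2' hbr2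
    have hinv : (y2 * y2') * (y2' * y2) = 1 := by
      rw [mul_assoc, ← mul_assoc y2' y2' y2, s2', one_mul, s2]
    have hinv' : y2' * y2 = (y2 * y2')⁻¹ := (inv_eq_of_mul_eq_one_right hinv).symm
    rw [hinv'] at e
    set q := y2 * y2' with hq
    have e' : r * q⁻¹ * r⁻¹ = q := by
      calc r * q⁻¹ * r⁻¹ = (r * q * r⁻¹)⁻¹ := by group
        _ = q := by rw [e, inv_inv]
    have e3 : q = q⁻¹ := by
      calc q = (r * r * r) * q * (r * r * r)⁻¹ := by rw [hr3]; group
        _ = r * (r * (r * q * r⁻¹) * r⁻¹) * r⁻¹ := by group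
        _ = q⁻¹ := by rw [e, e', e]
    have hq1 : q = 1 := by
      have h4 : q * q = 1 := by
        nth_rewrite 2 [e3]
        exact mul_inv_cancel q
      rw [h4, one_mul] at hq3
      exact hq3
    apply hne2
    have h5 : y2 * y2' = y2 * y2 := by rw [← hq, hq1, s2]
    exact (mul_left_cancel h5).symm

/-- P5 -/
theorem exists_M (hT : TS D) (hNI : NIProp D) : MProp D := by
  set S : Set G := {m | ∃ y ∈ D, ∃ y' ∈ D, SameNb D y y' ∧ m = y * y'} with hS
  have hSconj : ∀ g : G, ∀ m ∈ S, g * m * g⁻¹ ∈ S := by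
    rintro g m ⟨y, hy, y', hy', hN, rfl⟩
    refine ⟨g * y * g⁻¹, hT.conj g y hy, g * y' * g⁻¹, hT.conj g y' hy', sameNb_conj hT g hN, ?_⟩
    group
  have hScomm : ∀ m ∈ S, ∀ m' ∈ S, m * m' = m' * m := by
    rintro m ⟨y, hy, y', hy', hN, rfl⟩ m' ⟨z, hz, z', hz', hN', rfl⟩
    exact gen_comm hT hNI hy hy' hz hz' hN hN'
  have hScube : ∀ m ∈ S, m ^ 3 = 1 := by
    rintro m ⟨y, hy, y', hy', hN, rfl⟩
    by_cases hne : y = y'
    · subst hne
      rw [hT.sq y hy, one_pow]
    · obtain ⟨a, -, ha, -, -, -⟩ := hT.line y hy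
      have hk := k33 hT hy hy' hne hN ha
      have hbr := hT.braid_of_not_commute hy hy' hk.1
      have h3 := cube_braid (hT.sq y hy) (hT.sq y' hy') hbr
      rw [pow_succ, pow_two]
      exact h3
  have hMcomm : ∀ m ∈ Subgroup.closure S, ∀ m' ∈ Subgroup.closure S, m * m' = m' * m := by
    have h1 : Subgroup.closure S ≤ Subgroup.centralizer S := by
      rw [Subgroup.closure_le]
      intro m hm
      rw [SetLike.mem_coe, Subgroup.mem_centralizer_iff]
      intro m' hm'
      exact hScomm m' hm' m hm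
    have h2 : Subgroup.closure S ≤ Subgroup.centralizer (Subgroup.closure S : Set G) := by
      rw [Subgroup.closure_le]
      intro m hm
      rw [SetLike.mem_coe, Subgroup.mem_centralizer_iff]
      intro m' hm'
      have h3 := h1 hm'
      rw [Subgroup.mem_centralizer_iff] at h3
      exact (h3 m hm).symm
    intro m hm m' hm'
    have h3 := h2 hm'
    rw [Subgroup.mem_centralizer_iff] at h3
    exact (h3 m hm)
  have hMcube : ∀ m ∈ Subgroup.closure S, m ^ 3 = 1 := by
    intro m hm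
    induction hm using Subgroup.closure_induction with
    | mem x hx => exact hScube x hx
    | one => exact one_pow 3
    | mul x y hx hy ihx ihy =>
      have hc : Commute x y := hMcomm x hx y hy
      rw [hc.mul_pow, ihx, ihy, one_mul]
    | inv x hx ihx => rw [inv_pow, ihx, inv_one]
  refine ⟨Subgroup.closure S, ⟨?_⟩, ?_, hMcomm, ?_⟩
  · intro n hn g
    induction hn using Subgroup.closure_induction with
    | mem x hx => exact Subgroup.subset_closure (hSconj g x hx)
    | one => simp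
    | mul x y hx hy ihx ihy =>
      have e : g * (x * y) * g⁻¹ = (g * x * g⁻¹) * (g * y * g⁻¹) := by group
      rw [e]
      exact Subgroup.mul_mem _ ihx ihy
    | inv x hx ihx =>
      have e : g * x⁻¹ * g⁻¹ = (g * x * g⁻¹)⁻¹ := by group
      rw [e]
      exact Subgroup.inv_mem _ ihx
  · intro m
    refine ⟨1, ?_⟩
    apply Subtype.ext
    rw [pow_one, Subgroup.coe_pow, hMcube m.1 m.2]
    rfl
  · intro y hy y' hy' hN
    exact Subgroup.subset_closure ⟨y, hy, y', hy', hN, rfl⟩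

end Cfsg.Agent.Lib.Helper61.TT5
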