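import Mathlib
import Cfsg.Agent.Lib.Helper61.TT5Basic

/-!
# S5365, piece P4: the non-injectivity lemma (helper61)
-/

set_option autoImplicit false

namespace Cfsg.Agent.Lib.Helper61.TT5

variable {G : Type*} [Group G] {D : Set G}

/-- in a quotient of `S₄ = ⟨d, y, e⟩` (`d`, `y` commuting, both braided with `e`), the element
`d (y e y) d` commutes with `e` -/
theorem s4_identity {d y e : G}
    (hdy : d * y = y * d) (hde : d * e * d = e * d * e) (hye : y * e * y = e * y * e) :
    (d * (y * e * y) * d) * e = e * (d * (y * e * y) * d) := by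
  have hye' : ∀ x : G, y * (e * (y * x)) = e * (y * (e * x)) := fun x => by
    rw [← mul_assoc, ← mul_assoc, hye]; simp [mul_assoc]
  have hde' : ∀ x : G, d * (e * (d * x)) = e * (d * (e * x)) := fun x => by
    rw [← mul_assoc, ← mul_assoc, hde]; simp [mul_assoc]
  have hde'' : e * (d * e) = d * (e * d) := by
    rw [← mul_assoc, ← mul_assoc, hde]
  have hdy' : ∀ x : G, y * (d * x) = d * (y * x) := fun x => by
    rw [← mul_assoc, ← hdy, mul_assoc]
  calc (d * (y * e * y) * d) * e = d * (y * (e * (y * (d * e)))) := by simp [mul_assoc]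
    _ = d * (e * (y * (e * (d * e)))) := by rw [hye']
    _ = d * (e * (y * (d * (e * d)))) := by rw [hde'']
    _ = d * (e * (d * (y * (e * d)))) := by rw [hdy']
    _ = e * (d * (e * (y * (e * d)))) := by rw [hde']
    _ = e * (d * (y * (e * (y * d)))) := by rw [← hye']
    _ = e * (d * (y * e * y) * d) := by simp [mul_assoc]

/-- PIECE P4 -/
theorem ni (hT : TS D) : NIProp D := by
  intro d a b e hd ha hb hab he hed hea heb hec
  have hc : Nb D d (a * b * a) := nb_aba hT ha hb
  have haa := hT.sq a ha.1
  have hbb := hT.sq b hb.1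
  have hdd := hT.sq d hd
  have hee := hT.sq e he
  have haa' : ∀ x : G, a * (a * x) = x := hT.mul_cancel ha.1
  have hbb' : ∀ x : G, b * (b * x) = x := hT.mul_cancel hb.1
  have hdd' : ∀ x : G, d * (d * x) = x := hT.mul_cancel hd
  have hee' : ∀ x : G, e * (e * x) = x := hT.mul_cancel he
  have hbr : a * b * a = b * a * b := hT.braid_of_not_commute ha.1 hb.1 hab
  -- the three neighbours of `e`
  have key : ∀ y : G, Nb D d y → ¬ Commute y e → Nb D e (d * (y * e * y) * d) := by
    intro y hy hye
    have hyy := hT.sq y hy.1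
    have h1 : y * e * y ∈ D := by
      have := hT.conj y e he
      rwa [hT.inv_eq hy.1] at this
    have h2 : d * (y * e * y) * d ∈ D := by
      have := hT.conj d _ h1
      rwa [hT.inv_eq hd] at this
    have hbr1 : d * e * d = e * d * e := hT.braid_of_not_commute hd he hed
    have hbr2 : y * e * y = e * y * e := hT.braid_of_not_commute hy.1 he hye
    refine ⟨h2, ?_, ?_⟩
    · intro h3
      -- y e y = d e d, so e y e = e d e, so y = d
      have h4 : y * e * y = d * e * d := by
        have : d * (d * (y * e * y) * d) * d = d * e * d := by rw [h3]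
        rw [← this]
        simp [mul_assoc, hdd, hdd']
      rw [hbr1, hbr2] at h4
      have h5 : y = d := by
        have : e * (e * y * e) * e = e * (e * d * e) * e := by rw [h4]
        simpa [mul_assoc, hee, hee'] using this
      exact hy.2.1 h5
    · exact (s4_identity hy.2.2.eq hbr1 hbr2).symm
  -- distinctness
  have dist : ∀ y y' : G, Nb D d y → Nb D d y' → ¬ Commute y e → ¬ Commute y' e → y ≠ y' →
      d * (y * e * y) * d ≠ d * (y' * e * y') * d := by
    intro y y' hy hy' hye hye' hne h
    have hyy := hT.sq y hy.1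
    have hyy' := hT.sq y' hy'.1
    have h1 : y * e * y = y' * e * y' := by
      have : d * (d * (y * e * y) * d) * d = d * (d * (y' * e * y') * d) * d := by rw [h]
      simpa [mul_assoc, hdd, hdd'] using this
    -- e commutes with y' * y
    have h2 : e * (y' * y) = (y' * y) * e := by
      have h3 : y' * (y * e * y) * y = y' * (y' * e * y') * y := by rw [h1]
      have h4 : y' * (y' * e * y') * y = e * (y' * y) := by
        simp [mul_assoc, hT.mul_cancel hy'.1]
      have h5 : y' * (y * e * y) * y = (y' * y) * e := by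
        simp [mul_assoc, hyy]
      rw [h4, h5] at h3
      exact h3.symm
    have hb1 : e * y' * e = y' * e * y' :=
      (hT.braid_of_not_commute hy'.1 he hye').symm
    have hb2 : e * y * e = y * e * y := (hT.braid_of_not_commute hy.1 he hye).symm
    exact hne (el e y' y hee hyy' hyy hb1 hb2 h2).symm
  have hne_ab : a ≠ b := fun h => hab (by rw [h])
  have hne_ac : a ≠ a * b * a := by
    intro h
    have h1 : a * a = a * (a * b * a) := by rw [← h]
    rw [haa] at h1
    have h2 : a * (a * b * a) = b * a := by simp [mul_assoc, haa']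
    rw [h2] at h1
    have h3 : b * a * a = 1 * a := by rw [← h1]
    rw [mul_assoc, haa, mul_one, one_mul] at h3
    exact hne_ab h3.symm
  have hne_bc : b ≠ a * b * a := by
    intro h
    apply hab
    have h1 : b * a = a * b * a * a := by rw [← h]
    rw [mul_assoc, haa, mul_one] at h1
    exact h1.symm
  have hXa := key a ha hea
  have hXb := key b hb heb
  have hXc := key (a * b * a) hc hec
  have hall := three_nb hT he hXa hXb hXc (dist a b ha hb hea heb hne_ab)
    (dist a _ ha hc hea hec hne_ac) (dist b _ hb hc heb hec hne_bc)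
  -- conjugation by `t = a * b`
  have hti : (a * b)⁻¹ = b * a := by
    rw [mul_inv_rev, hT.inv_eq ha.1, hT.inv_eq hb.1]
  have htd : (a * b) * d = d * (a * b) := ((ha.2.2.mul_right hb.2.2).eq).symm
  have htd' : (b * a) * d = d * (b * a) := ((hb.2.2.mul_right ha.2.2).eq).symm
  have hda : ∀ x : G, a * (d * x) = d * (a * x) := fun x => by
    rw [← mul_assoc, ← ha.2.2.eq, mul_assoc]
  have hdb : ∀ x : G, b * (d * x) = d * (b * x) := fun x => by
    rw [← mul_assoc, ← hb.2.2.eq, mul_assoc]
  have hbr' : ∀ x : G, b * (a * (b * x)) = a * (b * (a * x)) := fun x => by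
    rw [← mul_assoc, ← mul_assoc, ← hbr]; simp [mul_assoc]
  -- t X_a t⁻¹ = X_c, t X_b t⁻¹ = X_a, t X_c t⁻¹ = X_b
  have htd1 : (a * b) * d * (b * a) = d := by
    rw [htd]
    simp [mul_assoc, hbb', haa]
  have split : ∀ X : G, (a * b) * (d * X * d) * (b * a) =
      ((a * b) * d * (b * a)) * ((a * b) * X * (b * a)) * ((a * b) * d * (b * a)) := by
    intro X
    simp [mul_assoc, haa', hbb']
  have m1 : (a * b) * (a * b * a) = b := by
    calc (a * b) * (a * b * a) = a * (b * a * b) * a := by simp [mul_assoc]
      _ = a * (a * b * a) * a := by rw [← hbr]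
      _ = b := by simp [mul_assoc, haa, haa']
  have m2 : (a * b * a) * (b * a) = b := by
    calc (a * b * a) * (b * a) = a * (b * a * b) * a := by simp [mul_assoc]
      _ = a * (a * b * a) * a := by rw [← hbr]
      _ = b := by simp [mul_assoc, haa, haa']
  have c1 : (a * b) * (d * (a * e * a) * d) * (a * b)⁻¹ =
      d * ((a * b * a) * e * (a * b * a)) * d := by
    rw [hti, split, htd1]
    simp [mul_assoc]
  have c2 : (a * b) * (d * (b * e * b) * d) * (a * b)⁻¹ = d * (a * e * a) * d := by
    rw [hti, split, htd1]
    simp [mul_assoc, hbb, hbb']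
  have c3 : (a * b) * (d * ((a * b * a) * e * (a * b * a)) * d) * (a * b)⁻¹ =
      d * (b * e * b) * d := by
    rw [hti, split, htd1]
    have h1 : (a * b) * ((a * b * a) * e * (a * b * a)) * (b * a) =
        ((a * b) * (a * b * a)) * e * ((a * b * a) * (b * a)) := by simp [mul_assoc]
    rw [h1, m1, m2]
  refine ⟨?_, ?_⟩
  · intro h
    have h1 : e * (a * b) = (a * b) * e := by
      have : (a * b) * e * (a * b)⁻¹ * (a * b) = e * (a * b) := by rw [h]
      rw [← this]
      simp [mul_assoc]
    have hb1 : e * a * e = a * e * a := (hT.braid_of_not_commute ha.1 he hea).symm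
    have hb2 : e * b * e = b * e * b := (hT.braid_of_not_commute hb.1 he heb).symm
    exact hne_ab (el e a b hee haa hbb hb1 hb2 h1)
  · intro z
    constructor
    · intro hz
      rcases hall z hz with rfl | rfl | rfl
      · have := nb_conj hT (a * b) hXb
        rwa [c2] at this
      · have := nb_conj hT (a * b) hXc
        rwa [c3] at this
      · have := nb_conj hT (a * b) hXa
        rwa [c1] at this
    · intro hz
      have h1 := nb_conj hT (a * b)⁻¹ hz
      have h2 : (a * b)⁻¹ * ((a * b) * e * (a * b)⁻¹) * (a * b)⁻¹⁻¹ = e := by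
        simp [mul_assoc]
      rw [h2] at h1
      have h3 : z = (a * b) * ((a * b)⁻¹ * z * (a * b)⁻¹⁻¹) * (a * b)⁻¹ := by
        simp [mul_assoc]
      rcases hall _ h1 with h4 | h4 | h4
      · rw [h3, h4, c1]; exact hXc
      · rw [h3, h4, c2]; exact hXa
      · rw [h3, h4, c3]; exact hXb

end Cfsg.Agent.Lib.Helper61.TT5
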