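import Mathlib
import Cfsg.Agent.Lib.Helper61.TT5Basic

/-!
# S5365, piece P6c: no point outside a `K₃,₃` pair (helper61)
-/

set_option autoImplicit false

namespace Cfsg.Agent.Lib.Helper61.TT5

variable {G : Type*} [Group G] {D : Set G}

/-- PIECE P6c -/
theorem no_outside (hT : TS D) (h2 : H2 D) (hNI : NIProp D) (hM : MProp D) (hEL : ELProp G)
    (hAP : APProp G) {x y g : G} (hx : x ∈ D) (hy : y ∈ D) (hxy : x ≠ y) (hN : SameNb D x y)
    (hg : g ∈ D) (hgx : g ≠ x) (hgy : g ≠ y) (hgz : g ≠ x * y * x) (hgN : ¬ Nb D x g) : False := by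
  obtain ⟨a, b, ha, hb, hab, hall⟩ := hT.line x hx
  obtain ⟨hnc, hNa, hS3⟩ := k33 hT hx hy hxy hN ha
  have hz : Nb D a (x * y * x) := (hNa _).mpr (Or.inr (Or.inr rfl))
  have hax : Nb D a x := (hNa _).mpr (Or.inl rfl)
  have hay : Nb D a y := (hNa _).mpr (Or.inr (Or.inl rfl))
  -- `g` commutes with none of `x, y, xyx, a, b`
  have gx : ¬ Commute x g := fun h => hgN ⟨hg, hgx, h⟩
  have gy : ¬ Commute y g := fun h => hgN ((hN g).mpr ⟨hg, hgy, h⟩)
  have gz : ¬ Commute (x * y * x) g := fun h => hgN ((hS3 g).mpr ⟨hg, hgz, h⟩)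
  have outside : ∀ c : G, Nb D x c → ¬ Commute c g := by
    intro c hc h
    obtain ⟨-, hNc, -⟩ := k33 hT hx hy hxy hN hc
    have hgc : g ≠ c := fun e => hgN (e ▸ hc)
    rcases (hNc g).mp ⟨hg, hgc, h⟩ with e | e | e
    · exact hgx e
    · exact hgy e
    · exact hgz e
  have ga : ¬ Commute a g := outside a ha
  have gb : ¬ Commute b g := outside b hb
  -- non-injectivity at `g`
  obtain ⟨-, hSame⟩ := hNI a x y g ha.1 hax hay hnc hg ga gx gy gz
  have hxi : x⁻¹ = x := hT.inv_eq hx
  have hxx := hT.sq x hx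
  have hyy := hT.sq y hy
  have hgg := hT.sq g hg
  have hxx' : ∀ t : G, x * (x * t) = t := hT.mul_cancel hx
  obtain ⟨M, hMn, hMp, hMab, hMgen⟩ := hM
  have hg' : (x * y) * g * (x * y)⁻¹ ∈ D := hT.conj _ g hg
  obtain ⟨u, hu⟩ : ∃ u : G, u = g * ((x * y) * g * (x * y)⁻¹) := ⟨_, rfl⟩
  have huM : u ∈ M := by rw [hu]; exact hMgen g hg _ hg' hSame
  have hxuM : x * u * x ∈ M := by
    have := hMn.conj_mem u huM x
    rwa [hxi] at this
  have hwM : u * (x * u * x) ∈ M := M.mul_mem huM hxuM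
  have hwx : u * (x * u * x) * x = x * (u * (x * u * x)) := by
    have h1 : x * (u * (x * u * x)) * x = (x * u * x) * u := by
      simp [mul_assoc, hxx, hxx']
    have h3 : x * (u * (x * u * x)) * x = u * (x * u * x) := by
      rw [h1]
      exact hMab _ hxuM _ huM
    calc u * (x * u * x) * x = (x * (u * (x * u * x)) * x) * x := by rw [h3]
      _ = x * (u * (x * u * x)) := by simp [mul_assoc, hxx]
  -- the affine plane lemma
  have bxy : x * y * x = y * x * y := hT.braid_of_not_commute hx hy hnc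
  have bxg : x * g * x = g * x * g := hT.braid_of_not_commute hx hg gx
  have byg : y * g * y = g * y * g := hT.braid_of_not_commute hy hg gy
  have bzg : (x * y * x) * g * (x * y * x) = g * (x * y * x) * g :=
    hT.braid_of_not_commute hz.1 hg gz
  obtain ⟨hwg, hw1⟩ := hAP x y g hxx hyy hgg bxy bxg byg bzg
  rw [← hu] at hwg hw1
  have haa := hT.sq a ha.1
  have hbb := hT.sq b hb.1
  have bag : g * a * g = a * g * a := (hT.braid_of_not_commute ha.1 hg ga).symm
  have bbg : g * b * g = b * g * b := (hT.braid_of_not_commute hb.1 hg gb).symm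
  rcases h2 x hx a b ha hb hab M hMn hMp _ hwM hwx with hw | hw | hw
  · -- `w = 1`
    have hus : u = x * y := hw1 hw
    obtain ⟨h, -, hh, -, -, -⟩ := hT.line g hg
    have hh' : Nb D ((x * y) * g * (x * y)⁻¹) h := (hSame h).mp hh
    have hcu : Commute u h := by
      rw [hu]
      exact hh.2.2.mul_left hh'.2.2
    rw [hus] at hcu
    have hhg : Nb D h g := Nb.symm hg hh
    have key : ∀ c : G, Nb D x c → h ≠ c := by
      intro c hc e
      exact outside c hc (e ▸ hhg.2.2)
    have hx' : ¬ Commute x h := by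
      intro hc
      have hne : h ≠ x := fun e => gx (e ▸ hhg.2.2)
      exact key h ⟨hh.1, hne, hc⟩ rfl
    have hy' : ¬ Commute y h := by
      intro hc
      have hne : h ≠ y := fun e => gy (e ▸ hhg.2.2)
      exact key h ((hN h).mpr ⟨hh.1, hne, hc⟩) rfl
    have b1 : h * x * h = x * h * x := hT.braid_of_not_commute hh.1 hx (fun c => hx' c.symm)
    have b2 : h * y * h = y * h * y := hT.braid_of_not_commute hh.1 hy (fun c => hy' c.symm)
    exact hxy (hEL h x y (hT.sq h hh.1) hxx hyy b1 b2 hcu.eq.symm)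
  · -- `w = a * b`
    rw [hw] at hwg
    exact hab (by rw [hEL g a b hgg haa hbb bag bbg hwg.symm])
  · -- `w = b * a`
    rw [hw] at hwg
    exact hab (by rw [hEL g b a hgg hbb haa bbg bag hwg.symm])

end Cfsg.Agent.Lib.Helper61.TT5
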