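import Mathlib
import Cfsg.Agent.Lib.Helper44.UDDefs

/-! S5655 piece UD-TRC (helper61 for helper44): the counting step of the two-reflection lemma. -/

set_option autoImplicit false
set_option linter.unusedSectionVars false
set_option linter.unusedVariables false

namespace Cfsg.Agent.Lib.Helper44.UD

open Matrix Cfsg.Agent.Lib.Helper93 Cfsg.Agent.Lib.Helper18 Cfsg.Agent.Lib.Helper7

section
variable {F : Type*} [Field F] [Fintype F] {q : ℕ} {N : ℕ}

private theorem udtrc_mat_ext {A B : Matrix (Fin N) (Fin N) F} (h : ∀ x, A *ᵥ x = B *ᵥ x) :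
    A = B := by
  apply Matrix.toLin'.injective
  apply LinearMap.ext
  intro x
  simpa [Matrix.toLin'_apply] using h x

private theorem udtrc_qrefl_perp (w : Fin N → F) (t : F) (x : Fin N → F)
    (hx : Cfsg.hermForm N F q x w = 0) : qrefl q N w t *ᵥ x = x := by
  rw [qrefl_mulVec, hx, mul_zero, zero_smul, add_zero]

private theorem udtrc_qrefl_comp (w : Fin N → F)
    (hw : w = 0 ∨ Cfsg.hermForm N F q w w = 1) (a b : F) (x : Fin N → F) :
    qrefl q N w a *ᵥ (qrefl q N w b *ᵥ x) = qrefl q N w (a * b) *ᵥ x := by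
  rcases hw with rfl | hw
  · simp [qrefl_mulVec]
  · rw [qrefl_mulVec, qrefl_mulVec, qrefl_mulVec, hf_add_left, hf_smul_left, hw]
    module

private theorem udtrc_qrefl_mul (w : Fin N → F)
    (hw : w = 0 ∨ Cfsg.hermForm N F q w w = 1) (a b : F) :
    qrefl q N w a * qrefl q N w b = qrefl q N w (a * b) :=
  udtrc_mat_ext fun x => by rw [← Matrix.mulVec_mulVec, udtrc_qrefl_comp w hw]

private theorem udtrc_qrefl_one (w : Fin N → F) : qrefl q N w 1 = 1 := by
  unfold qrefl; simp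

private theorem udtrc_pres {Y : Subgroup (GL (Fin N) F)} (hY : Y ≤ Cfsg.GU N F q)
    {M : Matrix (Fin N) (Fin N) F} (hM : MIn Y M) (x y : Fin N → F) :
    Cfsg.hermForm N F q (M *ᵥ x) (M *ᵥ y) = Cfsg.hermForm N F q x y := by
  obtain ⟨g, hg, rfl⟩ := hM
  exact (mem_GU_iff g).1 (hY hg) x y

private theorem udtrc_card_L [DecidableEq F] (hF : Fintype.card F = q ^ 2) :
    (Finset.univ.filter (fun a : F => a + a ^ q = 0)).card ≤ q := by
  have hq := herm_two_le hF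
  have hdeg : (Polynomial.X ^ q + Polynomial.X : Polynomial F).natDegree = q := by
    rw [Polynomial.natDegree_add_eq_left_of_natDegree_lt]
    · simp
    · simp only [Polynomial.natDegree_X_pow, Polynomial.natDegree_X]; omega
  have hp0 : (Polynomial.X ^ q + Polynomial.X : Polynomial F) ≠ 0 := by
    intro h
    rw [h, Polynomial.natDegree_zero] at hdeg
    omega
  calc (Finset.univ.filter (fun a : F => a + a ^ q = 0)).card
      ≤ (Polynomial.X ^ q + Polynomial.X : Polynomial F).natDegree := by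
        apply Polynomial.card_le_degree_of_subset_roots
        intro a ha
        rw [Finset.mem_val, Finset.mem_filter] at ha
        rw [Polynomial.mem_roots hp0]
        simp only [Polynomial.IsRoot, Polynomial.eval_add, Polynomial.eval_pow, Polynomial.eval_X]
        linear_combination ha.2
    _ = q := hdeg

/-- the standing hypotheses -/
private structure udtrc_S (q N : ℕ) (u v e : Fin N → F) : Prop where
  hF : Fintype.card F = q ^ 2
  huu : Cfsg.hermForm N F q u u = 1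
  hvv : Cfsg.hermForm N F q v v = 1
  huv0 : Cfsg.hermForm N F q u v ≠ 0
  huv1 : Cfsg.hermForm N F q u v ^ (q + 1) ≠ 1
  he : e = 0 ∨ Cfsg.hermForm N F q e e = 1
  heu : Cfsg.hermForm N F q e u = 0
  hev : Cfsg.hermForm N F q e v = 0

private def udtrc_InP (u v x : Fin N → F) : Prop := ∃ a b : F, x = a • u + b • v

private theorem udtrc_S.hvu {u v e : Fin N → F} (S : udtrc_S q N u v e) :
    Cfsg.hermForm N F q v u = Cfsg.hermForm N F q u v ^ q := hf_conj S.hF N u v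

private theorem udtrc_S.hvu0 {u v e : Fin N → F} (S : udtrc_S q N u v e) :
    Cfsg.hermForm N F q v u ≠ 0 := by
  rw [S.hvu]; exact pow_ne_zero _ S.huv0

private theorem udtrc_S.hue {u v e : Fin N → F} (S : udtrc_S q N u v e) :
    Cfsg.hermForm N F q u e = 0 := hf_eq_zero_symm S.hF N e u S.heu

private theorem udtrc_S.hve {u v e : Fin N → F} (S : udtrc_S q N u v e) :
    Cfsg.hermForm N F q v e = 0 := hf_eq_zero_symm S.hF N e v S.hev

private theorem udtrc_S.indep {u v e : Fin N → F} (S : udtrc_S q N u v e) {a b : F}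
    (h0 : a • u + b • v = 0) : a = 0 ∧ b = 0 := by
  have h1 : Cfsg.hermForm N F q (a • u + b • v) u = 0 := by rw [h0, hf_zero_left]
  have h2 : Cfsg.hermForm N F q (a • u + b • v) v = 0 := by rw [h0, hf_zero_left]
  rw [hf_add_left, hf_smul_left, hf_smul_left, S.huu] at h1
  rw [hf_add_left, hf_smul_left, hf_smul_left, S.hvv] at h2
  rw [S.hvu] at h1
  have h3 : a * (1 - Cfsg.hermForm N F q u v ^ (q + 1)) = 0 := by
    rw [pow_succ]
    linear_combination h1 - Cfsg.hermForm N F q u v ^ q * h2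
  have ha : a = 0 := by
    rcases mul_eq_zero.1 h3 with h | h
    · exact h
    · exact absurd (sub_eq_zero.1 h).symm S.huv1
  refine ⟨ha, ?_⟩
  rw [ha] at h2
  linear_combination h2

private theorem udtrc_S.uniq {u v e : Fin N → F} (S : udtrc_S q N u v e) {a b a' b' : F}
    (h0 : a • u + b • v = a' • u + b' • v) : a = a' ∧ b = b' := by
  have h1 : (a - a') • u + (b - b') • v = 0 := by
    rw [sub_smul, sub_smul]
    linear_combination (exp := 1) h0
  obtain ⟨h2, h3⟩ := S.indep h1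
  exact ⟨sub_eq_zero.1 h2, sub_eq_zero.1 h3⟩


/-! ### the plane `P = ⟨u, v⟩` and the matrices acting on it -/

private theorem udtrc_InP_e {u v e : Fin N → F} (S : udtrc_S q N u v e) {x : Fin N → F}
    (hx : udtrc_InP u v x) : Cfsg.hermForm N F q x e = 0 := by
  obtain ⟨a, b, rfl⟩ := hx
  rw [hf_add_left, hf_smul_left, hf_smul_left, S.hue, S.hve, mul_zero, mul_zero, add_zero]

private theorem udtrc_perp_e {u v e : Fin N → F} (S : udtrc_S q N u v e) (c : F) (x : Fin N → F)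
    (hxu : Cfsg.hermForm N F q x u = 0) (hxv : Cfsg.hermForm N F q x v = 0) :
    Cfsg.hermForm N F q (qrefl q N e c *ᵥ x) u = 0 ∧
      Cfsg.hermForm N F q (qrefl q N e c *ᵥ x) v = 0 := by
  rw [qrefl_mulVec]
  constructor
  · rw [hf_add_left, hf_smul_left, hxu, S.heu, mul_zero, add_zero]
  · rw [hf_add_left, hf_smul_left, hxv, S.hev, mul_zero, add_zero]

/-- `M` stabilises `P = ⟨u, v⟩` and acts on `P^⊥` as `r_{e,c}` -/
private def udtrc_Good (q : ℕ) (u v e : Fin N → F) (M : Matrix (Fin N) (Fin N) F) (c : F) :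
    Prop :=
  (∀ x, udtrc_InP u v x → udtrc_InP u v (M *ᵥ x)) ∧
  (∀ x, Cfsg.hermForm N F q x u = 0 → Cfsg.hermForm N F q x v = 0 →
    M *ᵥ x = qrefl q N e c *ᵥ x)

private theorem udtrc_Good.mul {u v e : Fin N → F} (S : udtrc_S q N u v e)
    {M M' : Matrix (Fin N) (Fin N) F} {c c' : F}
    (hM : udtrc_Good q u v e M c) (hM' : udtrc_Good q u v e M' c') :
    udtrc_Good q u v e (M * M') (c * c') := by
  refine ⟨fun x hx => ?_, fun x hxu hxv => ?_⟩
  · rw [← Matrix.mulVec_mulVec]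
    exact hM.1 _ (hM'.1 x hx)
  · rw [← Matrix.mulVec_mulVec, hM'.2 x hxu hxv]
    obtain ⟨h1, h2⟩ := udtrc_perp_e S c' x hxu hxv
    rw [hM.2 _ h1 h2, udtrc_qrefl_comp e S.he]

private theorem udtrc_Good_u {u v e : Fin N → F} (S : udtrc_S q N u v e) (s : F) :
    udtrc_Good q u v e (qrefl q N u s) 1 := by
  refine ⟨fun x hx => ?_, fun x hxu hxv => ?_⟩
  · obtain ⟨a, b, rfl⟩ := hx
    refine ⟨a + (s - 1) * Cfsg.hermForm N F q (a • u + b • v) u, b, ?_⟩
    rw [qrefl_mulVec]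
    module
  · rw [udtrc_qrefl_perp u s x hxu, udtrc_qrefl_one, Matrix.one_mulVec]

private theorem udtrc_Good_v {u v e : Fin N → F} (S : udtrc_S q N u v e) (t : F) :
    udtrc_Good q u v e (qrefl q N v t) 1 := by
  refine ⟨fun x hx => ?_, fun x hxu hxv => ?_⟩
  · obtain ⟨a, b, rfl⟩ := hx
    refine ⟨a, b + (t - 1) * Cfsg.hermForm N F q (a • u + b • v) v, ?_⟩
    rw [qrefl_mulVec]
    module
  · rw [udtrc_qrefl_perp v t x hxv, udtrc_qrefl_one, Matrix.one_mulVec]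

private theorem udtrc_Good_e {u v e : Fin N → F} (S : udtrc_S q N u v e) (c : F) :
    udtrc_Good q u v e (qrefl q N e c) c := by
  refine ⟨fun x hx => ?_, fun x hxu hxv => rfl⟩
  rw [udtrc_qrefl_perp e c x (udtrc_InP_e S hx)]
  exact hx

private def udtrc_G (q : ℕ) (u v e : Fin N → F) (p : F × F) : Matrix (Fin N) (Fin N) F :=
  (qrefl q N u p.1 * qrefl q N e p.1⁻¹) * (qrefl q N v p.2 * qrefl q N e p.2⁻¹)

private def udtrc_G' (q : ℕ) (u v e : Fin N → F) (p : F × F) : Matrix (Fin N) (Fin N) F :=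
  (qrefl q N e p.2 * qrefl q N v p.2⁻¹) * (qrefl q N e p.1 * qrefl q N u p.1⁻¹)

private theorem udtrc_ne0 {t : F} (h : t ^ (q + 1) = 1) : t ≠ 0 := by
  rintro rfl
  rw [zero_pow (Nat.succ_ne_zero q)] at h
  exact zero_ne_one h

private theorem udtrc_G'_mul_G {u v e : Fin N → F} (S : udtrc_S q N u v e) (p : F × F)
    (h1 : p.1 ≠ 0) (h2 : p.2 ≠ 0) : udtrc_G' q u v e p * udtrc_G q u v e p = 1 := by
  have a1 : qrefl q N u p.1⁻¹ * qrefl q N u p.1 = 1 := by
    rw [udtrc_qrefl_mul u (Or.inr S.huu), inv_mul_cancel₀ h1, udtrc_qrefl_one]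
  have a2 : qrefl q N e p.1 * qrefl q N e p.1⁻¹ = 1 := by
    rw [udtrc_qrefl_mul e S.he, mul_inv_cancel₀ h1, udtrc_qrefl_one]
  have a3 : qrefl q N v p.2⁻¹ * qrefl q N v p.2 = 1 := by
    rw [udtrc_qrefl_mul v (Or.inr S.hvv), inv_mul_cancel₀ h2, udtrc_qrefl_one]
  have a4 : qrefl q N e p.2 * qrefl q N e p.2⁻¹ = 1 := by
    rw [udtrc_qrefl_mul e S.he, mul_inv_cancel₀ h2, udtrc_qrefl_one]
  unfold udtrc_G' udtrc_G
  calc (qrefl q N e p.2 * qrefl q N v p.2⁻¹) * (qrefl q N e p.1 * qrefl q N u p.1⁻¹) *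
        ((qrefl q N u p.1 * qrefl q N e p.1⁻¹) * (qrefl q N v p.2 * qrefl q N e p.2⁻¹))
      = qrefl q N e p.2 * (qrefl q N v p.2⁻¹ * (qrefl q N e p.1 *
          (qrefl q N u p.1⁻¹ * qrefl q N u p.1) * qrefl q N e p.1⁻¹) * qrefl q N v p.2) *
          qrefl q N e p.2⁻¹ := by
        simp only [mul_assoc]
    _ = 1 := by rw [a1, mul_one, a2, mul_one, a3, mul_one, a4]

private theorem udtrc_G_mul_G' {u v e : Fin N → F} (S : udtrc_S q N u v e) (p : F × F)
    (h1 : p.1 ≠ 0) (h2 : p.2 ≠ 0) : udtrc_G q u v e p * udtrc_G' q u v e p = 1 :=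
  mul_eq_one_comm.1 (udtrc_G'_mul_G S p h1 h2)

private theorem udtrc_Ggood {u v e : Fin N → F} (S : udtrc_S q N u v e) (p : F × F) :
    udtrc_Good q u v e (udtrc_G q u v e p) ((1 * p.1⁻¹) * (1 * p.2⁻¹)) :=
  ((udtrc_Good_u S p.1).mul S (udtrc_Good_e S p.1⁻¹)).mul S
    ((udtrc_Good_v S p.2).mul S (udtrc_Good_e S p.2⁻¹))

private theorem udtrc_G'good {u v e : Fin N → F} (S : udtrc_S q N u v e) (p : F × F) :
    udtrc_Good q u v e (udtrc_G' q u v e p) ((p.2 * 1) * (p.1 * 1)) :=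
  ((udtrc_Good_e S p.2).mul S (udtrc_Good_v S p.2⁻¹)).mul S
    ((udtrc_Good_e S p.1).mul S (udtrc_Good_u S p.1⁻¹))

private theorem udtrc_G_P {u v e : Fin N → F} (S : udtrc_S q N u v e) (p : F × F)
    (x : Fin N → F) (hx : udtrc_InP u v x) :
    udtrc_G q u v e p *ᵥ x = qrefl q N u p.1 *ᵥ (qrefl q N v p.2 *ᵥ x) := by
  unfold udtrc_G
  simp only [← Matrix.mulVec_mulVec]
  rw [udtrc_qrefl_perp e _ x (udtrc_InP_e S hx),
    udtrc_qrefl_perp e _ _ (udtrc_InP_e S ((udtrc_Good_v S p.2).1 x hx))]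

private theorem udtrc_G_v {u v e : Fin N → F} (S : udtrc_S q N u v e) (p : F × F) :
    udtrc_G q u v e p *ᵥ v =
      ((p.1 - 1) * p.2 * Cfsg.hermForm N F q v u) • u + p.2 • v := by
  rw [udtrc_G_P S p v ⟨0, 1, by simp⟩]
  simp only [qrefl_mulVec, hf_add_left, hf_smul_left, S.hvv]
  module

private theorem udtrc_G_u {u v e : Fin N → F} (S : udtrc_S q N u v e) (p : F × F) :
    udtrc_G q u v e p *ᵥ u =
      (1 + (p.1 - 1) * (1 + (p.2 - 1) * Cfsg.hermForm N F q u v * Cfsg.hermForm N F q v u)) • u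
        + ((p.2 - 1) * Cfsg.hermForm N F q u v) • v := by
  rw [udtrc_G_P S p u ⟨1, 0, by simp⟩]
  simp only [qrefl_mulVec, hf_add_left, hf_smul_left, S.huu]
  module

/-! ### the hyperbolic pair `w, w'` -/

private structure udtrc_W (q N : ℕ) (u v w w' : Fin N → F) : Prop where
  hw : udtrc_InP u v w
  hw' : udtrc_InP u v w'
  hww : Cfsg.hermForm N F q w w = 0
  hww' : Cfsg.hermForm N F q w' w' = 0
  h1 : Cfsg.hermForm N F q w w' = 1

private theorem udtrc_W.h1' {u v e w w' : Fin N → F} (S : udtrc_S q N u v e)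
    (W : udtrc_W q N u v w w') : Cfsg.hermForm N F q w' w = 1 := by
  rw [hf_conj S.hF N w w', W.h1, one_pow]

private theorem udtrc_W.wne {u v w w' : Fin N → F} (W : udtrc_W q N u v w w') : w ≠ 0 := by
  intro h0
  have h1 := W.h1
  rw [h0, hf_zero_left] at h1
  exact zero_ne_one h1

private theorem udtrc_form {u v e w w' : Fin N → F} (S : udtrc_S q N u v e)
    (W : udtrc_W q N u v w w') (a b a' b' : F) :
    Cfsg.hermForm N F q (a • w + b • w') (a' • w + b' • w') = a * b' ^ q + b * a' ^ q := by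
  simp only [hf_add_left, hf_smul_left, hf_add_right S.hF, hf_smul_right, W.hww, W.hww', W.h1,
    W.h1' S]
  ring

private theorem udtrc_span {u v e w w' : Fin N → F} (S : udtrc_S q N u v e)
    (W : udtrc_W q N u v w w') :
    ∃ c1 c2 d1 d2 : F, u = c1 • w + c2 • w' ∧ v = d1 • w + d2 • w' := by
  obtain ⟨a1, b1, hw⟩ := W.hw
  obtain ⟨a2, b2, hw'⟩ := W.hw'
  have k1 : b2 • w - b1 • w' = (a1 * b2 - a2 * b1) • u := by
    rw [hw, hw']; module
  have k2 : a1 • w' - a2 • w = (a1 * b2 - a2 * b1) • v := by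
    rw [hw, hw']; module
  have hD : a1 * b2 - a2 * b1 ≠ 0 := by
    intro hD0
    rw [hD0, zero_smul] at k1 k2
    have e1 : Cfsg.hermForm N F q (b2 • w - b1 • w') w = 0 := by rw [k1, hf_zero_left]
    have e2 : Cfsg.hermForm N F q (a1 • w' - a2 • w) w = 0 := by rw [k2, hf_zero_left]
    rw [hf_sub_left, hf_smul_left, hf_smul_left, W.hww, W.h1' S] at e1
    rw [hf_sub_left, hf_smul_left, hf_smul_left, W.hww, W.h1' S] at e2
    have hb1 : b1 = 0 := by linear_combination -e1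
    have ha1 : a1 = 0 := by linear_combination e2
    apply W.wne
    rw [hw, ha1, hb1, zero_smul, zero_smul, add_zero]
  refine ⟨(a1 * b2 - a2 * b1)⁻¹ * b2, -((a1 * b2 - a2 * b1)⁻¹ * b1),
    -((a1 * b2 - a2 * b1)⁻¹ * a2), (a1 * b2 - a2 * b1)⁻¹ * a1, ?_, ?_⟩
  · calc u = (a1 * b2 - a2 * b1)⁻¹ • ((a1 * b2 - a2 * b1) • u) := by
          rw [smul_smul, inv_mul_cancel₀ hD, one_smul]
      _ = (a1 * b2 - a2 * b1)⁻¹ • (b2 • w - b1 • w') := by rw [k1]
      _ = _ := by module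
  · calc v = (a1 * b2 - a2 * b1)⁻¹ • ((a1 * b2 - a2 * b1) • v) := by
          rw [smul_smul, inv_mul_cancel₀ hD, one_smul]
      _ = (a1 * b2 - a2 * b1)⁻¹ • (a1 • w' - a2 • w) := by rw [k2]
      _ = _ := by module

private theorem udtrc_coords {u v e w w' : Fin N → F} (S : udtrc_S q N u v e)
    (W : udtrc_W q N u v w w') (x : Fin N → F) (hx : udtrc_InP u v x) :
    x = Cfsg.hermForm N F q x w' • w + Cfsg.hermForm N F q x w • w' := by
  obtain ⟨a, b, hx⟩ := hx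
  obtain ⟨c1, c2, d1, d2, hu, hv⟩ := udtrc_span S W
  have hx' : x = (a * c1 + b * d1) • w + (a * c2 + b * d2) • w' := by
    rw [hx]
    conv_lhs => rw [hu, hv]
    module
  have h1 : Cfsg.hermForm N F q x w' = a * c1 + b * d1 := by
    rw [hx', hf_add_left, hf_smul_left, hf_smul_left, W.h1, W.hww']; ring
  have h2 : Cfsg.hermForm N F q x w = a * c2 + b * d2 := by
    rw [hx', hf_add_left, hf_smul_left, hf_smul_left, W.hww, W.h1' S]; ring
  rw [h1, h2]; exact hx'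

private theorem udtrc_perp_uv {u v e w w' : Fin N → F} (S : udtrc_S q N u v e)
    (W : udtrc_W q N u v w w') (x : Fin N → F) (h1 : Cfsg.hermForm N F q x w = 0)
    (h2 : Cfsg.hermForm N F q x w' = 0) :
    Cfsg.hermForm N F q x u = 0 ∧ Cfsg.hermForm N F q x v = 0 := by
  obtain ⟨c1, c2, d1, d2, hu, hv⟩ := udtrc_span S W
  constructor
  · rw [hu, hf_add_right S.hF, hf_smul_right, hf_smul_right, h1, h2, mul_zero, mul_zero,
      add_zero]
  · rw [hv, hf_add_right S.hF, hf_smul_right, hf_smul_right, h1, h2, mul_zero, mul_zero,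
      add_zero]

/-! ### the projective coordinate of a vector of `P` -/

private def udtrc_psi [DecidableEq F] (q : ℕ) (w w' : Fin N → F) (x : Fin N → F) : Option F :=
  if Cfsg.hermForm N F q x w = 0 then none
  else some (Cfsg.hermForm N F q x w' / Cfsg.hermForm N F q x w)

private theorem udtrc_psi_mem [DecidableEq F] {u v e w w' : Fin N → F} (S : udtrc_S q N u v e)
    (W : udtrc_W q N u v w w') (x : Fin N → F) (hx : udtrc_InP u v x)
    (hxx : Cfsg.hermForm N F q x x = 0) :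
    udtrc_psi q w w' x = none ∨ ∃ a : F, a + a ^ q = 0 ∧ udtrc_psi q w w' x = some a := by
  by_cases hb : Cfsg.hermForm N F q x w = 0
  · left; unfold udtrc_psi; rw [if_pos hb]
  · right
    refine ⟨_, ?_, by unfold udtrc_psi; rw [if_neg hb]⟩
    have hc := udtrc_coords S W x hx
    have hf := udtrc_form S W (Cfsg.hermForm N F q x w') (Cfsg.hermForm N F q x w)
      (Cfsg.hermForm N F q x w') (Cfsg.hermForm N F q x w)
    rw [← hc, hxx] at hf
    have hbq : Cfsg.hermForm N F q x w ^ q ≠ 0 := pow_ne_zero _ hb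
    have h3 : Cfsg.hermForm N F q x w' / Cfsg.hermForm N F q x w +
        (Cfsg.hermForm N F q x w' / Cfsg.hermForm N F q x w) ^ q =
        (Cfsg.hermForm N F q x w' * Cfsg.hermForm N F q x w ^ q +
          Cfsg.hermForm N F q x w * Cfsg.hermForm N F q x w' ^ q) /
          (Cfsg.hermForm N F q x w * Cfsg.hermForm N F q x w ^ q) := by
      rw [div_pow, div_add_div _ _ hb hbq]
    rw [h3, ← hf, zero_div]

private theorem udtrc_prop [DecidableEq F] {u v e w w' : Fin N → F} (S : udtrc_S q N u v e)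
    (W : udtrc_W q N u v w w') (x x0 : Fin N → F) (hx : udtrc_InP u v x)
    (hx0 : udtrc_InP u v x0) (hxne : x ≠ 0) (hx0ne : x0 ≠ 0)
    (hpsi : udtrc_psi q w w' x = udtrc_psi q w w' x0) : ∃ c : F, c ≠ 0 ∧ x = c • x0 := by
  have hc := udtrc_coords S W x hx
  have hc0 := udtrc_coords S W x0 hx0
  unfold udtrc_psi at hpsi
  by_cases hb : Cfsg.hermForm N F q x w = 0
  · rw [if_pos hb] at hpsi
    by_cases hb0 : Cfsg.hermForm N F q x0 w = 0
    · rw [hb, zero_smul, add_zero] at hc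
      rw [hb0, zero_smul, add_zero] at hc0
      have ha : Cfsg.hermForm N F q x w' ≠ 0 := by
        intro h0; apply hxne; rw [hc, h0, zero_smul]
      have ha0 : Cfsg.hermForm N F q x0 w' ≠ 0 := by
        intro h0; apply hx0ne; rw [hc0, h0, zero_smul]
      refine ⟨Cfsg.hermForm N F q x w' / Cfsg.hermForm N F q x0 w', div_ne_zero ha ha0, ?_⟩
      calc x = Cfsg.hermForm N F q x w' • w := hc
        _ = (Cfsg.hermForm N F q x w' / Cfsg.hermForm N F q x0 w') •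
              (Cfsg.hermForm N F q x0 w' • w) := by rw [smul_smul, div_mul_cancel₀ _ ha0]
        _ = (Cfsg.hermForm N F q x w' / Cfsg.hermForm N F q x0 w') • x0 := by rw [← hc0]
    · rw [if_neg hb0] at hpsi
      exact absurd hpsi (by simp)
  · rw [if_neg hb] at hpsi
    by_cases hb0 : Cfsg.hermForm N F q x0 w = 0
    · rw [if_pos hb0] at hpsi
      exact absurd hpsi (by simp)
    · rw [if_neg hb0] at hpsi
      have hr : Cfsg.hermForm N F q x w' / Cfsg.hermForm N F q x w =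
          Cfsg.hermForm N F q x0 w' / Cfsg.hermForm N F q x0 w := Option.some.inj hpsi
      refine ⟨Cfsg.hermForm N F q x w / Cfsg.hermForm N F q x0 w, div_ne_zero hb hb0, ?_⟩
      have hα : Cfsg.hermForm N F q x w' =
          Cfsg.hermForm N F q x w / Cfsg.hermForm N F q x0 w * Cfsg.hermForm N F q x0 w' := by
        rw [div_eq_iff hb] at hr
        rw [hr]; ring
      calc x = Cfsg.hermForm N F q x w' • w + Cfsg.hermForm N F q x w • w' := hc
        _ = (Cfsg.hermForm N F q x w / Cfsg.hermForm N F q x0 w) •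
              (Cfsg.hermForm N F q x0 w' • w + Cfsg.hermForm N F q x0 w • w') := by
            rw [smul_add, smul_smul, smul_smul, div_mul_cancel₀ _ hb0, ← hα]
        _ = (Cfsg.hermForm N F q x w / Cfsg.hermForm N F q x0 w) • x0 := by rw [← hc0]


/-! ### the context and the counting -/

private structure udtrc_C (q N : ℕ) (Y : Subgroup (GL (Fin N) F)) (u v e w w' : Fin N → F) :
    Prop where
  S : udtrc_S q N u v e
  W : udtrc_W q N u v w w'
  hY : Y ≤ Cfsg.GU N F q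
  hA : ∀ t : F, t ^ (q + 1) = 1 → MIn Y (qrefl q N u t * qrefl q N e t⁻¹)
  hB : ∀ t : F, t ^ (q + 1) = 1 → MIn Y (qrefl q N v t * qrefl q N e t⁻¹)

private def udtrc_Mu (q : ℕ) (p : F × F) : Prop := p.1 ^ (q + 1) = 1 ∧ p.2 ^ (q + 1) = 1

private theorem udtrc_C.GY {Y : Subgroup (GL (Fin N) F)} {u v e w w' : Fin N → F}
    (C : udtrc_C q N Y u v e w w') {p : F × F} (hp : udtrc_Mu q p) :
    MIn Y (udtrc_G q u v e p) := (C.hA _ hp.1).mul (C.hB _ hp.2)

private theorem udtrc_C.G'Y {Y : Subgroup (GL (Fin N) F)} {u v e w w' : Fin N → F}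
    (C : udtrc_C q N Y u v e w w') {p : F × F} (hp : udtrc_Mu q p) :
    MIn Y (udtrc_G' q u v e p) :=
  (C.GY hp).of_mul_eq_one (udtrc_G_mul_G' C.S p (udtrc_ne0 hp.1) (udtrc_ne0 hp.2))

private theorem udtrc_C.KY {Y : Subgroup (GL (Fin N) F)} {u v e w w' : Fin N → F}
    (C : udtrc_C q N Y u v e w w') {p p0 : F × F} (hp : udtrc_Mu q p) (hp0 : udtrc_Mu q p0) :
    MIn Y (udtrc_G' q u v e p0 * udtrc_G q u v e p) := (C.G'Y hp0).mul (C.GY hp)

private theorem udtrc_C.Kgood {Y : Subgroup (GL (Fin N) F)} {u v e w w' : Fin N → F}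
    (C : udtrc_C q N Y u v e w w') (p p0 : F × F) :
    udtrc_Good q u v e (udtrc_G' q u v e p0 * udtrc_G q u v e p)
      (((p0.2 * 1) * (p0.1 * 1)) * ((1 * p.1⁻¹) * (1 * p.2⁻¹))) :=
  (udtrc_G'good C.S p0).mul C.S (udtrc_Ggood C.S p)

private theorem udtrc_Kw' {u v e w w' : Fin N → F} (S : udtrc_S q N u v e)
    (W : udtrc_W q N u v w w') {K : Matrix (Fin N) (Fin N) F}
    (hP : ∀ x, udtrc_InP u v x → udtrc_InP u v (K *ᵥ x))
    (hpres : ∀ x y, Cfsg.hermForm N F q (K *ᵥ x) (K *ᵥ y) = Cfsg.hermForm N F q x y)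
    {χ : F} (hχ : χ ≠ 0) (hKw : K *ᵥ w = χ • w) :
    K *ᵥ w' = Cfsg.hermForm N F q (K *ᵥ w') w' • w + (χ ^ q)⁻¹ • w' := by
  have hcoord := udtrc_coords S W _ (hP w' W.hw')
  have h1 := hpres w w'
  rw [hKw, hf_smul_left, hf_conj S.hF N (K *ᵥ w') w, W.h1] at h1
  have hy : Cfsg.hermForm N F q (K *ᵥ w') w = (χ ^ q)⁻¹ := by
    have h2 : Cfsg.hermForm N F q (K *ᵥ w') w ^ q = χ⁻¹ := eq_inv_of_mul_eq_one_right h1
    rw [← herm_pow_pow S.hF (Cfsg.hermForm N F q (K *ᵥ w') w), h2, inv_pow]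
  rw [← hy]
  exact hcoord

private theorem udtrc_K_mem [DecidableEq F] {Y : Subgroup (GL (Fin N) F)}
    {u v e w w' : Fin N → F} (C : udtrc_C q N Y u v e w w') {p p0 : F × F}
    (hp : udtrc_Mu q p) (hp0 : udtrc_Mu q p0)
    (hpsi : udtrc_psi q w w' (udtrc_G q u v e p *ᵥ w) =
      udtrc_psi q w w' (udtrc_G q u v e p0 *ᵥ w)) :
    Cfsg.hermForm N F q ((udtrc_G' q u v e p0 * udtrc_G q u v e p) *ᵥ w) w' ≠ 0 ∧
    (udtrc_G' q u v e p0 * udtrc_G q u v e p) *ᵥ w =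
      Cfsg.hermForm N F q ((udtrc_G' q u v e p0 * udtrc_G q u v e p) *ᵥ w) w' • w ∧
    (Cfsg.hermForm N F q ((udtrc_G' q u v e p0 * udtrc_G q u v e p) *ᵥ w) w' ^ (q + 1),
      Cfsg.hermForm N F q ((udtrc_G' q u v e p0 * udtrc_G q u v e p) *ᵥ w') w' /
        Cfsg.hermForm N F q ((udtrc_G' q u v e p0 * udtrc_G q u v e p) *ᵥ w) w') ∈
      Gam q N Y w w' e := by
  have S := C.S
  have W := C.W
  have hKY := C.KY hp hp0
  have hKg := C.Kgood p p0
  have hx : udtrc_InP u v (udtrc_G q u v e p *ᵥ w) := (udtrc_Ggood S p).1 w W.hw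
  have hx0 : udtrc_InP u v (udtrc_G q u v e p0 *ᵥ w) := (udtrc_Ggood S p0).1 w W.hw
  have hG'G0 := udtrc_G'_mul_G S p0 (udtrc_ne0 hp0.1) (udtrc_ne0 hp0.2)
  have hG'G := udtrc_G'_mul_G S p (udtrc_ne0 hp.1) (udtrc_ne0 hp.2)
  have hxne : udtrc_G q u v e p *ᵥ w ≠ 0 := by
    intro h0
    apply W.wne
    have h3 : udtrc_G' q u v e p *ᵥ (udtrc_G q u v e p *ᵥ w) = w := by
      rw [Matrix.mulVec_mulVec, hG'G, Matrix.one_mulVec]
    rw [← h3, h0, Matrix.mulVec_zero]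
  have hx0ne : udtrc_G q u v e p0 *ᵥ w ≠ 0 := by
    intro h0
    apply W.wne
    have h3 : udtrc_G' q u v e p0 *ᵥ (udtrc_G q u v e p0 *ᵥ w) = w := by
      rw [Matrix.mulVec_mulVec, hG'G0, Matrix.one_mulVec]
    rw [← h3, h0, Matrix.mulVec_zero]
  obtain ⟨c, hc, hxc⟩ := udtrc_prop S W _ _ hx hx0 hxne hx0ne hpsi
  have hKw : (udtrc_G' q u v e p0 * udtrc_G q u v e p) *ᵥ w = c • w := by
    rw [← Matrix.mulVec_mulVec, hxc, Matrix.mulVec_smul, Matrix.mulVec_mulVec, hG'G0,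
      Matrix.one_mulVec]
  have hχ : Cfsg.hermForm N F q ((udtrc_G' q u v e p0 * udtrc_G q u v e p) *ᵥ w) w' = c := by
    rw [hKw, hf_smul_left, W.h1, mul_one]
  rw [hχ]
  refine ⟨hc, hKw, ?_⟩
  have hKw' := udtrc_Kw' S W hKg.1 (udtrc_pres C.hY hKY) hc hKw
  refine ⟨udtrc_G' q u v e p0 * udtrc_G q u v e p, c,
    ((p0.2 * 1) * (p0.1 * 1)) * ((1 * p.1⁻¹) * (1 * p.2⁻¹)), hKY, hc, ?_, rfl, hKw, ?_, ?_⟩
  · simp only [mul_pow, inv_pow, one_pow, hp.1, hp.2, hp0.1, hp0.2]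
    simp
  · dsimp only
    rw [div_mul_cancel₀ _ hc, add_comm]
    exact hKw'
  · intro x hxw hxw'
    obtain ⟨hxu, hxv⟩ := udtrc_perp_uv S W x hxw hxw'
    exact hKg.2 x hxu hxv

private theorem udtrc_inj {Y : Subgroup (GL (Fin N) F)} {u v e w w' : Fin N → F}
    (C : udtrc_C q N Y u v e w w') {p p' p0 : F × F} (hp : udtrc_Mu q p) (hp' : udtrc_Mu q p')
    (hp0 : udtrc_Mu q p0) {χ χ' : F} (hχ : χ ≠ 0) (hχ' : χ' ≠ 0)
    (hK : (udtrc_G' q u v e p0 * udtrc_G q u v e p) *ᵥ w = χ • w)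
    (hK' : (udtrc_G' q u v e p0 * udtrc_G q u v e p') *ᵥ w = χ' • w)
    (hN : χ ^ (q + 1) = χ' ^ (q + 1))
    (hX : Cfsg.hermForm N F q ((udtrc_G' q u v e p0 * udtrc_G q u v e p) *ᵥ w') w' / χ =
      Cfsg.hermForm N F q ((udtrc_G' q u v e p0 * udtrc_G q u v e p') *ᵥ w') w' / χ') :
    p = p' := by
  have S := C.S
  have W := C.W
  have hl1 : (χ' / χ) ^ (q + 1) = 1 := by
    rw [div_pow, hN, div_self (pow_ne_zero _ hχ')]
  have hlq : (χ' / χ) ^ q = (χ' / χ)⁻¹ := by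
    rw [pow_succ] at hl1
    exact eq_inv_of_mul_eq_one_left hl1
  have hw1 := udtrc_Kw' S W (C.Kgood p p0).1 (udtrc_pres C.hY (C.KY hp hp0)) hχ hK
  have hw2 := udtrc_Kw' S W (C.Kgood p' p0).1 (udtrc_pres C.hY (C.KY hp' hp0)) hχ' hK'
  have e1 : (udtrc_G' q u v e p0 * udtrc_G q u v e p') *ᵥ w =
      (χ' / χ) • ((udtrc_G' q u v e p0 * udtrc_G q u v e p) *ᵥ w) := by
    rw [hK, hK', smul_smul, div_mul_cancel₀ _ hχ]
  have e2 : (udtrc_G' q u v e p0 * udtrc_G q u v e p') *ᵥ w' =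
      (χ' / χ) • ((udtrc_G' q u v e p0 * udtrc_G q u v e p) *ᵥ w') := by
    have hX' : Cfsg.hermForm N F q ((udtrc_G' q u v e p0 * udtrc_G q u v e p') *ᵥ w') w' =
        (χ' / χ) *
          Cfsg.hermForm N F q ((udtrc_G' q u v e p0 * udtrc_G q u v e p) *ᵥ w') w' := by
      rw [eq_div_iff hχ'] at hX
      rw [← hX]; ring
    have hinv : (χ' ^ q)⁻¹ = (χ' / χ) * (χ ^ q)⁻¹ := by
      have h3 : χ' ^ q = (χ' / χ) ^ q * χ ^ q := by rw [← mul_pow, div_mul_cancel₀ _ hχ]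
      rw [h3, hlq, mul_inv, inv_inv]
    rw [hw2, hw1, hX', hinv]
    module
  have key : ∀ x, udtrc_InP u v x → (udtrc_G' q u v e p0 * udtrc_G q u v e p') *ᵥ x =
      (χ' / χ) • ((udtrc_G' q u v e p0 * udtrc_G q u v e p) *ᵥ x) := by
    intro x hx
    obtain ⟨α, β, hc⟩ : ∃ α β : F, x = α • w + β • w' := ⟨_, _, udtrc_coords S W x hx⟩
    rw [hc]
    simp only [Matrix.mulVec_add, Matrix.mulVec_smul, e1, e2]
    module
  have hG : ∀ x, udtrc_InP u v x →
      udtrc_G q u v e p' *ᵥ x = (χ' / χ) • (udtrc_G q u v e p *ᵥ x) := by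
    intro x hx
    have h := congrArg (fun y => udtrc_G q u v e p0 *ᵥ y) (key x hx)
    simp only [Matrix.mulVec_smul, Matrix.mulVec_mulVec, ← Matrix.mul_assoc,
      udtrc_G_mul_G' S p0 (udtrc_ne0 hp0.1) (udtrc_ne0 hp0.2), Matrix.one_mul] at h
    exact h
  have e3 := hG v ⟨0, 1, by simp⟩
  rw [udtrc_G_v S, udtrc_G_v S] at e3
  have e3' : ((p'.1 - 1) * p'.2 * Cfsg.hermForm N F q v u) • u + p'.2 • v =
      ((χ' / χ) * ((p.1 - 1) * p.2 * Cfsg.hermForm N F q v u)) • u + ((χ' / χ) * p.2) • v := by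
    rw [e3]; module
  obtain ⟨e4, e5⟩ := S.uniq e3'
  have e6 := hG u ⟨1, 0, by simp⟩
  rw [udtrc_G_u S, udtrc_G_u S] at e6
  have e6' : (1 + (p'.1 - 1) *
        (1 + (p'.2 - 1) * Cfsg.hermForm N F q u v * Cfsg.hermForm N F q v u)) • u
        + ((p'.2 - 1) * Cfsg.hermForm N F q u v) • v =
      ((χ' / χ) * (1 + (p.1 - 1) *
        (1 + (p.2 - 1) * Cfsg.hermForm N F q u v * Cfsg.hermForm N F q v u))) • u
        + ((χ' / χ) * ((p.2 - 1) * Cfsg.hermForm N F q u v)) • v := by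
    rw [e6]; module
  obtain ⟨-, e8⟩ := S.uniq e6'
  have e9 : p'.2 - 1 = (χ' / χ) * (p.2 - 1) :=
    mul_right_cancel₀ S.huv0 (by rw [e8]; ring)
  have hl : χ' / χ = 1 := by
    rw [e5] at e9
    linear_combination e9
  have ht : p'.2 = p.2 := by rw [e5, hl, one_mul]
  have hs : p'.1 = p.1 := by
    rw [ht, hl, one_mul] at e4
    have h4 := mul_right_cancel₀ (udtrc_ne0 hp.2) (mul_right_cancel₀ S.hvu0 e4)
    linear_combination h4
  exact Prod.ext hs.symm ht.symm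

private theorem udtrc_main [DecidableEq F] {Y : Subgroup (GL (Fin N) F)}
    {u v e w w' : Fin N → F} (C : udtrc_C q N Y u v e w w') :
    q + 1 ≤ (Gam q N Y w w' e).ncard := by
  have hF := C.S.hF
  obtain ⟨μ, hμ⟩ : ∃ μ : Finset F, μ = Finset.univ.filter (fun t : F => t ^ (q + 1) = 1) :=
    ⟨_, rfl⟩
  have hμc : μ.card = q + 1 := by rw [hμ]; exact herm_card_norm_one hF
  have hμm : ∀ p : F × F, p ∈ μ ×ˢ μ → udtrc_Mu q p := by
    intro p hp
    rw [Finset.mem_product, hμ, Finset.mem_filter, Finset.mem_filter] at hp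
    exact ⟨hp.1.2, hp.2.2⟩
  obtain ⟨T, hT⟩ : ∃ T : Finset (Option F), T =
      insert none ((Finset.univ.filter (fun a : F => a + a ^ q = 0)).image some) := ⟨_, rfl⟩
  have hTc : T.card ≤ q + 1 := by
    rw [hT]
    calc (insert none ((Finset.univ.filter (fun a : F => a + a ^ q = 0)).image some)).card
        ≤ ((Finset.univ.filter (fun a : F => a + a ^ q = 0)).image some).card + 1 :=
          Finset.card_insert_le _ _
      _ ≤ (Finset.univ.filter (fun a : F => a + a ^ q = 0)).card + 1 :=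
          Nat.add_le_add_right Finset.card_image_le 1
      _ ≤ q + 1 := Nat.add_le_add_right (udtrc_card_L hF) 1
  have hmaps : ∀ p ∈ μ ×ˢ μ, udtrc_psi q w w' (udtrc_G q u v e p *ᵥ w) ∈ T := by
    intro p hp
    have hpm := hμm p hp
    have hx : udtrc_InP u v (udtrc_G q u v e p *ᵥ w) := (udtrc_Ggood C.S p).1 w C.W.hw
    have hiso : Cfsg.hermForm N F q (udtrc_G q u v e p *ᵥ w) (udtrc_G q u v e p *ᵥ w) = 0 := by
      rw [udtrc_pres C.hY (C.GY hpm), C.W.hww]
    rcases udtrc_psi_mem C.S C.W _ hx hiso with h | ⟨a, ha, h⟩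
    · rw [h, hT]; exact Finset.mem_insert_self _ _
    · rw [h, hT]
      exact Finset.mem_insert_of_mem
        (Finset.mem_image_of_mem _ (Finset.mem_filter.2 ⟨Finset.mem_univ _, ha⟩))
  have hne : T.Nonempty := ⟨none, by rw [hT]; exact Finset.mem_insert_self _ _⟩
  have hcard : T.card * (q + 1) ≤ (μ ×ˢ μ).card := by
    rw [Finset.card_product, hμc]; exact Nat.mul_le_mul_right _ hTc
  obtain ⟨y, hy, hfib⟩ := Finset.exists_le_card_fiber_of_mul_le_card_of_maps_to hmaps hne hcard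
  obtain ⟨Sf, hSf⟩ : ∃ Sf : Finset (F × F), Sf =
      (μ ×ˢ μ).filter (fun p => udtrc_psi q w w' (udtrc_G q u v e p *ᵥ w) = y) := ⟨_, rfl⟩
  have hfib' : q + 1 ≤ Sf.card := by rw [hSf]; exact hfib
  have hSfm : ∀ p ∈ Sf, udtrc_Mu q p ∧ udtrc_psi q w w' (udtrc_G q u v e p *ᵥ w) = y := by
    intro p hp
    rw [hSf, Finset.mem_filter] at hp
    exact ⟨hμm p hp.1, hp.2⟩
  have hSfne : Sf.Nonempty := Finset.card_pos.1 (by omega)
  obtain ⟨p0, hp0⟩ := hSfne
  obtain ⟨hp0m, hp0y⟩ := hSfm p0 hp0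
  have hmem : ∀ p ∈ (↑Sf : Set (F × F)),
      (fun p : F × F =>
        (Cfsg.hermForm N F q ((udtrc_G' q u v e p0 * udtrc_G q u v e p) *ᵥ w) w' ^ (q + 1),
        Cfsg.hermForm N F q ((udtrc_G' q u v e p0 * udtrc_G q u v e p) *ᵥ w') w' /
          Cfsg.hermForm N F q ((udtrc_G' q u v e p0 * udtrc_G q u v e p) *ᵥ w) w')) p ∈
        Gam q N Y w w' e := by
    intro p hp
    obtain ⟨hpm, hpy⟩ := hSfm p (Finset.mem_coe.1 hp)
    exact (udtrc_K_mem C hpm hp0m (hpy.trans hp0y.symm)).2.2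
  have hinj : Set.InjOn (fun p : F × F =>
        (Cfsg.hermForm N F q ((udtrc_G' q u v e p0 * udtrc_G q u v e p) *ᵥ w) w' ^ (q + 1),
        Cfsg.hermForm N F q ((udtrc_G' q u v e p0 * udtrc_G q u v e p) *ᵥ w') w' /
          Cfsg.hermForm N F q ((udtrc_G' q u v e p0 * udtrc_G q u v e p) *ᵥ w) w'))
      (↑Sf : Set (F × F)) := by
    intro p hp p' hp' hΦ
    obtain ⟨hpm, hpy⟩ := hSfm p (Finset.mem_coe.1 hp)
    obtain ⟨hpm', hpy'⟩ := hSfm p' (Finset.mem_coe.1 hp')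
    obtain ⟨hχ, hKw, -⟩ := udtrc_K_mem C hpm hp0m (hpy.trans hp0y.symm)
    obtain ⟨hχ', hKw', -⟩ := udtrc_K_mem C hpm' hp0m (hpy'.trans hp0y.symm)
    have h1 := congrArg Prod.fst hΦ
    have h2 := congrArg Prod.snd hΦ
    exact udtrc_inj C hpm hpm' hp0m hχ hχ' hKw hKw' h1 h2
  calc q + 1 ≤ Sf.card := hfib'
    _ = (↑Sf : Set (F × F)).ncard := (Set.ncard_coe_finset Sf).symm
    _ ≤ (Gam q N Y w w' e).ncard :=
        Set.ncard_le_ncard_of_injOn _ hmem hinj (Set.toFinite _)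

end

theorem ud_trc {F : Type*} [Field F] [Fintype F] (q : ℕ) : TRCStmt F q := by
  classical
  intro hF N Y hY u v e w w' huu hvv huv0 huv1 he heu hev hA hB hw hw' hww hww' h1
  exact udtrc_main ⟨⟨hF, huu, hvv, huv0, huv1, he, heu, hev⟩, ⟨hw, hw', hww, hww', h1⟩, hY,
    hA, hB⟩

end Cfsg.Agent.Lib.Helper44.UD
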